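import Mathlib

/-!
# helper16: S5514 piece INV -- two class functions of a permutation representation
-/

set_option autoImplicit false

namespace Cfsg.Agent.H16.PermInv

theorem perm_inv_apply_self {X : Type*} (σ : Equiv.Perm X) (x : X) : σ⁻¹ (σ x) = x := by
  rw [Equiv.Perm.inv_def, Equiv.symm_apply_apply]

/-- **S5514, piece INV (1).** -/
theorem card_fixed_conj {G X : Type*} [Group G] [Finite X] (ρ : G →* Equiv.Perm X) (g h : G) :
    Nat.card {x : X // (ρ (h * g * h⁻¹))⁻¹ x = x} = Nat.card {x : X // (ρ g)⁻¹ x = x} := by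
  symm
  apply Nat.card_congr
  refine (ρ h).subtypeEquiv (fun x => ?_)
  rw [map_mul, map_mul, map_inv, mul_inv_rev, mul_inv_rev, inv_inv, Equiv.Perm.mul_apply,
    Equiv.Perm.mul_apply, perm_inv_apply_self]
  constructor
  · intro hx
    rw [hx]
  · intro hx
    exact (ρ h).injective hx

/-- **S5514, piece INV (2).** -/
theorem card_rel_conj {G X : Type*} [Group G] [Finite X] (ρ : G →* Equiv.Perm X) (H : Subgroup G)
    (S : X → Prop) (R : X → X → Prop)
    (hS : ∀ h ∈ H, ∀ x, S x → S (ρ h x))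
    (hR : ∀ h ∈ H, ∀ x y, S x → S y → R x y → R (ρ h x) (ρ h y))
    (g h : G) (hg : g ∈ H) (hh : h ∈ H) :
    Nat.card {x : X // S x ∧ R x ((ρ (h * g * h⁻¹))⁻¹ x)} =
      Nat.card {x : X // S x ∧ R x ((ρ g)⁻¹ x)} := by
  symm
  apply Nat.card_congr
  refine (ρ h).subtypeEquiv (fun x => ?_)
  have e1 : (ρ (h * g * h⁻¹))⁻¹ (ρ h x) = ρ h ((ρ g)⁻¹ x) := by
    rw [map_mul, map_mul, map_inv, mul_inv_rev, mul_inv_rev, inv_inv, Equiv.Perm.mul_apply,
      Equiv.Perm.mul_apply, perm_inv_apply_self]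
  rw [e1]
  have hginv : ∀ x, S x → S ((ρ g)⁻¹ x) := by
    intro x hx
    have := hS g⁻¹ (H.inv_mem hg) x hx
    rwa [map_inv] at this
  have hback : ∀ x, (ρ h⁻¹) (ρ h x) = x := by
    intro x
    rw [map_inv, perm_inv_apply_self]
  constructor
  · rintro ⟨hx, hr⟩
    exact ⟨hS h hh x hx, hR h hh x _ hx (hginv x hx) hr⟩
  · rintro ⟨hx, hr⟩
    have hx' : S x := by
      have := hS h⁻¹ (H.inv_mem hh) _ hx
      rwa [hback] at this
    refine ⟨hx', ?_⟩
    have := hR h⁻¹ (H.inv_mem hh) _ _ hx (hS h hh _ (hginv x hx')) hr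
    rwa [hback, hback] at this

end Cfsg.Agent.H16.PermInv
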