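import Cfsg.Agent.H52.SnDefs

set_option autoImplicit false

/-!
# helper16: SN-FINA for helper52 (S2942)

`O ≤ Q` and `K C` is normal in the normal subgroup `R = C ⟨odd-order elements of M⟩`.
-/

namespace Cfsg.Agent.H16.Sn

open Cfsg Cfsg.Agent.H52.Sn
open scoped Pointwise

universe u

/-- A subgroup generated by pairwise commuting elements is commutative. -/
theorem closure_comm {Y : Type u} [Group Y] (s : Set Y)
    (h : ∀ x ∈ s, ∀ y ∈ s, x * y = y * x) :
    ∀ p ∈ Subgroup.closure s, ∀ q ∈ Subgroup.closure s, p * q = q * p := by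
  have h2 : Subgroup.closure s ≤ Subgroup.centralizer s := by
    rw [Subgroup.closure_le]
    intro x hx
    rw [SetLike.mem_coe, Subgroup.mem_centralizer_iff]
    intro y hy
    exact h y hy x hx
  have h4 : Subgroup.closure s ≤ Subgroup.centralizer (Subgroup.closure s : Set Y) := by
    rw [Subgroup.closure_le]
    intro t ht
    rw [SetLike.mem_coe, Subgroup.mem_centralizer_iff]
    intro p hp
    have h5 := h2 hp
    rw [Subgroup.mem_centralizer_iff] at h5
    exact (h5 t ht).symm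
  intro p hp q hq
  have h6 := h4 hq
  rw [Subgroup.mem_centralizer_iff] at h6
  exact h6 p hp

/-- In a subgroup generated by pairwise commuting elements of exponent `m`, every element has
exponent `m`. -/
theorem closure_pow {Y : Type u} [Group Y] (s : Set Y) (m : ℕ)
    (h : ∀ x ∈ s, ∀ y ∈ s, x * y = y * x) (hm : ∀ x ∈ s, x ^ m = 1) :
    ∀ p ∈ Subgroup.closure s, p ^ m = 1 := by
  intro p hp
  induction hp using Subgroup.closure_induction with
  | mem x hx => exact hm x hx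
  | one => exact one_pow m
  | mul x y hx hy ihx ihy =>
    rw [(show Commute x y from closure_comm s h x hx y hy).mul_pow, ihx, ihy, one_mul]
  | inv x _ ihx => rw [inv_pow, ihx, inv_one]

/-- The closure of a conjugation-invariant set is normal. -/
theorem closure_normal {Y : Type u} [Group Y] (s : Set Y)
    (h : ∀ x ∈ s, ∀ g : Y, g * x * g⁻¹ ∈ s) : (Subgroup.closure s).Normal := by
  constructor
  intro n hn g
  induction hn using Subgroup.closure_induction with
  | mem x hx => exact Subgroup.subset_closure (h x hx g)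
  | one => rw [mul_one, mul_inv_cancel]; exact Subgroup.one_mem _
  | mul x y _ _ ihx ihy =>
    have : g * (x * y) * g⁻¹ = g * x * g⁻¹ * (g * y * g⁻¹) := by group
    rw [this]
    exact Subgroup.mul_mem _ ihx ihy
  | inv x _ ihx =>
    have : g * x⁻¹ * g⁻¹ = (g * x * g⁻¹)⁻¹ := by group
    rw [this]
    exact Subgroup.inv_mem _ ihx

theorem finA : StFinA.{u} := by
  intro X _ _ T C Q M J K O hT hTodd hCn hQn hMn hTCQ hJM hcomm hKgen hKJ hOK hO
  haveI : Fact (Nat.Prime 2) := ⟨Nat.prime_two⟩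
  haveI := hMn
  -- the generating set
  obtain ⟨S', hS'⟩ : ∃ S' : Set X, S' = {x : X | x ∈ M ∧ Odd (orderOf x)} := ⟨_, rfl⟩
  have hS'conj : ∀ x ∈ S', ∀ g : X, g * x * g⁻¹ ∈ S' := by
    intro x hx g
    rw [hS'] at hx ⊢
    refine ⟨hMn.conj_mem x hx.1 g, ?_⟩
    have ho : orderOf (g * x * g⁻¹) = orderOf x := by
      rw [← MulAut.conj_apply]
      exact MulEquiv.orderOf_eq (MulAut.conj g) x
    rw [ho]
    exact hx.2
  obtain ⟨U, hU⟩ : ∃ U : Subgroup X, U = Subgroup.closure S' := ⟨_, rfl⟩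
  haveI hUn : U.Normal := by rw [hU]; exact closure_normal S' hS'conj
  obtain ⟨R, hR⟩ : ∃ R : Subgroup X, R = C ⊔ U := ⟨_, rfl⟩
  haveI hRn : R.Normal := by rw [hR]; infer_instance
  -- `K ≤ M`, `K ≤ U`
  have hKM : K ≤ M := by
    rw [← hKJ]
    exact le_trans (Subgroup.commutator_mono le_rfl hJM) (Subgroup.commutator_le_right K M)
  have hKU : K ≤ U := by
    rw [← hKgen, hU]
    apply Subgroup.closure_mono
    intro g hg
    rw [hS']
    exact ⟨hKM hg.1, hg.2⟩
  have hKCR : K ⊔ C ≤ R := by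
    rw [hR]
    exact sup_le (le_trans hKU le_sup_right) le_sup_left
  -- the quotient
  obtain ⟨π, hπ⟩ : ∃ π : X →* X ⧸ C, π = QuotientGroup.mk' C := ⟨_, rfl⟩
  have hker : ∀ z : X, π z = 1 ↔ z ∈ C := by
    intro z
    rw [hπ]
    exact QuotientGroup.eq_one_iff z
  obtain ⟨T', hT'⟩ : ∃ T' : Set (X ⧸ C), T' = π '' S' := ⟨_, rfl⟩
  have hT'comm : ∀ p ∈ T', ∀ q ∈ T', p * q = q * p := by
    intro p hp q hq
    rw [hT'] at hp hq
    obtain ⟨u, hu, rfl⟩ := hp
    obtain ⟨v, hv, rfl⟩ := hq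
    rw [hS'] at hu hv
    have h1 := hcomm u hu.1 v hv.1 hu.2 hv.2
    rw [← hker, map_mul, map_mul, map_mul, map_inv, map_inv] at h1
    have h2 : π u * π v = π u * π v * (π u)⁻¹ * (π v)⁻¹ * (π v * π u) := by group
    rw [h2, h1, one_mul]
  have hRmap : R.map π ≤ Subgroup.closure T' := by
    rw [hR, Subgroup.map_sup, hU, MonoidHom.map_closure, ← hT']
    apply sup_le _ le_rfl
    rintro _ ⟨z, hz, rfl⟩
    rw [(hker z).2 hz]
    exact Subgroup.one_mem _
  -- (A) `R / C` is abelian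
  have hA : ∀ r ∈ R, ∀ h ∈ R, r * h * r⁻¹ * h⁻¹ ∈ C := by
    intro r hr h hh
    rw [← hker, map_mul, map_mul, map_mul, map_inv, map_inv]
    have h1 := closure_comm T' hT'comm (π r) (hRmap (Subgroup.mem_map_of_mem π hr)) (π h)
      (hRmap (Subgroup.mem_map_of_mem π hh))
    rw [h1]
    group
  -- (B) `R / C` has odd exponent
  have hN0 : Nat.card X ≠ 0 := Nat.card_pos.ne'
  obtain ⟨k, m, hmodd, hNkm⟩ := Nat.exists_eq_two_pow_mul_odd hN0
  have hmcop : ∀ j : ℕ, Nat.Coprime m (2 ^ j) := fun j =>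
    Nat.Coprime.pow_right j (Nat.coprime_two_right.2 hmodd)
  have hT'pow : ∀ p ∈ T', p ^ m = 1 := by
    intro p hp
    rw [hT'] at hp
    obtain ⟨u, hu, rfl⟩ := hp
    rw [hS'] at hu
    have h1 : orderOf u ∣ 2 ^ k * m := by
      rw [← hNkm]
      exact orderOf_dvd_natCard u
    have h2 : orderOf u ∣ m :=
      (Nat.Coprime.pow_right k (Nat.coprime_two_right.2 hu.2)).dvd_of_dvd_mul_left h1
    rw [← map_pow, orderOf_dvd_iff_pow_eq_one.1 h2, map_one]
  have hB : ∀ r ∈ R, (π r) ^ m = 1 := fun r hr =>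
    closure_pow T' m hT'comm hT'pow (π r) (hRmap (Subgroup.mem_map_of_mem π hr))
  -- `O ≤ C`
  have hOC : O ≤ C := by
    intro o ho
    rw [← hker]
    have h1 : (π o) ^ m = 1 := hB o (hKCR (Subgroup.mem_sup_left (hOK ho)))
    obtain ⟨j, hj⟩ := hO ⟨o, ho⟩
    have h2 : (π o) ^ (2 ^ j) = 1 := by
      have h3 : o ^ (2 ^ j) = 1 := congrArg Subtype.val hj
      rw [← map_pow, h3, map_one]
    have h4 : orderOf (π o) ∣ Nat.gcd m (2 ^ j) :=
      Nat.dvd_gcd (orderOf_dvd_of_pow_eq_one h1) (orderOf_dvd_of_pow_eq_one h2)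
    rw [hmcop j] at h4
    exact orderOf_eq_one_iff.1 (Nat.dvd_one.1 h4)
  -- `O ≤ Q` by Sylow
  have hTnd : ¬ 2 ∣ T.index := by
    intro h
    exact (Nat.not_even_iff_odd.2 hTodd) (even_iff_two_dvd.2 h)
  have hOQ : O ≤ Q := by
    obtain ⟨P', hOP'⟩ := hO.exists_le_sylow
    obtain ⟨g, hg⟩ := MulAction.exists_smul_eq X (hT.toSylow hTnd) P'
    intro o ho
    have h1 : o ∈ (g • hT.toSylow hTnd : Sylow 2 X) := by
      rw [hg]
      exact hOP' ho
    have h2 : g⁻¹ * o * g ∈ T := by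
      have h3 : o ∈ MulAut.conj g • (T : Subgroup X) := h1
      rw [Subgroup.mem_pointwise_smul_iff_inv_smul_mem, MulAut.smul_def,
        MulAut.conj_inv_apply] at h3
      exact h3
    have h4 : g⁻¹ * o * g ∈ C := by
      have := hCn.conj_mem o (hOC ho) g⁻¹
      rw [inv_inv] at this
      exact this
    have h5 : g⁻¹ * o * g ∈ Q := hTCQ ⟨h2, h4⟩
    have h6 := hQn.conj_mem _ h5 g
    have h7 : g * (g⁻¹ * o * g) * g⁻¹ = o := by group
    rw [h7] at h6
    exact h6
  refine ⟨hOQ, R, hRn, hKCR, ?_⟩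
  -- `R` normalizes `K ⊔ C`
  have hfwd : ∀ r ∈ R, ∀ h ∈ K ⊔ C, r * h * r⁻¹ ∈ K ⊔ C := by
    intro r hr h hh
    have h1 : r * h * r⁻¹ = r * h * r⁻¹ * h⁻¹ * h := by group
    rw [h1]
    exact Subgroup.mul_mem _ (Subgroup.mem_sup_right (hA r hr h (hKCR hh))) hh
  intro r hr
  rw [Subgroup.mem_normalizer_iff]
  intro h
  refine ⟨hfwd r hr h, ?_⟩
  intro hh
  have h1 := hfwd r⁻¹ (R.inv_mem hr) _ hh
  have h2 : r⁻¹ * (r * h * r⁻¹) * r⁻¹⁻¹ = h := by group
  rw [h2] at h1
  exact h1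

end Cfsg.Agent.H16.Sn
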