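import Cfsg.Agent.H52.SpDefs
import Cfsg.Agent.H16.SnFinA

set_option autoImplicit false

/-!
# helper16: SP-NORMB for helper52 / helper66 (S2944)

If `K^n ≤ K C` then `K^n ≤ K`.  Route: in `X / Q` the image `Ū` of the subgroup generated by the
odd-order elements of `M` is abelian of odd exponent and of 2-power index in `M̄`; the transfer
`M̄ → Ū` kills `[M, M] ⊇ K, K^n` and is the `index`-th power on the central elements, so the
`C`-parts of the elements of `K^n` lie in `Q`; finally `K` contains the odd-order elements of `K Q`.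
-/

namespace Cfsg.Agent.H16.Sn

open Cfsg Cfsg.Agent.H52.Sn
open scoped Pointwise IsMulCommutative commutatorElement

universe u

/-- Powers of `k * q` lie in `K * q ^ i` when `q` normalizes `K`. -/
theorem pow_mem_mul {X : Type u} [Group X] (K Q : Subgroup X)
    (hQK : Q ≤ Subgroup.normalizer (K : Set X)) {k q : X} (hk : k ∈ K) (hq : q ∈ Q) :
    ∀ i : ℕ, ∃ k' ∈ K, (k * q) ^ i = k' * q ^ i := by
  intro i
  induction i with
  | zero => exact ⟨1, K.one_mem, by rw [pow_zero, pow_zero, mul_one]⟩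
  | succ i ih =>
    obtain ⟨k', hk', h⟩ := ih
    have h1 : q ^ i * k * (q ^ i)⁻¹ ∈ K :=
      (Subgroup.mem_normalizer_iff.1 (hQK (Q.pow_mem hq i)) k).1 hk
    refine ⟨k' * (q ^ i * k * (q ^ i)⁻¹), K.mul_mem hk' h1, ?_⟩
    rw [pow_succ, h, pow_succ]
    group

/-- Odd-order elements of `K Q` lie in `K` (`Q` a normal 2-group normalizing `K`). -/
theorem odd_mem_of_mem_sup {X : Type u} [Group X] [Finite X] (K Q : Subgroup X) (hQn : Q.Normal)
    (hQ2 : IsPGroup 2 ↥Q) (hQK : Q ≤ Subgroup.normalizer (K : Set X)) {g : X}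
    (hg : g ∈ K ⊔ Q) (hodd : Odd (orderOf g)) : g ∈ K := by
  haveI := hQn
  have h1 : g ∈ (K : Set X) * (Q : Set X) := by
    rw [← Subgroup.mul_normal]
    exact hg
  obtain ⟨k, hk, q, hq, rfl⟩ := Set.mem_mul.1 h1
  obtain ⟨j, hj⟩ := hQ2 ⟨q, hq⟩
  have hqj : q ^ (2 ^ j) = 1 := congrArg Subtype.val hj
  obtain ⟨k', hk', h2⟩ := pow_mem_mul K Q hQK hk hq (2 ^ j)
  rw [hqj, mul_one] at h2
  have hcop : Nat.Coprime (2 ^ j) (orderOf (k * q)) :=
    Nat.Coprime.pow_left j (Nat.coprime_two_left.2 hodd)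
  obtain ⟨s, hs⟩ := exists_pow_eq_self_of_coprime hcop
  rw [← hs, h2]
  exact K.pow_mem hk' s

theorem normB : StNormB.{u} := by
  intro X _ _ C Q M J K n hCn hQn hMn hQ2 hCM hcomm hJM hKJ hKgen hQK hle
  haveI : Fact (Nat.Prime 2) := ⟨Nat.prime_two⟩
  haveI := hMn
  haveI := hCn
  haveI := hQn
  -- the subgroup generated by the odd-order elements of `M`
  obtain ⟨S', hS'⟩ : ∃ S' : Set X, S' = {x : X | x ∈ M ∧ Odd (orderOf x)} := ⟨_, rfl⟩
  have hS'conj : ∀ x ∈ S', ∀ g : X, g * x * g⁻¹ ∈ S' := by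
    intro x hx g
    rw [hS'] at hx ⊢
    refine ⟨hMn.conj_mem x hx.1 g, ?_⟩
    have ho : orderOf (g * x * g⁻¹) = orderOf x := by
      rw [← MulAut.conj_apply]
      exact MulEquiv.orderOf_eq (MulAut.conj g) x
    rw [ho]
    exact hx.2
  obtain ⟨U, hU⟩ : ∃ U : Subgroup X, U = Subgroup.closure S' := ⟨_, rfl⟩
  have hUn : U.Normal := by rw [hU]; exact closure_normal S' hS'conj
  have hUM : U ≤ M := by
    rw [hU, Subgroup.closure_le]
    intro x hx
    rw [hS'] at hx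
    exact hx.1
  have hKM : K ≤ M := by
    rw [← hKJ]
    exact le_trans (Subgroup.commutator_mono le_rfl hJM) (Subgroup.commutator_le_right K M)
  have hKU : K ≤ U := by
    rw [← hKgen, hU]
    apply Subgroup.closure_mono
    intro g hg
    rw [hS']
    exact ⟨hKM hg.1, hg.2⟩
  have hKD : K ≤ ⁅M, M⁆ := by
    rw [← hKJ]
    exact Subgroup.commutator_mono hKM hJM
  -- the conjugate
  obtain ⟨K₂, hK₂⟩ : ∃ K₂ : Subgroup X, K₂ = K.map (MulAut.conj n).toMonoidHom := ⟨_, rfl⟩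
  rw [← hK₂] at hle ⊢
  have hK₂mem : ∀ x ∈ K₂, ∃ k ∈ K, x = n * k * n⁻¹ := by
    intro x hx
    rw [hK₂] at hx
    obtain ⟨k, hk, rfl⟩ := hx
    exact ⟨k, hk, rfl⟩
  have hK₂U : K₂ ≤ U := by
    intro x hx
    obtain ⟨k, hk, rfl⟩ := hK₂mem x hx
    exact hUn.conj_mem k (hKU hk) n
  have hK₂D : K₂ ≤ ⁅M, M⁆ := by
    intro x hx
    obtain ⟨k, hk, rfl⟩ := hK₂mem x hx
    exact (inferInstance : (⁅M, M⁆).Normal).conj_mem k (hKD hk) n
  -- the quotient by `Q`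
  obtain ⟨π, hπ⟩ : ∃ π : X →* X ⧸ Q, π = QuotientGroup.mk' Q := ⟨_, rfl⟩
  have hπsurj : Function.Surjective π := by rw [hπ]; exact QuotientGroup.mk'_surjective Q
  have hker : ∀ z : X, π z = 1 ↔ z ∈ Q := by
    intro z
    rw [hπ]
    exact QuotientGroup.eq_one_iff z
  obtain ⟨T', hT'⟩ : ∃ T' : Set (X ⧸ Q), T' = π '' S' := ⟨_, rfl⟩
  have hT'comm : ∀ p ∈ T', ∀ q ∈ T', p * q = q * p := by
    intro p hp q hq
    rw [hT'] at hp hq
    obtain ⟨u, hu, rfl⟩ := hp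
    obtain ⟨v, hv, rfl⟩ := hq
    rw [hS'] at hu hv
    have h1 := hcomm u hu.1 v hv.1 hu.2 hv.2
    rw [← hker, map_mul, map_mul, map_mul, map_inv, map_inv] at h1
    have h2 : π u * π v = π u * π v * (π u)⁻¹ * (π v)⁻¹ * (π v * π u) := by group
    rw [h2, h1, one_mul]
  obtain ⟨Ub, hUb⟩ : ∃ Ub : Subgroup (X ⧸ Q), Ub = U.map π := ⟨_, rfl⟩
  obtain ⟨Mb, hMb⟩ : ∃ Mb : Subgroup (X ⧸ Q), Mb = M.map π := ⟨_, rfl⟩
  have hMbmem : ∀ y : X ⧸ Q, y ∈ Mb ↔ ∃ g ∈ M, π g = y := by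
    intro y
    rw [hMb]
    exact Subgroup.mem_map
  have hUbcl : Ub = Subgroup.closure T' := by
    rw [hUb, hU, MonoidHom.map_closure, ← hT']
  haveI hUbn : Ub.Normal := by rw [hUb]; exact hUn.map π hπsurj
  have hUbcomm : ∀ p ∈ Ub, ∀ q ∈ Ub, p * q = q * p := by
    rw [hUbcl]
    exact closure_comm T' hT'comm
  -- odd exponent of `Ub`
  have hN0 : Nat.card X ≠ 0 := Nat.card_pos.ne'
  obtain ⟨k0, m, hmodd, hNkm⟩ := Nat.exists_eq_two_pow_mul_odd hN0
  have hT'pow : ∀ p ∈ T', p ^ m = 1 := by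
    intro p hp
    rw [hT'] at hp
    obtain ⟨u, hu, rfl⟩ := hp
    rw [hS'] at hu
    have h1 : orderOf u ∣ 2 ^ k0 * m := by
      rw [← hNkm]
      exact orderOf_dvd_natCard u
    have h2 : orderOf u ∣ m :=
      (Nat.Coprime.pow_right k0 (Nat.coprime_two_right.2 hu.2)).dvd_of_dvd_mul_left h1
    rw [← map_pow, orderOf_dvd_iff_pow_eq_one.1 h2, map_one]
  have hUbpow : ∀ p ∈ Ub, p ^ m = 1 := by
    rw [hUbcl]
    exact closure_pow T' m hT'comm hT'pow
  -- the transfer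
  obtain ⟨H, hH⟩ : ∃ H : Subgroup ↥Mb, H = Ub.subgroupOf Mb := ⟨_, rfl⟩
  haveI hHn : H.Normal := by rw [hH]; infer_instance
  have hHmem : ∀ α : ↥Mb, α ∈ H ↔ (α : X ⧸ Q) ∈ Ub := by
    intro α
    rw [hH, Subgroup.mem_subgroupOf]
  haveI hHc : IsMulCommutative ↥H :=
    ⟨⟨fun a b => Subtype.ext (Subtype.ext (hUbcomm a.1.1 ((hHmem a.1).1 a.2) b.1.1
      ((hHmem b.1).1 b.2)))⟩⟩
  obtain ⟨Vt, hVt⟩ : ∃ Vt : ↥Mb →* ↥H, Vt = MonoidHom.transfer (MonoidHom.id ↥H) := ⟨_, rfl⟩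
  have hVtcomm : ∀ α β : ↥Mb, Vt (α * β * α⁻¹ * β⁻¹) = 1 := by
    intro α β
    simp only [map_mul, map_inv]
    rw [mul_comm (Vt α) (Vt β), mul_inv_cancel_right, mul_inv_cancel]
  -- the index of `H` is a power of two
  have hidx : ∃ e : ℕ, H.index = 2 ^ e := by
    have hP : IsPGroup 2 (↥Mb ⧸ H) := by
      intro r
      induction r using QuotientGroup.induction_on with
      | H α =>
        obtain ⟨g, hgM, hgα⟩ := (hMbmem _).1 α.2
        have hg0 : orderOf g ≠ 0 := (orderOf_pos g).ne'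
        obtain ⟨a, r', hr'odd, hga⟩ := Nat.exists_eq_two_pow_mul_odd hg0
        have h1 : (g ^ (2 ^ a)) ^ r' = 1 := by
          rw [← pow_mul, ← hga, pow_orderOf_eq_one]
        have h2 : Odd (orderOf (g ^ (2 ^ a))) :=
          Odd.of_dvd_nat hr'odd (orderOf_dvd_of_pow_eq_one h1)
        have h3 : g ^ (2 ^ a) ∈ U := by
          rw [hU]
          apply Subgroup.subset_closure
          rw [hS']
          exact ⟨M.pow_mem hgM _, h2⟩
        refine ⟨a, ?_⟩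
        rw [← QuotientGroup.mk_pow, QuotientGroup.eq_one_iff, hHmem,
          Subgroup.coe_pow, ← hgα, ← map_pow, hUb]
        exact Subgroup.mem_map_of_mem π h3
    obtain ⟨e, he⟩ := IsPGroup.iff_card.1 hP
    exact ⟨e, by rw [Subgroup.index_eq_card, he]⟩
  obtain ⟨e, he⟩ := hidx
  -- the key: elements of `C ⊓ U ⊓ ⁅M, M⁆` lie in `Q`
  have hkey : ∀ c ∈ C, c ∈ U → c ∈ ⁅M, M⁆ → c ∈ Q := by
    intro c hcC hcU hcD
    have hcM : c ∈ M := hUM hcU
    have hπcMb : π c ∈ Mb := (hMbmem _).2 ⟨c, hcM, rfl⟩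
    obtain ⟨α, hα⟩ : ∃ α : ↥Mb, α = ⟨π c, hπcMb⟩ := ⟨_, rfl⟩
    -- `α` is central
    have hcent : ∀ β : ↥Mb, α * β = β * α := by
      intro β
      obtain ⟨b, hbM, hbβ⟩ := (hMbmem _).1 β.2
      apply Subtype.ext
      rw [hα]
      show π c * (β : X ⧸ Q) = (β : X ⧸ Q) * π c
      rw [← hbβ]
      have h1 : c * b * c⁻¹ * b⁻¹ ∈ Q := by
        apply hCM
        have h2 := Subgroup.commutator_mem_commutator hcC hbM
        rw [commutatorElement_def] at h2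
        exact h2
      rw [← hker, map_mul, map_mul, map_mul, map_inv, map_inv] at h1
      have h3 : π c * π b = π c * π b * (π c)⁻¹ * (π b)⁻¹ * (π b * π c) := by group
      rw [h3, h1, one_mul]
    -- the transfer kills `α`
    have hVα : Vt α = 1 := by
      -- `⁅M, M⁆ ≤ D`
      have hD : ⁅M, M⁆ ≤ (Vt.ker.map Mb.subtype).comap π := by
        rw [Subgroup.commutator_le]
        intro a ha b hb
        rw [Subgroup.mem_comap, commutatorElement_def]
        have haMb : π a ∈ Mb := (hMbmem _).2 ⟨a, ha, rfl⟩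
        have hbMb : π b ∈ Mb := (hMbmem _).2 ⟨b, hb, rfl⟩
        refine ⟨(⟨π a, haMb⟩ : ↥Mb) * ⟨π b, hbMb⟩ * (⟨π a, haMb⟩ : ↥Mb)⁻¹ *
          (⟨π b, hbMb⟩ : ↥Mb)⁻¹, ?_, ?_⟩
        · rw [SetLike.mem_coe, MonoidHom.mem_ker]
          exact hVtcomm _ _
        · show π a * π b * (π a)⁻¹ * (π b)⁻¹ = π (a * b * a⁻¹ * b⁻¹)
          simp only [map_mul, map_inv]
      obtain ⟨α', hα'ker, hα'eq⟩ := hD hcD
      have hαα' : α' = α := by
        apply Subtype.ext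
        rw [hα]
        exact hα'eq
      rw [← hαα']
      exact MonoidHom.mem_ker.1 hα'ker
    -- the transfer is the `index`-th power on `α`
    have hkeyT : ∀ (k : ℕ) (g₀ : ↥Mb), g₀⁻¹ * α ^ k * g₀ ∈ H → g₀⁻¹ * α ^ k * g₀ = α ^ k := by
      intro k g₀ _
      have h1 : Commute (α ^ k) g₀ := (show Commute α g₀ from hcent g₀).pow_left k
      rw [mul_assoc, h1.eq, inv_mul_cancel_left]
    have hpow := MonoidHom.transfer_eq_pow (MonoidHom.id ↥H) α hkeyT
    rw [← hVt, hVα] at hpow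
    have hpow2 : α ^ H.index = 1 := by
      have h1 := congrArg Subtype.val hpow
      exact h1.symm
    have hpow3 : (π c) ^ (2 ^ e) = 1 := by
      have h1 := congrArg Subtype.val hpow2
      rw [he, hα] at h1
      exact h1
    have hpow4 : (π c) ^ m = 1 := hUbpow (π c) (by rw [hUb]; exact Subgroup.mem_map_of_mem π hcU)
    have h4 : orderOf (π c) ∣ Nat.gcd (2 ^ e) m :=
      Nat.dvd_gcd (orderOf_dvd_of_pow_eq_one hpow3) (orderOf_dvd_of_pow_eq_one hpow4)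
    have hcop : Nat.gcd (2 ^ e) m = 1 :=
      Nat.Coprime.pow_left e (Nat.coprime_two_left.2 hmodd)
    rw [hcop] at h4
    exact (hker c).1 (orderOf_eq_one_iff.1 (Nat.dvd_one.1 h4))
  -- `K₂ ≤ K ⊔ Q`
  have hK₂KQ : K₂ ≤ K ⊔ Q := by
    intro x₂ hx₂
    have h1 : x₂ ∈ (K : Set X) * (C : Set X) := by
      rw [← Subgroup.mul_normal]
      exact hle hx₂
    obtain ⟨x₁, hx₁, c, hc, hx⟩ := Set.mem_mul.1 h1
    have hceq : c = x₁⁻¹ * x₂ := by rw [← hx]; group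
    have hcU : c ∈ U := by
      rw [hceq]
      exact U.mul_mem (U.inv_mem (hKU hx₁)) (hK₂U hx₂)
    have hcD : c ∈ ⁅M, M⁆ := by
      rw [hceq]
      exact Subgroup.mul_mem _ (Subgroup.inv_mem _ (hKD hx₁)) (hK₂D hx₂)
    rw [← hx]
    exact Subgroup.mul_mem _ (Subgroup.mem_sup_left hx₁) (Subgroup.mem_sup_right (hkey c hc hcU hcD))
  -- conclusion: the odd-order generators of `K₂` lie in `K`
  have hK₂gen : K₂ = Subgroup.closure ((MulAut.conj n).toMonoidHom ''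
      {g : X | g ∈ K ∧ Odd (orderOf g)}) := by
    rw [← MonoidHom.map_closure, hKgen, hK₂]
  rw [hK₂gen, Subgroup.closure_le]
  rintro _ ⟨g, hg, rfl⟩
  have hmem : (MulAut.conj n).toMonoidHom g ∈ K₂ := by
    rw [hK₂]
    exact Subgroup.mem_map_of_mem _ hg.1
  have hodd : Odd (orderOf ((MulAut.conj n).toMonoidHom g)) := by
    have ho : orderOf ((MulAut.conj n).toMonoidHom g) = orderOf g :=
      MulEquiv.orderOf_eq (MulAut.conj n) g
    rw [ho]
    exact hg.2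
  exact odd_mem_of_mem_sup K Q hQn hQ2 hQK (hK₂KQ hmem) hodd

end Cfsg.Agent.H16.Sn
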