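import Mathlib
import Cfsg.Agent.H42.SpdDefs
import Cfsg.Agent.H45.SpRS
import Cfsg.Agent.H45.CycFactor
import Cfsg.Agent.H45.IsoSD

/-!
# S5961, piece SPD-BLOCK: an invariant nondegenerate block of dimension `c`
-/

set_option autoImplicit false

namespace Cfsg.Agent.H16.Spd

open Cfsg.Agent.H45 Cfsg.Agent.H42.Spd Module Polynomial

universe u v

theorem block : StBlock.{u, v} := by
  intro F _ _ V _ _ _ r B T hctx hker hV
  classical
  have hr := hctx.prime
  haveI : Fact r.Prime := ⟨hr⟩
  have hr3 : 3 ≤ r := by
    have h1 := hr.two_le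
    have h2 := hctx.ne_two
    omega
  have hd := hctx.good
  -- Step 1: an irreducible factor of the cyclotomic polynomial with a kernel vector
  obtain ⟨u, hu0⟩ : ∃ u : V, u ≠ 0 := by
    by_contra hcon
    push Not at hcon
    apply hV
    rw [eq_bot_iff]
    intro x _
    rw [hcon x]
    exact Submodule.zero_mem _
  have hu1 : (T - 1) u ≠ 0 := by
    intro h
    have h1 : u ∈ LinearMap.ker (T - 1) := LinearMap.mem_ker.mpr h
    rw [hker] at h1
    exact hu0 ((Submodule.mem_bot F).mp h1)
  have hcyc0 : cyclotomic r F ≠ 0 := cyclotomic_ne_zero r F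
  have hann : aeval T (cyclotomic r F) ((T - 1) u) = 0 := by
    have h1 : aeval T (cyclotomic r F * (X - 1)) = 0 := by
      rw [cyclotomic_prime_mul_X_sub_one, map_sub, map_pow, aeval_X, map_one, hctx.pow, sub_self]
    have h2 : aeval T (cyclotomic r F * (X - 1)) u = aeval T (cyclotomic r F) ((T - 1) u) := by
      rw [map_mul, Module.End.mul_apply, map_sub, aeval_X, map_one]
    rw [← h2, h1, LinearMap.zero_apply]
  obtain ⟨f, hfm, hf, hfd, u', -, hu'0, hfu'⟩ :=
    exists_irr_of_ann T ⊤ (fun x _ => Submodule.mem_top) (cyclotomic r F).natDegree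
      (cyclotomic r F) le_rfl hcyc0 ((T - 1) u) Submodule.mem_top hu1 hann
  obtain ⟨hdeg, hf0, -, hfX, hfsd⟩ := cyc_factor r (by omega) hctx.cast_ne f hf hfm hfd
  have hE : LinearMap.ker (aeval T f) ≠ ⊥ := by
    intro h
    have h1 : u' ∈ LinearMap.ker (aeval T f) := LinearMap.mem_ker.mpr hfu'
    rw [h] at h1
    exact hu'0 ((Submodule.mem_bot F).mp h1)
  have hfin : finrank F (AdjoinRoot f) = f.natDegree := by
    rw [(AdjoinRoot.powerBasis hfm.ne_zero).finrank, AdjoinRoot.powerBasis_dim]
  obtain ⟨i, hi⟩ : ∃ i, i = orderOf ((Fintype.card F : ℕ) : ZMod r) := ⟨_, rfl⟩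
  rw [← hi] at hdeg
  have hcc : cc F r = if Even i then i else 2 * i := by
    rw [hi]
    rfl
  by_cases hev : Even i
  · -- the self-dual case
    rw [hcc, if_pos hev]
    obtain ⟨m, hm⟩ := hev
    have hipos : 0 < i := by
      rw [← hdeg]
      exact hf.natDegree_pos
    have h1 : ((Fintype.card F : ℕ) : ZMod r) ^ i = 1 := by
      rw [hi]
      exact pow_orderOf_eq_one _
    have h2 : ((Fintype.card F : ℕ) : ZMod r) ^ m ≠ 1 := by
      intro h
      have h3 := orderOf_dvd_of_pow_eq_one h
      rw [← hi] at h3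
      have h4 := Nat.le_of_dvd (by omega) h3
      omega
    have h3 : ((Fintype.card F : ℕ) : ZMod r) ^ m = -1 := by
      have h4 : (((Fintype.card F : ℕ) : ZMod r) ^ m) ^ 2 = 1 := by
        rw [← pow_mul, ← h1, hm]
        congr 1
        ring
      rcases sq_eq_one_iff.mp h4 with h5 | h5
      · exact absurd h5 h2
      · exact h5
    have h4 : r ∣ Fintype.card F ^ m + 1 := by
      rw [← ZMod.natCast_eq_zero_iff, Nat.cast_add, Nat.cast_pow, h3, Nat.cast_one, neg_add_cancel]
    have hsd : f ∣ dualPoly (RingHom.id F) f := by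
      rw [dualPoly_id]
      exact hfsd m h4
    have hnt : ¬ f ∣ X ^ 2 - 1 := by
      intro h
      have h5 := Nat.le_of_dvd (by norm_num) (hfX 2 h)
      omega
    obtain ⟨L, Φ, hLnd, hΦ⟩ := sd_cyclic hd f hf hsd (Or.inr hnt) hE
    refine ⟨L, ⟨?_, hLnd⟩, ?_⟩
    · rw [Module.End.mem_invtSubmodule]
      intro x hx
      rw [Submodule.mem_comap]
      have h5 := hΦ X (Φ.symm ⟨x, hx⟩)
      rw [LinearEquiv.apply_symm_apply, aeval_X] at h5
      rw [← h5]
      exact (Φ _).2
    · rw [← Φ.finrank_eq, hfin, hdeg]
  · -- the non-self-dual case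
    rw [hcc, if_neg hev]
    have hnsd : ¬ f ∣ dualPoly (RingHom.id F) f := by
      intro hsd
      rw [dualPoly_id] at hsd
      obtain ⟨m, hm⟩ := cyc_factor_sd r (by omega) hctx.cast_ne f hf hfm hfd hsd
      obtain ⟨h1, h2⟩ := ord_of_dvd_pow_add_one r (Fintype.card F) m hr3 hm
      rw [← hi] at h1 h2
      apply h2
      have hodd : Odd i := Nat.not_even_iff_odd.mp hev
      have hc : Nat.Coprime i 2 := (Nat.coprime_two_left.mpr hodd).symm
      exact hc.dvd_of_dvd_mul_left h1
    have hcop : IsCoprime f (dualPoly (RingHom.id F) f) :=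
      (Irreducible.coprime_iff_not_dvd hf).mpr hnsd
    obtain ⟨L, hL, Φ, -, -, hΦ⟩ := exists_cyclic T f hf u' hu'0 hfu'
    have hLE : L ≤ LinearMap.ker (aeval T f) := by
      intro x hx
      rw [LinearMap.mem_ker]
      have h5 := hΦ f (Φ.symm ⟨x, hx⟩)
      rw [LinearEquiv.apply_symm_apply] at h5
      rw [← h5, AdjoinRoot.mk_self, zero_mul, map_zero]
      rfl
    obtain ⟨W2, hW2inv, hLiso, hW2iso, hW2perp, hW2sup⟩ :=
      nsd_side (σ := RingHom.id F) (fun _ => rfl) hd f hcop L hL hLE
    have hLzero : ∀ l ∈ L, (∀ w ∈ W2, B w l = 0) → l = 0 := by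
      intro l hl hw
      apply hd.nondeg' l
      intro x
      have hx : x ∈ W2 ⊔ perp B L := by
        rw [hW2sup]
        exact Submodule.mem_top
      obtain ⟨w, hw', p, hp, rfl⟩ := Submodule.mem_sup.mp hx
      rw [map_add, LinearMap.add_apply, hw w hw', zero_add]
      exact hd.refl (hp l hl)
    have hdisj : L ⊓ W2 = ⊥ := by
      rw [eq_bot_iff]
      intro x hx
      rw [← hW2perp]
      exact ⟨hx.2, fun u hu => hLiso u hu x hx.1⟩
    refine ⟨L ⊔ W2, ⟨?_, ?_⟩, ?_⟩
    · rw [Module.End.mem_invtSubmodule]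
      intro x hx
      rw [Submodule.mem_comap]
      obtain ⟨l, hl, w, hw, rfl⟩ := Submodule.mem_sup.mp hx
      rw [map_add]
      exact Submodule.add_mem_sup (hL hl) (hW2inv w hw)
    · rw [eq_bot_iff]
      intro x hx
      obtain ⟨hxU, hxp⟩ := hx
      obtain ⟨l, hl, w, hw, rfl⟩ := Submodule.mem_sup.mp hxU
      have hw0 : w = 0 := by
        have h1 : w ∈ W2 ⊓ perp B L := by
          refine ⟨hw, fun u hu => ?_⟩
          have h1 := hxp u (Submodule.mem_sup_left hu)
          rw [map_add, hLiso u hu l hl, zero_add] at h1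
          exact h1
        rw [hW2perp] at h1
        exact (Submodule.mem_bot F).mp h1
      subst hw0
      rw [add_zero] at hxp ⊢
      have h2 := hLzero l hl (fun w hw => hxp w (Submodule.mem_sup_right hw))
      rw [h2]
      exact Submodule.zero_mem _
    · have h1 : finrank F ↥(L ⊔ W2) = finrank F L + finrank F W2 := by
        have h2 := Submodule.finrank_sup_add_finrank_inf_eq L W2
        rw [hdisj, finrank_bot, add_zero] at h2
        exact h2
      have hLdim : finrank F L = i := by
        rw [← Φ.finrank_eq, hfin, hdeg]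
      have hW2dim : finrank F W2 = finrank F L := by
        apply le_antisymm
        · have hinj : Function.Injective (B.flip.domRestrict₁₂ W2 L) := by
            rw [← LinearMap.ker_eq_bot, LinearMap.ker_eq_bot']
            intro w hw
            have h3 : (w : V) ∈ W2 ⊓ perp B L := by
              refine ⟨w.2, fun u hu => ?_⟩
              have h4 : (B.flip.domRestrict₁₂ W2 L) w ⟨u, hu⟩ = 0 := by
                rw [hw]
                rfl
              rw [LinearMap.domRestrict₁₂_apply, LinearMap.flip_apply] at h4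
              exact h4
            rw [hW2perp] at h3
            exact Subtype.ext ((Submodule.mem_bot F).mp h3)
          have h5 := LinearMap.finrank_le_finrank_of_injective hinj
          have h6 : finrank F (↥L →ₗ[F] F) = finrank F L := Subspace.dual_finrank_eq
          rw [h6] at h5
          exact h5
        · have hinj : Function.Injective (B.flip.domRestrict₁₂ L W2) := by
            rw [← LinearMap.ker_eq_bot, LinearMap.ker_eq_bot']
            intro l hl
            apply Subtype.ext
            apply hLzero l l.2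
            intro w hw
            have h4 : (B.flip.domRestrict₁₂ L W2) l ⟨w, hw⟩ = 0 := by
              rw [hl]
              rfl
            rw [LinearMap.domRestrict₁₂_apply, LinearMap.flip_apply] at h4
            exact h4
          have h5 := LinearMap.finrank_le_finrank_of_injective hinj
          have h6 : finrank F (↥W2 →ₗ[F] F) = finrank F W2 := Subspace.dual_finrank_eq
          rw [h6] at h5
          exact h5
      rw [h1, hW2dim, hLdim]
      ring

end Cfsg.Agent.H16.Spd
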