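import Mathlib
import Cfsg.Agent.H79.BrDefs
import Cfsg.Agent.H4.Chars
import Cfsg.Agent.H4.RealClasses
import Cfsg.Agent.H4.IrrCount
import Cfsg.Agent.H82.Irr
import Cfsg.Agent.H82.P1J

/-!
# S4504 (helper79's project): shared facts for the case `p ≡ 3 (mod 4)`
-/

set_option autoImplicit false

namespace Cfsg.Agent.H16.Br

open Cfsg Cfsg.Agent.H79.Br
open scoped ComplexConjugate

universe u

variable {G : Type u} [Group G] {p : ℕ} {P : Subgroup G} {χ : G → ℂ} {x₁ x₂ : G}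

/-- The centre is trivial when `χ` is faithful and trivial on the centre. -/
theorem center_trivial (h : Loc p P χ x₁ x₂) (hz : ∀ z ∈ Subgroup.center G, χ z = χ 1) :
    ∀ z ∈ Subgroup.center G, z = 1 := fun z hzc => h.faith z (hz z hzc)

/-- With trivial centre every irreducible character lies over the trivial central character. -/
theorem mem_Ov_one (hZ1 : ∀ z ∈ Subgroup.center G, z = 1) (ψ : IrrCharacter G) :
    ψ ∈ Ov (1 : G → ℂ) := by
  intro z hzc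
  rw [hZ1 z hzc]
  simp only [Pi.one_apply, mul_one, one_mul]

/-- The trivial character as an irreducible character. -/
noncomputable def trivIrr (G : Type u) [Group G] : IrrCharacter G :=
  ⟨1, Cfsg.Agent.H82.P1.isIrr_one_fun G⟩

theorem trivIrr_val (G : Type u) [Group G] : (trivIrr G).1 = 1 := rfl

/-- `η ≠ η'`. -/
theorem eta_ne (h : Loc p P χ x₁ x₂) : χ x₁ ≠ χ x₂ := by
  intro he
  have h1 := h.sum
  have h2 := h.sq
  rw [← he] at h1 h2
  have h3 : χ x₁ = -1 / 2 := by linear_combination h1 / 2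
  rw [h3] at h2
  have h0 : conj (-1 / 2 : ℂ) = -1 / 2 := by
    rw [map_div₀, map_neg, map_one, Complex.conj_ofNat]
  rw [h0] at h2
  have h4 : ((charDegree χ : ℕ) : ℂ) = -1 / 2 := by linear_combination -h2
  have h5 := congrArg Complex.re h4
  rw [Complex.natCast_re] at h5
  have h6 : (0 : ℝ) ≤ (charDegree χ : ℝ) := Nat.cast_nonneg _
  norm_num at h5
  linarith

/-- `χ` is not the trivial character. -/
theorem chi_ne_one (h : Loc p P χ x₁ x₂) : χ ≠ 1 := by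
  intro he
  have h1 := h.sum
  rw [he] at h1
  simp only [Pi.one_apply] at h1
  norm_num at h1

/-- For `p ≡ 3 (mod 4)`: `η' = conj η`. -/
theorem conj_eta [Finite G] (h : Loc p P χ x₁ x₂) (hp3 : p % 4 = 3) : χ x₂ = conj (χ x₁) := by
  have hc := h.grp.par3 hp3
  have h1 : χ x₁⁻¹ = χ x₂ := Cfsg.Agent.H82.irr_isConj ⟨χ, h.irr⟩ hc
  have h2 : χ x₁⁻¹ = conj (χ x₁) := Cfsg.Agent.H82.irr_inv ⟨χ, h.irr⟩ x₁
  rw [← h1]
  exact h2

theorem conj_eta' [Finite G] (h : Loc p P χ x₁ x₂) (hp3 : p % 4 = 3) : conj (χ x₂) = χ x₁ := by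
  rw [conj_eta h hp3, Complex.conj_conj]

/-- For `p ≡ 3 (mod 4)`: `η η' = (f + 1) / 2`. -/
theorem eta_mul [Finite G] (h : Loc p P χ x₁ x₂) (hp3 : p % 4 = 3) :
    2 * (χ x₁ * χ x₂) = (charDegree χ : ℂ) + 1 := by
  have h2 := h.sq
  rw [conj_eta' h hp3, ← conj_eta h hp3] at h2
  linear_combination h2

/-- For `p ≡ 3 (mod 4)`: `η² + η'² = -f`. -/
theorem eta_sq_add [Finite G] (h : Loc p P χ x₁ x₂) (hp3 : p % 4 = 3) :
    χ x₁ * χ x₁ + χ x₂ * χ x₂ = -(charDegree χ : ℂ) := by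
  have h1 := h.sum
  have h2 := eta_mul h hp3
  linear_combination (χ x₁ + χ x₂ - 1) * h1 - h2

/-- For `p ≡ 3 (mod 4)`: `η'` is not real. -/
theorem eta_im_ne [Finite G] (h : Loc p P χ x₁ x₂) (hp3 : p % 4 = 3) : (χ x₂).im ≠ 0 := by
  intro him
  have hreal : conj (χ x₂) = χ x₂ := Complex.conj_eq_iff_im.mpr him
  have h1 : χ x₁ = χ x₂ := by
    rw [← conj_eta' h hp3, hreal]
  exact eta_ne h h1

/-- The degree of `χ` as a complex number. -/
theorem chi_one (h : Loc p P χ x₁ x₂) : χ 1 = (charDegree χ : ℂ) :=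
  Cfsg.Agent.H82.irr_one_eq_charDegree ⟨χ, h.irr⟩

/-- `p = 2 f + 1` in `ℂ`. -/
theorem p_cast (h : Loc p P χ x₁ x₂) : (p : ℂ) = 2 * (charDegree χ : ℂ) + 1 := by
  rw [← h.deg]
  push_cast
  ring

/-- `2 ≤ f`. -/
theorem two_le_f (h : Loc p P χ x₁ x₂) : 2 ≤ charDegree χ := by
  have h1 := h.deg
  have h2 := h.five
  omega

/-- The pair facts with trivial centre: besides `χ` and one further character `θ'` (of type
`(η', η)`), every irreducible character has type `(0,0)`, `(1,1)` or `(-1,-1)`. -/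
theorem pair_facts (hP : StPair.{u}) [Finite G] (p : ℕ) [Fact p.Prime]
    (P : Subgroup G) (χ : G → ℂ) (x₁ x₂ : G) (h : Loc p P χ x₁ x₂)
    (hz : ∀ z ∈ Subgroup.center G, χ z = χ 1) :
    ∃ θ' : IrrCharacter G, θ'.1 x₁ = χ x₂ ∧ θ'.1 x₂ = χ x₁ ∧
      charDegree θ'.1 = charDegree χ ∧ (∀ y : G, ¬ p ∣ orderOf y → χ y = θ'.1 y) ∧
      ∀ ψ : IrrCharacter G, ψ.1 ≠ χ → ψ ≠ θ' →
        (ψ.1 x₁ = 0 ∧ ψ.1 x₂ = 0) ∨ (ψ.1 x₁ = 1 ∧ ψ.1 x₂ = 1) ∨ (ψ.1 x₁ = -1 ∧ ψ.1 x₂ = -1) := by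
  have hZ1 := center_trivial h hz
  obtain ⟨ε, θ, θ', hε, -, -, hθ1, hθ2, hθ'1, hθ'2, hdeg, hreg, hrest, -⟩ :=
    hP p P χ x₁ x₂ h (trivIrr G)
  have hsum := h.sum
  have hne := eta_ne h
  -- `χ` is `θ` and `ε = 1`
  have hX : (⟨χ, h.irr⟩ : IrrCharacter G) = θ ∧ ε = 1 := by
    by_cases hXθ : (⟨χ, h.irr⟩ : IrrCharacter G) = θ
    · refine ⟨hXθ, ?_⟩
      rcases hε with he | he
      · exact he
      · exfalso
        have h1 : χ x₁ = -1 * χ x₁ := by
          rw [← he, ← hθ1, ← hXθ]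
        have h2 : χ x₂ = -1 * χ x₂ := by
          rw [← he, ← hθ2, ← hXθ]
        have h3 : χ x₁ = 0 := by linear_combination h1 / 2
        have h4 : χ x₂ = 0 := by linear_combination h2 / 2
        rw [h3, h4] at hsum
        norm_num at hsum
    · exfalso
      by_cases hXθ' : (⟨χ, h.irr⟩ : IrrCharacter G) = θ'
      · have h1 : χ x₁ = ε * χ x₂ := by
          rw [← hθ'1, ← hXθ']
        have h2 : χ x₂ = ε * χ x₁ := by
          rw [← hθ'2, ← hXθ']
        rcases hε with he | he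
        · rw [he, one_mul] at h1
          exact hne h1
        · rw [he] at h1
          rw [h1] at hsum
          norm_num at hsum
      · rcases hrest ⟨χ, h.irr⟩ (mem_Ov_one hZ1 _) hXθ hXθ' with ⟨h1, h2⟩ | ⟨h1, h2⟩ | ⟨h1, h2⟩
        · have h1' : χ x₁ = 0 := h1
          have h2' : χ x₂ = 0 := h2
          rw [h1', h2'] at hsum
          norm_num at hsum
        · have h1' : χ x₁ = 1 := h1
          have h2' : χ x₂ = 1 := h2
          rw [h1', h2'] at hsum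
          norm_num at hsum
        · have h1' : χ x₁ = -1 := h1
          have h2' : χ x₂ = -1 := h2
          rw [h1', h2'] at hsum
          norm_num at hsum
  obtain ⟨hXθ, hε1⟩ := hX
  rw [hε1, one_mul] at hθ'1 hθ'2
  refine ⟨θ', hθ'1, hθ'2, ?_, ?_, ?_⟩
  · rw [← hdeg, ← hXθ]
  · intro y hy
    rw [← hreg y hy, ← hXθ]
  · intro ψ hψχ hψθ'
    apply hrest ψ (mem_Ov_one hZ1 ψ) _ hψθ'
    intro hψθ
    apply hψχ
    rw [hψθ, ← hXθ]

/-- For `p ≡ 3 (mod 4)` the second exceptional character is `conj χ`. -/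
theorem pair_facts3 (hP : StPair.{u}) [Finite G] (p : ℕ) [Fact p.Prime]
    (P : Subgroup G) (χ : G → ℂ) (x₁ x₂ : G) (h : Loc p P χ x₁ x₂) (hp3 : p % 4 = 3)
    (hz : ∀ z ∈ Subgroup.center G, χ z = χ 1) :
    (∀ y : G, ¬ p ∣ orderOf y → conj (χ y) = χ y) ∧
    ∀ ψ : IrrCharacter G, ψ.1 ≠ χ → ψ.1 ≠ (fun g => conj (χ g)) →
      (ψ.1 x₁ = 0 ∧ ψ.1 x₂ = 0) ∨ (ψ.1 x₁ = 1 ∧ ψ.1 x₂ = 1) ∨ (ψ.1 x₁ = -1 ∧ ψ.1 x₂ = -1) := by
  obtain ⟨θ', hθ'1, hθ'2, -, hreg, hrest⟩ := pair_facts hP p P χ x₁ x₂ h hz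
  have hsum := h.sum
  have hne := eta_ne h
  have hc1 := conj_eta h hp3
  have hc2 := conj_eta' h hp3
  have hXc : (⟨fun g => conj (χ g), Cfsg.Agent.H4.isIrrCharacter_conj h.irr⟩ : IrrCharacter G)
      = θ' := by
    by_contra hcon
    have hcχ : (fun g => conj (χ g)) ≠ χ := by
      intro he
      have h1 : conj (χ x₁) = χ x₁ := congrFun he x₁
      rw [← hc1] at h1
      exact hne h1.symm
    rcases hrest ⟨fun g => conj (χ g), Cfsg.Agent.H4.isIrrCharacter_conj h.irr⟩ hcχ hcon with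
      ⟨h1, h2⟩ | ⟨h1, h2⟩ | ⟨h1, h2⟩
    · have h1' : conj (χ x₁) = 0 := h1
      have h2' : conj (χ x₂) = 0 := h2
      rw [← hc1] at h1'
      rw [hc2] at h2'
      rw [h1', h2'] at hsum
      norm_num at hsum
    · have h1' : conj (χ x₁) = 1 := h1
      have h2' : conj (χ x₂) = 1 := h2
      rw [← hc1] at h1'
      rw [hc2] at h2'
      rw [h1', h2'] at hsum
      norm_num at hsum
    · have h1' : conj (χ x₁) = -1 := h1
      have h2' : conj (χ x₂) = -1 := h2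
      rw [← hc1] at h1'
      rw [hc2] at h2'
      rw [h1', h2'] at hsum
      norm_num at hsum
  constructor
  · intro y hy
    have h1 := hreg y hy
    rw [← hXc] at h1
    have h2 : χ y = conj (χ y) := h1
    exact h2.symm
  · intro ψ hψχ hψc
    apply hrest ψ hψχ
    intro hψθ'
    apply hψc
    rw [hψθ', ← hXc]

end Cfsg.Agent.H16.Br
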