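import Mathlib
import Cfsg.Agent.H16.BrCommon

/-!
# S4504, piece PROD3A: the decomposition of `χ · conj χ` for `p ≡ 3 (mod 4)`
-/

set_option autoImplicit false

namespace Cfsg.Agent.H16.Br

open Cfsg Cfsg.Agent.H79.Br
open scoped ComplexConjugate

universe u

theorem prod3a (hL : StDecL.{u}) (hP : StPair.{u}) (hZ : StCentConst.{u}) : StProd3a.{u} := by
  intro G _ _ p _ P χ x₁ x₂ h hp3 hz
  classical
  haveI : Fintype G := Fintype.ofFinite G
  have hχ : IsCharacter G χ := Cfsg.Agent.H4.isCharacter_of_isIrrCharacter h.irr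
  have hΞ : IsCharacter G (fun g => χ g * conj (χ g)) :=
    Cfsg.Agent.H4.isCharacter_mul hχ (Cfsg.Agent.H4.isCharacter_conj hχ)
  obtain ⟨m, hm⟩ := Cfsg.Agent.H4.isCharacter_iff.mp hΞ
  have hZ1 := center_trivial h hz
  -- multiplicity of the trivial character
  have hmtriv : ∀ ψ : IrrCharacter G, ψ.1 = 1 → m ψ = 1 := by
    intro ψ hψ
    have h1 : classInner (fun g => χ g * conj (χ g)) ψ.1 = (m ψ : ℂ) := by
      rw [hm, Cfsg.Agent.H4.classInner_finsum_irr]
    have h2 : classInner (fun g => χ g * conj (χ g)) ψ.1 = classInner χ χ := by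
      unfold classInner
      congr 1
      apply Finset.sum_congr rfl
      intro g _
      rw [hψ]
      simp
    have h3 : classInner χ χ = 1 := Cfsg.Agent.H4.irr_inner_self (⟨χ, h.irr⟩ : IrrCharacter G)
    rw [h1, h3] at h2
    exact_mod_cast h2
  refine ⟨m, hm, hmtriv, ?_⟩
  intro ψ hmψ hψ1
  have hf := chi_one h
  have hLeq : ((charDegree χ : ℂ) + 1) * ((fun g => χ g * conj (χ g)) x₁ +
      (fun g => χ g * conj (χ g)) x₂) - (fun g => χ g * conj (χ g)) 1
      = (p : ℂ) * (m (trivIrr G) : ℂ) := by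
    rw [hmtriv (trivIrr G) rfl]
    show ((charDegree χ : ℂ) + 1) * (χ x₁ * conj (χ x₁) + χ x₂ * conj (χ x₂))
      - χ 1 * conj (χ 1) = (p : ℂ) * ((1 : ℕ) : ℂ)
    rw [h.sq, hf, Complex.conj_natCast, p_cast h]
    push_cast
    ring
  have hne : ψ ≠ trivIrr G := by
    intro he
    apply hψ1
    rw [he]
    rfl
  rcases hL p P χ x₁ x₂ h m _ hm (trivIrr G) rfl hLeq ψ hmψ hne with ⟨h1, h2, h3⟩ | ⟨h1, -⟩
  · exact ⟨⟨mem_Ov_one hZ1 ψ, h1, h2, hψ1⟩, h3⟩
  · exfalso
    obtain ⟨θ', hθ'1, hθ'2, -, -, hrest⟩ := pair_facts hP p P χ x₁ x₂ h hz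
    have hsum := h.sum
    have hab : ψ.1 x₁ + ψ.1 x₂ = 1 := by
      rcases h1 with ⟨e1, e2⟩ | ⟨e1, e2⟩
      · rw [e1, e2]
        linear_combination -hsum
      · rw [e1, e2]
        linear_combination -hsum
    by_cases hψχ : ψ.1 = χ
    · rw [hψχ, hsum] at hab
      norm_num at hab
    · by_cases hψθ' : ψ = θ'
      · rw [hψθ', hθ'1, hθ'2, add_comm, hsum] at hab
        norm_num at hab
      · rcases hrest ψ hψχ hψθ' with ⟨e1, e2⟩ | ⟨e1, e2⟩ | ⟨e1, e2⟩
        · rw [e1, e2] at hab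
          norm_num at hab
        · rw [e1, e2] at hab
          norm_num at hab
        · rw [e1, e2] at hab
          norm_num at hab

example (hL : StDecL.{u}) (hP : StPair.{u}) (hZ : StCentConst.{u}) : StProd3a.{u} :=
  prod3a hL hP hZ

end Cfsg.Agent.H16.Br
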