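import Mathlib
import Cfsg.Agent.H16.BrCommon

/-!
# S4504, piece PROD3B: the decomposition of `χ²` for `p ≡ 3 (mod 4)`
-/

set_option autoImplicit false

namespace Cfsg.Agent.H16.Br

open Cfsg Cfsg.Agent.H79.Br
open scoped ComplexConjugate

universe u

theorem prod3b (hA : StProd3a.{u}) (hC : StDecC.{u}) (hP : StPair.{u}) (hZ : StCentConst.{u}) :
    StProd3b.{u} := by
  intro G _ _ p _ P χ x₁ x₂ h hp3 hz
  classical
  haveI : Fintype G := Fintype.ofFinite G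
  letI := Cfsg.Agent.H4.fintypeIrr G
  have hχ : IsCharacter G χ := Cfsg.Agent.H4.isCharacter_of_isIrrCharacter h.irr
  have hΞ : IsCharacter G (fun g => χ g * χ g) := Cfsg.Agent.H4.isCharacter_mul hχ hχ
  obtain ⟨m, hm⟩ := Cfsg.Agent.H4.isCharacter_iff.mp hΞ
  have hZ1 := center_trivial h hz
  obtain ⟨-, hrest⟩ := pair_facts3 hP p P χ x₁ x₂ h hp3 hz
  have hsum := h.sum
  have hf := chi_one h
  -- `c(Ξ) = 0`
  have hc0 : (fun g => χ g * χ g) 1 + (charDegree χ : ℂ) * (fun g => χ g * χ g) x₁ +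
      (charDegree χ : ℂ) * (fun g => χ g * χ g) x₂ = 0 := by
    show χ 1 * χ 1 + (charDegree χ : ℂ) * (χ x₁ * χ x₁) + (charDegree χ : ℂ) * (χ x₂ * χ x₂) = 0
    rw [hf]
    linear_combination (charDegree χ : ℂ) * eta_sq_add h hp3
  have hcons := hC p P χ x₁ x₂ h m _ hm hc0
  -- the multiplicity of `χ` is `0`
  have hmχ : m ⟨χ, h.irr⟩ = 0 := by
    obtain ⟨a, ha, -, ha2⟩ := hA p P χ x₁ x₂ h hp3 hz
    have haχ : a ⟨χ, h.irr⟩ = 0 := by
      by_contra hne
      obtain ⟨⟨-, e1, e2, -⟩, -⟩ := ha2 ⟨χ, h.irr⟩ hne (chi_ne_one h)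
      have e1' : χ x₁ = 1 := e1
      have e2' : χ x₂ = 1 := e2
      rw [e1', e2'] at hsum
      norm_num at hsum
    have h1 : classInner (fun g => χ g * χ g) χ = (m ⟨χ, h.irr⟩ : ℂ) := by
      have h0 := Cfsg.Agent.H4.classInner_finsum_irr (fun ψ => (m ψ : ℂ)) ⟨χ, h.irr⟩
      rw [← hm] at h0
      exact h0
    have h2 : classInner (fun g => χ g * conj (χ g)) χ = (a ⟨χ, h.irr⟩ : ℂ) := by
      have h0 := Cfsg.Agent.H4.classInner_finsum_irr (fun ψ => (a ψ : ℂ)) ⟨χ, h.irr⟩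
      rw [← ha] at h0
      exact h0
    have h3 : classInner (fun g => χ g * χ g) χ
        = conj (classInner (fun g => χ g * conj (χ g)) χ) := by
      unfold classInner
      rw [map_mul, map_inv₀, Complex.conj_natCast, map_sum]
      congr 1
      apply Finset.sum_congr rfl
      intro g _
      show χ g * χ g * conj (χ g) = conj (χ g * conj (χ g) * conj (χ g))
      simp only [map_mul, Complex.conj_conj]
      ring
    rw [h1, h2, haχ] at h3
    simpa using h3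
  -- the constituents other than `conj χ`
  have hthird : ∀ ψ : IrrCharacter G, m ψ ≠ 0 → ψ.1 ≠ (fun g => conj (χ g)) →
      ψ ∈ Tm x₁ x₂ (1 : G → ℂ) ∧ charDegree ψ.1 + 1 = p := by
    intro ψ hmψ hψc
    rcases hcons ψ hmψ with ⟨e1, e2, e3⟩ | ⟨e1, -⟩
    · exact ⟨⟨mem_Ov_one hZ1 ψ, e1, e2⟩, e3⟩
    · exfalso
      have hab : ψ.1 x₁ + ψ.1 x₂ = -1 := by
        rcases e1 with ⟨e1, e2⟩ | ⟨e1, e2⟩
        · rw [e1, e2, hsum]
        · rw [e1, e2, add_comm, hsum]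
      by_cases hψχ : ψ.1 = χ
      · apply hmψ
        have h1 : ψ = ⟨χ, h.irr⟩ := Subtype.ext hψχ
        rw [h1, hmχ]
      · rcases hrest ψ hψχ hψc with ⟨e1, e2⟩ | ⟨e1, e2⟩ | ⟨e1, e2⟩
        · rw [e1, e2] at hab
          norm_num at hab
        · rw [e1, e2] at hab
          norm_num at hab
        · rw [e1, e2] at hab
          norm_num at hab
  refine ⟨m, hm, ?_, hthird⟩
  intro ψ hψ
  obtain ⟨Xc, hXc⟩ : ∃ Xc : IrrCharacter G, Xc = ψ := ⟨ψ, rfl⟩
  -- evaluate at `x₁`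
  have hval : χ x₁ * χ x₁ = ∑ φ : IrrCharacter G, (m φ : ℂ) * φ.1 x₁ := by
    have h1 := congrFun hm x₁
    rw [Cfsg.Agent.H4.finsum_irr_apply, Cfsg.Agent.H4.finsum_irr_eq_sum] at h1
    exact h1
  have hsplit : ∑ φ : IrrCharacter G, (m φ : ℂ) * φ.1 x₁
      = (m ψ : ℂ) * ψ.1 x₁ + ∑ φ ∈ Finset.univ.erase ψ, (m φ : ℂ) * φ.1 x₁ :=
    (Finset.add_sum_erase Finset.univ (fun φ : IrrCharacter G => (m φ : ℂ) * φ.1 x₁)
      (Finset.mem_univ ψ)).symm
  have hrestsum : ∑ φ ∈ Finset.univ.erase ψ, (m φ : ℂ) * φ.1 x₁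
      = -((∑ φ ∈ Finset.univ.erase ψ, m φ : ℕ) : ℂ) := by
    rw [Nat.cast_sum, ← Finset.sum_neg_distrib]
    apply Finset.sum_congr rfl
    intro φ hφ
    by_cases hmφ : m φ = 0
    · rw [hmφ]
      simp
    · have hφψ : φ ≠ ψ := (Finset.mem_erase.mp hφ).1
      have hφc : φ.1 ≠ (fun g => conj (χ g)) := by
        intro he
        apply hφψ
        apply Subtype.ext
        rw [he, hψ]
      obtain ⟨⟨-, e1, -⟩, -⟩ := hthird φ hmφ hφc
      rw [e1]
      ring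
  have hψx : ψ.1 x₁ = χ x₂ := by
    rw [hψ]
    exact (conj_eta h hp3).symm
  rw [hsplit, hrestsum, hψx] at hval
  have hmul := eta_mul h hp3
  have key : ((m ψ : ℂ) - 1) * χ x₂
      = ((∑ φ ∈ Finset.univ.erase ψ, m φ : ℕ) : ℂ) + (1 - (charDegree χ : ℂ)) / 2 := by
    linear_combination (-1 : ℂ) * hval + (χ x₁ - 1) * hsum - (1 / 2 : ℂ) * hmul
  have him := congrArg Complex.im key
  have him' : ((m ψ : ℝ) - 1) * (χ x₂).im = 0 := by
    simpa [Complex.mul_im, Complex.sub_im, Complex.sub_re, Complex.add_im, Complex.div_im]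
      using him
  rcases mul_eq_zero.mp him' with h1 | h1
  · have h2 : (m ψ : ℝ) = 1 := by linarith
    exact_mod_cast h2
  · exact absurd h1 (eta_im_ne h hp3)

example (hA : StProd3a.{u}) (hC : StDecC.{u}) (hP : StPair.{u}) (hZ : StCentConst.{u}) :
    StProd3b.{u} := prod3b hA hC hP hZ

end Cfsg.Agent.H16.Br
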