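import Mathlib

set_option autoImplicit false

namespace Cfsg.Agent.H16

open MulAction

variable {α : Type*}

/-- An element of the centraliser of a transitive permutation group with a fixed point is trivial. -/
theorem centralizer_semiregular (G : Subgroup (Equiv.Perm α)) [MulAction.IsPretransitive G α]
    {c : Equiv.Perm α} (hc : c ∈ Subgroup.centralizer (G : Set (Equiv.Perm α))) {a : α}
    (ha : c a = a) : c = 1 := by
  ext b
  obtain ⟨g, rfl⟩ := MulAction.exists_smul_eq G a b
  have h := hc (g : Equiv.Perm α) g.2
  have h2 : c ((g : Equiv.Perm α) a) = (g : Equiv.Perm α) (c a) := by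
    have := congrArg (fun f : Equiv.Perm α => f a) h
    simpa [Equiv.Perm.mul_apply] using this.symm
  change c ((g : Equiv.Perm α) a) = (g : Equiv.Perm α) a
  rw [h2, ha]

/-- Two elements of the centraliser of a transitive group agreeing at a point are equal. -/
theorem centralizer_eq_of_apply_eq (G : Subgroup (Equiv.Perm α)) [MulAction.IsPretransitive G α]
    {c d : Equiv.Perm α} (hc : c ∈ Subgroup.centralizer (G : Set (Equiv.Perm α)))
    (hd : d ∈ Subgroup.centralizer (G : Set (Equiv.Perm α))) {a : α}
    (ha : c a = d a) : c = d := by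
  have h : d⁻¹ * c ∈ Subgroup.centralizer (G : Set (Equiv.Perm α)) :=
    Subgroup.mul_mem _ (Subgroup.inv_mem _ hd) hc
  have h1 : d⁻¹ * c = 1 := by
    apply centralizer_semiregular G h (a := a)
    simp [Equiv.Perm.mul_apply, ha]
  have : d * (d⁻¹ * c) = d := by rw [h1, mul_one]
  simpa using this

/-- If `G` is regular, then for any two points there is an element of the centraliser mapping
one to the other. -/
theorem exists_centralizer_apply_eq (G : Subgroup (Equiv.Perm α)) [MulAction.IsPretransitive G α]
    (hreg : ∀ a : α, MulAction.stabilizer G a = ⊥) (a b : α) :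
    ∃ c ∈ Subgroup.centralizer (G : Set (Equiv.Perm α)), c a = b := by
  have hinj : ∀ x : α, Function.Injective (fun g : G => g • x) := by
    intro x g h hgh
    have : h⁻¹ * g ∈ MulAction.stabilizer G x := by
      rw [MulAction.mem_stabilizer_iff, mul_smul]
      simp only at hgh
      rw [hgh, inv_smul_smul]
    rw [hreg x, Subgroup.mem_bot] at this
    have h2 : h * (h⁻¹ * g) = h := by rw [this, mul_one]
    simpa using h2
  have hsurj : ∀ x : α, Function.Surjective (fun g : G => g • x) := fun x y =>
    MulAction.exists_smul_eq G x y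
  let φ : G ≃ α := Equiv.ofBijective _ ⟨hinj a, hsurj a⟩
  let ψ : G ≃ α := Equiv.ofBijective _ ⟨hinj b, hsurj b⟩
  refine ⟨φ.symm.trans ψ, ?_, ?_⟩
  · intro h hh
    ext x
    obtain ⟨g, rfl⟩ := φ.surjective x
    have e1 : h (φ g) = φ (⟨h, hh⟩ * g) := rfl
    have e2 : ∀ k : G, (φ.symm.trans ψ) (φ k) = ψ k := fun k => by simp
    have e3 : h (ψ g) = ψ (⟨h, hh⟩ * g) := rfl
    simp only [Equiv.Perm.mul_apply]
    rw [e1, e2, e2, e3]
  · have ha : a = φ 1 := (one_smul G a).symm
    have hb : b = ψ 1 := (one_smul G b).symm
    conv_lhs => rw [ha]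
    conv_rhs => rw [hb]
    simp

/-- The stabiliser of a point is unchanged by applying an element of the centraliser. -/
theorem stabilizer_centralizer_apply (G : Subgroup (Equiv.Perm α))
    {c : Equiv.Perm α} (hc : c ∈ Subgroup.centralizer (G : Set (Equiv.Perm α))) (a : α) :
    MulAction.stabilizer G (c a) = MulAction.stabilizer G a := by
  ext k
  simp only [MulAction.mem_stabilizer_iff]
  have h := hc (k : Equiv.Perm α) k.2
  have h2 : (k : Equiv.Perm α) (c a) = c ((k : Equiv.Perm α) a) := by
    have := congrArg (fun f : Equiv.Perm α => f a) h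
    simpa [Equiv.Perm.mul_apply] using this
  change (k : Equiv.Perm α) (c a) = c a ↔ (k : Equiv.Perm α) a = a
  rw [h2]
  exact c.injective.eq_iff

/-- If two points have the same stabiliser in a transitive group, some element of the centraliser
maps one to the other. -/
theorem exists_centralizer_of_stabilizer_eq (G : Subgroup (Equiv.Perm α))
    [MulAction.IsPretransitive G α] {a b : α}
    (hab : MulAction.stabilizer G a = MulAction.stabilizer G b) :
    ∃ c ∈ Subgroup.centralizer (G : Set (Equiv.Perm α)), c a = b := by
  classical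
  have key : ∀ (x y : α), MulAction.stabilizer G x = MulAction.stabilizer G y →
      ∃ f : α → α, ∀ g : G, f (g • x) = g • y := by
    intro x y hxy
    refine ⟨fun z => (Classical.choose (MulAction.exists_smul_eq G x z)) • y, fun g => ?_⟩
    have hspec := Classical.choose_spec (MulAction.exists_smul_eq G x (g • x))
    set g' := Classical.choose (MulAction.exists_smul_eq G x (g • x)) with hg'
    have : g⁻¹ * g' ∈ MulAction.stabilizer G x := by
      rw [MulAction.mem_stabilizer_iff, mul_smul, hspec, inv_smul_smul]
    rw [hxy, MulAction.mem_stabilizer_iff, mul_smul, inv_smul_eq_iff] at this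
    exact this
  obtain ⟨f, hf⟩ := key a b hab
  obtain ⟨f', hf'⟩ := key b a hab.symm
  have hl : Function.LeftInverse f' f := by
    intro x
    obtain ⟨g, rfl⟩ := MulAction.exists_smul_eq G a x
    rw [hf, hf']
  have hr : Function.RightInverse f' f := by
    intro x
    obtain ⟨g, rfl⟩ := MulAction.exists_smul_eq G b x
    rw [hf', hf]
  refine ⟨⟨f, f', hl, hr⟩, ?_, ?_⟩
  · intro h hh
    ext x
    obtain ⟨g, rfl⟩ := MulAction.exists_smul_eq G a x
    simp only [Equiv.Perm.mul_apply, Equiv.coe_fn_mk]
    have e1 : h (g • a) = (⟨h, hh⟩ * g : G) • a := by rw [mul_smul]; rfl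
    rw [e1, hf, hf, mul_smul]; rfl
  · have := hf 1
    simpa using this

/-- `n` normalises the stabiliser of `a` iff `n • a` has the same stabiliser as `a`. -/
theorem mem_normalizer_stabilizer_iff {M : Type*} [Group M] [MulAction M α] (a : α) (n : M) :
    n ∈ Subgroup.normalizer ((MulAction.stabilizer M a : Subgroup M) : Set M) ↔
      MulAction.stabilizer M (n • a) = MulAction.stabilizer M a := by
  rw [Subgroup.mem_normalizer_iff]
  constructor
  · intro h
    ext k
    have h1 : k ∈ MulAction.stabilizer M (n • a) ↔ n⁻¹ * k * n ∈ MulAction.stabilizer M a := by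
      rw [MulAction.mem_stabilizer_iff, MulAction.mem_stabilizer_iff, mul_smul, mul_smul,
        inv_smul_eq_iff]
    rw [h1, h (n⁻¹ * k * n)]
    have : n * (n⁻¹ * k * n) * n⁻¹ = k := by group
    rw [this]
  · intro h k
    have h1 : n * k * n⁻¹ ∈ MulAction.stabilizer M (n • a) ↔ k ∈ MulAction.stabilizer M a := by
      rw [MulAction.mem_stabilizer_iff, MulAction.mem_stabilizer_iff, mul_smul, mul_smul,
        inv_smul_smul, smul_left_cancel_iff]
    rw [← h1, h]

end Cfsg.Agent.H16
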