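import Cfsg.Agent.H16.ESPB

/-!
# S3084 ES-COMM (helper16, for helper83): only the scalars commute with all Pauli matrices.
-/

set_option autoImplicit false

namespace Cfsg.Agent.H16.ES3

open Matrix Cfsg.Agent.H83.ES

/-- **ES-COMM**. -/
theorem comm : Cfsg.Agent.H83.ES.StComm := by
  intro n M hM
  have hZ : ∀ b : Idx n, M * Z b = Z b * M := by
    intro b
    have h0 := hM (0, b)
    rwa [P_right] at h0
  have hX : ∀ a : Idx n, M * X a = X a * M := by
    intro a
    have h0 := hM (a, 0)
    rwa [P_left] at h0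
  have hoff : ∀ i j : Idx n, i ≠ j → M i j = 0 := by
    intro i j hij
    obtain ⟨k, hk⟩ : ∃ k, i k ≠ j k := by
      by_contra hcon
      push Not at hcon
      exact hij (funext hcon)
    have h1 := congrFun (congrFun (hZ (Pi.single k 1)) i) j
    unfold Z at h1
    rw [Matrix.mul_diagonal, Matrix.diagonal_mul, dot_eq, dot_eq, single_one_dotProduct,
      single_one_dotProduct] at h1
    have key : ∀ (s t : ZMod 2) (m : ZMod 3), s ≠ t → m * sgn t = sgn s * m → m = 0 := by decide
    exact key _ _ _ hk h1
  have hdiag : ∀ a : Idx n, M a a = M 0 0 := by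
    intro a
    have h1 := congrFun (congrFun (hX a) 0) a
    rw [mul_X_apply, X_mul_apply, idx_add_self, zero_add] at h1
    exact h1.symm
  refine ⟨M 0 0, ?_⟩
  ext i j
  rw [Matrix.smul_apply, Matrix.one_apply, smul_eq_mul]
  split_ifs with h
  · rw [h, hdiag, mul_one]
  · rw [hoff i j h, mul_zero]

end Cfsg.Agent.H16.ES3
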