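import Mathlib
import Cfsg.Agent.H75.ESDefs

/-!
# S6002, piece GEN: the five involutions generate `R`
-/

set_option autoImplicit false

namespace Cfsg.Agent.H16.ES

open Cfsg.Agent.H75.ES Matrix

universe u

theorem gen : StGen.{u} := by
  intro F _ R h2 hES t ht
  apply le_antisymm
  · rw [Subgroup.closure_le]
    rintro _ ⟨i, rfl⟩
    exact ht.mem i
  · intro x hx
    obtain ⟨C, hC⟩ : ∃ C, C = Subgroup.closure (Set.range t) := ⟨_, rfl⟩
    rw [← hC]
    have htC : ∀ i, t i ∈ C := by
      intro i
      rw [hC]
      exact Subgroup.subset_closure ⟨i, rfl⟩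
    have h01 : (t 0 * t 1) * (t 0 * t 1) = -1 := by
      have h := ht.anti 1 0 (by decide)
      calc (t 0 * t 1) * (t 0 * t 1) = t 0 * (t 1 * t 0) * t 1 := by simp only [mul_assoc]
        _ = -((t 0 * t 0) * (t 1 * t 1)) := by
          rw [h]
          simp only [mul_neg, neg_mul, mul_assoc]
        _ = -1 := by rw [ht.sq, ht.sq, one_mul]
    have hneg1 : (-1 : G4 F) ∈ C := by
      rw [← h01]
      exact C.mul_mem (C.mul_mem (htC 0) (htC 1)) (C.mul_mem (htC 0) (htC 1))
    have hnegC : ∀ y ∈ C, -y ∈ C := by
      intro y hy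
      have h1 : -y = (-1 : G4 F) * y := by
        rw [neg_one_mul]
      rw [h1]
      exact C.mul_mem hneg1 hy
    have hinv : ∀ y ∈ R, y * y = 1 → y ∈ C := by
      intro y hy hyy
      rcases ht.invol y hy hyy with h | h | ⟨i, h | h⟩
      · rw [h]
        exact C.one_mem
      · rw [h]
        exact hneg1
      · rw [h]
        exact htC i
      · rw [h]
        exact hnegC _ (htC i)
    rcases hES.sq x hx with hxx | hxx
    · exact hinv x hx hxx
    · by_cases hex : ∃ j, x * t j = -(t j * x)
      · obtain ⟨j, hj⟩ := hex
        have hj' : t j * x = -(x * t j) := by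
          rw [hj, neg_neg]
        have h1 : (x * t j) * (x * t j) = 1 := by
          calc (x * t j) * (x * t j) = x * (t j * x) * t j := by simp only [mul_assoc]
            _ = -((x * x) * (t j * t j)) := by
              rw [hj']
              simp only [mul_neg, neg_mul, mul_assoc]
            _ = 1 := by rw [hxx, ht.sq, mul_one, neg_neg]
        have h2 := hinv _ (R.mul_mem hx (ht.mem j)) h1
        have h3 : x = (x * t j) * (t j)⁻¹ := by
          rw [mul_inv_cancel_right]
        rw [h3]
        exact C.mul_mem h2 (C.inv_mem (htC j))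
      · push Not at hex
        have hc : ∀ j, x * t j = t j * x := by
          intro j
          rcases hES.comm x hx (t j) (ht.mem j) with h | h
          · exact h
          · exact absurd h (hex j)
        have h : (t 0 * t 1) * x = x * (t 0 * t 1) := by
          rw [mul_assoc, ← hc 1, ← mul_assoc, ← hc 0, mul_assoc]
        have h1 : (x * (t 0 * t 1)) * (x * (t 0 * t 1)) = 1 := by
          calc (x * (t 0 * t 1)) * (x * (t 0 * t 1))
              = x * ((t 0 * t 1) * x) * (t 0 * t 1) := by simp only [mul_assoc]
            _ = (x * x) * ((t 0 * t 1) * (t 0 * t 1)) := by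
              rw [h]
              simp only [mul_assoc]
            _ = 1 := by rw [hxx, h01, neg_mul_neg, one_mul]
        have h2 := hinv _ (R.mul_mem hx (R.mul_mem (ht.mem 0) (ht.mem 1))) h1
        have h3 : x = (x * (t 0 * t 1)) * (t 0 * t 1)⁻¹ := by
          rw [mul_inv_cancel_right]
        rw [h3]
        exact C.mul_mem h2 (C.inv_mem (C.mul_mem (htC 0) (htC 1)))

example : StGen.{u} := gen

end Cfsg.Agent.H16.ES
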