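import Mathlib
import Cfsg.Agent.H75.ESDefs

/-!
# S6002, piece LI: elements of `R` distinct modulo `±1` are linearly independent
-/

set_option autoImplicit false

namespace Cfsg.Agent.H16.ES

open Cfsg.Agent.H75.ES Matrix

universe u

theorem li : StLI.{u} := by
  intro F _ R h2 hES n h hh hne
  classical
  have hne1 : (1 : F) ≠ -1 := by
    intro h1
    apply h2
    have h3 : (2 : F) = 1 + 1 := by norm_num
    rw [h3]
    nth_rewrite 1 [h1]
    ring
  -- a separating element for two indices
  have hsep : ∀ i j, i ≠ j → ∃ (ε : Fin n → F) (G G' : M4 F), G * G' = 1 ∧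
      (∀ l, G * (h l : M4 F) = ε l • ((h l : M4 F) * G)) ∧ ε i ≠ ε j := by
    intro i j hij
    obtain ⟨hn1, hn2⟩ := hne i j hij
    have hk1 : h i * h j ≠ 1 := by
      intro hk
      rcases hES.sq (h i) (hh i) with h3 | h3
      · apply hn1
        have h4 : h i * h j = h i * h i := by rw [hk, h3]
        exact (mul_left_cancel h4).symm
      · apply hn2
        have h4 : h i * (-h j) = h i * h i := by rw [mul_neg, hk, h3]
        exact (mul_left_cancel h4).symm
    have hk2 : h i * h j ≠ -1 := by
      intro hk
      rcases hES.sq (h i) (hh i) with h3 | h3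
      · apply hn2
        have h4 : h i * (-h j) = h i * h i := by rw [mul_neg, hk, h3, neg_neg]
        exact (mul_left_cancel h4).symm
      · apply hn1
        have h4 : h i * h j = h i * h i := by rw [hk, h3]
        exact (mul_left_cancel h4).symm
    have hnc : ¬ ∀ y ∈ R, (h i * h j) * y = y * (h i * h j) := by
      intro hall
      rcases hES.center _ (R.mul_mem (hh i) (hh j)) hall with h3 | h3
      · exact hk1 h3
      · exact hk2 h3
    push Not at hnc
    obtain ⟨g, hg, hgk⟩ := hnc
    refine ⟨fun l => if g * h l = h l * g then 1 else -1, (g : M4 F), ((g⁻¹ : G4 F) : M4 F),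
      ?_, ?_, ?_⟩
    · rw [← Units.val_mul, mul_inv_cancel, Units.val_one]
    · intro l
      show (g : M4 F) * (h l : M4 F)
        = (if g * h l = h l * g then (1 : F) else -1) • ((h l : M4 F) * (g : M4 F))
      by_cases hl : g * h l = h l * g
      · rw [if_pos hl, one_smul, ← Units.val_mul, hl, Units.val_mul]
      · rw [if_neg hl]
        have h3 := (hES.comm g hg (h l) (hh l)).resolve_left hl
        rw [← Units.val_mul, h3, Units.val_neg, Units.val_mul, neg_smul, one_smul]
    · show (if g * h i = h i * g then (1 : F) else -1) ≠ (if g * h j = h j * g then 1 else -1)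
      by_cases hi : g * h i = h i * g
      · by_cases hj : g * h j = h j * g
        · exfalso
          apply hgk
          rw [mul_assoc, ← hj, ← mul_assoc, ← hi, mul_assoc]
        · rw [if_pos hi, if_neg hj]
          exact hne1
      · by_cases hj : g * h j = h j * g
        · rw [if_neg hi, if_pos hj]
          exact hne1.symm
        · exfalso
          apply hgk
          have h3 := (hES.comm g hg (h i) (hh i)).resolve_left hi
          have h4 := (hES.comm g hg (h j) (hh j)).resolve_left hj
          have h4' : h j * g = -(g * h j) := by rw [h4, neg_neg]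
          calc (h i * h j) * g = h i * (h j * g) := mul_assoc _ _ _
            _ = -(h i * g) * h j := by rw [h4', mul_neg, neg_mul, mul_assoc]
            _ = g * (h i * h j) := by rw [← h3, mul_assoc]
  -- the main claim: no relation with non-zero coefficients on a non-empty support
  have key : ∀ m : ℕ, ∀ s : Finset (Fin n), s.card ≤ m → ∀ c : Fin n → F, (∀ i ∈ s, c i ≠ 0) →
      ∑ i ∈ s, c i • (h i : M4 F) = 0 → s = ∅ := by
    intro m
    induction m with
    | zero =>
      intro s hs c _ _
      exact Finset.card_eq_zero.mp (Nat.le_zero.mp hs)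
    | succ m ih =>
      intro s hs c hc hrel
      by_contra hsne
      obtain ⟨i0, hi0⟩ := Finset.nonempty_iff_ne_empty.mpr hsne
      by_cases hex : ∃ j0 ∈ s, j0 ≠ i0
      · obtain ⟨j0, hj0, hji⟩ := hex
        obtain ⟨ε, G, G', hGG', hε, hεne⟩ := hsep i0 j0 (Ne.symm hji)
        have hrel2 : ∑ i ∈ s, (c i * ε i) • (h i : M4 F) = 0 := by
          have h1 : G * (∑ i ∈ s, c i • (h i : M4 F))
              = (∑ i ∈ s, (c i * ε i) • (h i : M4 F)) * G := by
            rw [Finset.mul_sum, Finset.sum_mul]
            apply Finset.sum_congr rfl
            intro i _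
            rw [Matrix.mul_smul, hε i, smul_smul, Matrix.smul_mul]
          rw [hrel, mul_zero] at h1
          have h2 := congrArg (fun M => M * G') h1
          simp only [zero_mul, Matrix.mul_assoc, hGG', mul_one] at h2
          exact h2.symm
        have hrel3 : ∑ i ∈ s, (c i * (ε i - ε i0)) • (h i : M4 F) = 0 := by
          have h1 : ∑ i ∈ s, (c i * (ε i - ε i0)) • (h i : M4 F)
              = ∑ i ∈ s, (c i * ε i) • (h i : M4 F) - ε i0 • ∑ i ∈ s, c i • (h i : M4 F) := by
            rw [Finset.smul_sum, ← Finset.sum_sub_distrib]
            apply Finset.sum_congr rfl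
            intro i _
            rw [smul_smul, ← sub_smul]
            congr 1
            ring
          rw [h1, hrel, hrel2, smul_zero, sub_zero]
        have hs' : (s.filter (fun i => ε i ≠ ε i0)).card ≤ m := by
          have h1 : (s.filter (fun i => ε i ≠ ε i0)) ⊂ s := by
            apply Finset.filter_ssubset.mpr
            exact ⟨i0, hi0, by simp⟩
          have h2 := Finset.card_lt_card h1
          omega
        have h4 := ih (s.filter (fun i => ε i ≠ ε i0)) hs' (fun i => c i * (ε i - ε i0)) ?_ ?_
        · have h5 : j0 ∈ s.filter (fun i => ε i ≠ ε i0) :=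
            Finset.mem_filter.mpr ⟨hj0, fun h => hεne h.symm⟩
          rw [h4] at h5
          exact Finset.notMem_empty _ h5
        · intro i hi
          rw [Finset.mem_filter] at hi
          exact mul_ne_zero (hc i hi.1) (sub_ne_zero.mpr hi.2)
        · rw [Finset.sum_filter]
          refine Eq.trans (Finset.sum_congr rfl ?_) hrel3
          intro i _
          by_cases h5 : ε i ≠ ε i0
          · rw [if_pos h5]
          · rw [if_neg h5]
            push Not at h5
            rw [h5, sub_self, mul_zero, zero_smul]
      · push Not at hex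
        have hs1 : s = {i0} := by
          ext x
          rw [Finset.mem_singleton]
          constructor
          · exact hex x
          · rintro rfl
            exact hi0
        rw [hs1, Finset.sum_singleton] at hrel
        have h5 : (h i0 : M4 F) = 0 := (smul_eq_zero.mp hrel).resolve_left (hc i0 hi0)
        have h6 : (h i0 : M4 F) * ((h i0)⁻¹ : G4 F) = 1 := by
          rw [← Units.val_mul, mul_inv_cancel, Units.val_one]
        rw [h5, zero_mul] at h6
        exact zero_ne_one h6
  rw [Fintype.linearIndependent_iff]
  intro c hc i
  by_contra hci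
  have h0 := key _ (Finset.univ.filter (fun i => c i ≠ 0)) le_rfl c
    (fun i hi => (Finset.mem_filter.mp hi).2) ?_
  · have h1 : i ∈ Finset.univ.filter (fun i => c i ≠ 0) :=
      Finset.mem_filter.mpr ⟨Finset.mem_univ _, hci⟩
    rw [h0] at h1
    exact Finset.notMem_empty _ h1
  · rw [Finset.sum_filter]
    refine Eq.trans (Finset.sum_congr rfl ?_) hc
    intro i _
    by_cases h5 : c i ≠ 0
    · rw [if_pos h5]
    · rw [if_neg h5]
      push Not at h5
      rw [h5, zero_smul]

example : StLI.{u} := li

end Cfsg.Agent.H16.ES
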