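import Cfsg.Agent.H83.ESDefs

/-!
# S3084 ES-PB (helper16, for helper83): the basic relations of the Pauli matrices over `ZMod 3`.
-/

set_option autoImplicit false

namespace Cfsg.Agent.H16.ES3

open Matrix Cfsg.Agent.H83.ES

variable {n : ℕ}

theorem dot_eq (a b : Idx n) : dot a b = a ⬝ᵥ b := rfl

theorem idx_add_self (a : Idx n) : a + a = 0 := by
  funext k
  exact CharTwo.add_self_eq_zero (a k)

theorem sgn_add (s t : ZMod 2) : sgn (s + t) = sgn s * sgn t := by
  revert s t
  decide

theorem sgn_mul_self (s : ZMod 2) : sgn s * sgn s = 1 := by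
  revert s
  decide

theorem sgn_zero : sgn 0 = 1 := by decide

theorem sgn_inj (s t : ZMod 2) (h : sgn s = sgn t) : s = t := by
  revert s t
  decide

theorem X_apply (a i j : Idx n) : X a i j = if i = j + a then 1 else 0 := rfl

theorem mul_X_apply (M : Matrix (Idx n) (Idx n) (ZMod 3)) (a i j : Idx n) :
    (M * X a) i j = M i (j + a) := by
  rw [Matrix.mul_apply, Finset.sum_eq_single (j + a)]
  · rw [X_apply, if_pos rfl, mul_one]
  · intro k _ hk
    rw [X_apply, if_neg hk, mul_zero]
  · intro h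
    exact absurd (Finset.mem_univ _) h

theorem X_mul_apply (M : Matrix (Idx n) (Idx n) (ZMod 3)) (a i j : Idx n) :
    (X a * M) i j = M (i + a) j := by
  rw [Matrix.mul_apply, Finset.sum_eq_single (i + a)]
  · have h1 : i = i + a + a := by rw [add_assoc, idx_add_self, add_zero]
    rw [X_apply, if_pos h1, one_mul]
  · intro k _ hk
    have h1 : i ≠ k + a := by
      intro h
      apply hk
      rw [h, add_assoc, idx_add_self, add_zero]
    rw [X_apply, if_neg h1, zero_mul]
  · intro h
    exact absurd (Finset.mem_univ _) h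

theorem X_zero : X (0 : Idx n) = 1 := by
  ext i j
  rw [X_apply, add_zero, Matrix.one_apply]

theorem Z_zero : Z (0 : Idx n) = 1 := by
  unfold Z
  rw [← Matrix.diagonal_one]
  congr 1
  funext i
  rw [dot_eq, zero_dotProduct, sgn_zero]

theorem X_mul_X (a a' : Idx n) : X a * X a' = X (a + a') := by
  ext i j
  rw [mul_X_apply, X_apply, X_apply, add_assoc, add_comm a' a]

theorem Z_mul_Z (b b' : Idx n) : Z b * Z b' = Z (b + b') := by
  unfold Z
  rw [Matrix.diagonal_mul_diagonal]
  congr 1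
  funext i
  rw [dot_eq, dot_eq, dot_eq, add_dotProduct, sgn_add]

theorem Z_mul_X (a b : Idx n) : Z b * X a = sgn (dot b a) • (X a * Z b) := by
  ext i j
  unfold Z
  rw [Matrix.diagonal_mul, Matrix.smul_apply, Matrix.mul_diagonal, smul_eq_mul, X_apply]
  split_ifs with h
  · rw [h, dot_eq, dot_eq, dot_eq, dotProduct_add, sgn_add]
    ring
  · ring

theorem P_apply (u : Idx n × Idx n) (i j : Idx n) :
    P u i j = (if i = j + u.1 then 1 else 0) * sgn (dot u.2 j) := by
  unfold P Z
  rw [Matrix.mul_diagonal]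
  rfl

theorem P_mul (u v : Idx n × Idx n) : P u * P v = sgn (dot u.2 v.1) • P (u + v) := by
  unfold P
  calc X u.1 * Z u.2 * (X v.1 * Z v.2) = X u.1 * (Z u.2 * X v.1) * Z v.2 := by
        simp only [Matrix.mul_assoc]
    _ = sgn (dot u.2 v.1) • (X u.1 * X v.1 * (Z u.2 * Z v.2)) := by
        rw [Z_mul_X]
        simp only [Matrix.mul_smul, Matrix.smul_mul, Matrix.mul_assoc]
    _ = _ := by
        rw [X_mul_X, Z_mul_Z]
        rfl

theorem P_zero : P (0 : Idx n × Idx n) = 1 := by
  show X (0 : Idx n) * Z (0 : Idx n) = 1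
  rw [X_zero, Z_zero, one_mul]

theorem P_right (b : Idx n) : P ((0, b) : Idx n × Idx n) = Z b := by
  show X (0 : Idx n) * Z b = Z b
  rw [X_zero, one_mul]

theorem P_left (a : Idx n) : P ((a, 0) : Idx n × Idx n) = X a := by
  show X a * Z (0 : Idx n) = X a
  rw [Z_zero, mul_one]

/-- **ES-PB**. -/
theorem pb : Cfsg.Agent.H83.ES.StPB := by
  intro n
  refine ⟨P_zero, P_mul, ?_, ?_, ?_, ?_, sgn_add, ?_⟩
  · intro u
    have h0 : u + u = 0 := Prod.ext (idx_add_self u.1) (idx_add_self u.2)
    rw [P_mul, h0, P_zero]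
    show sgn (dot u.2 u.1) • (1 : Matrix (Idx n) (Idx n) (ZMod 3)) = sgn (dot u.1 u.2) • 1
    rw [dot_eq, dot_eq, dotProduct_comm]
  · intro u v
    rw [P_mul, P_mul, smul_smul, add_comm v u]
    congr 1
    show sgn (dot u.2 v.1) = sgn (dot u.1 v.2 + dot u.2 v.1) * sgn (dot v.2 u.1)
    rw [sgn_add, dot_eq u.1 v.2, dot_eq v.2 u.1, dotProduct_comm u.1 v.2,
      mul_comm (sgn _) (sgn (dot u.2 v.1)), mul_assoc, sgn_mul_self, mul_one]
  · intro i
    exact ⟨P_left _, P_right _⟩
  · intro u v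
    show dot u.1 v.2 + dot u.2 v.1 = dot (u.1 + v.1) (u.2 + v.2) + dot u.1 u.2 + dot v.1 v.2
    rw [dot_eq, dot_eq, dot_eq, dot_eq, dot_eq, add_dotProduct, dotProduct_add, dotProduct_add,
      dotProduct_comm u.2 v.1]
    generalize u.1 ⬝ᵥ v.2 = a
    generalize v.1 ⬝ᵥ u.2 = b
    generalize u.1 ⬝ᵥ u.2 = c
    generalize v.1 ⬝ᵥ v.2 = d
    revert a b c d
    decide
  · intro u hu
    apply Prod.ext
    · funext k
      have h2 := hu (0, Pi.single k 1)
      have h3 : b0 u ((0, Pi.single k 1) : Idx n × Idx n) = u.1 k := by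
        show dot u.1 (Pi.single k 1) + dot u.2 0 = u.1 k
        rw [dot_eq, dot_eq, dotProduct_zero, add_zero, dotProduct_single_one]
      rw [h3] at h2
      exact h2
    · funext k
      have h2 := hu (Pi.single k 1, 0)
      have h3 : b0 u ((Pi.single k 1, 0) : Idx n × Idx n) = u.2 k := by
        show dot u.1 0 + dot u.2 (Pi.single k 1) = u.2 k
        rw [dot_eq, dot_eq, dotProduct_zero, zero_add, dotProduct_single_one]
      rw [h3] at h2
      exact h2

end Cfsg.Agent.H16.ES3
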