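import Cfsg.Agent.H16.ESPB

/-!
# S3084 ES-PINJ (helper16, for helper83): the Pauli matrices are pairwise non-proportional.
-/

set_option autoImplicit false

namespace Cfsg.Agent.H16.ES3

open Matrix Cfsg.Agent.H83.ES

/-- **ES-PINJ**. -/
theorem pinj : Cfsg.Agent.H83.ES.StPInj := by
  intro n u v ε h
  have hd : ∀ b : Idx n, sgn (dot b 0) = 1 := by
    intro b
    rw [dot_eq, dotProduct_zero, sgn_zero]
  have h1 := congrFun (congrFun h u.1) 0
  rw [Matrix.smul_apply, P_apply, P_apply, smul_eq_mul, hd, hd, zero_add, zero_add, if_pos rfl,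
    mul_one, mul_one] at h1
  have huv1 : u.1 = v.1 := by
    by_contra hne
    rw [if_neg hne, mul_zero] at h1
    revert h1
    decide
  rw [if_pos huv1, mul_one] at h1
  have hε : ε = 1 := h1.symm
  refine ⟨?_, hε⟩
  have h2 : ∀ j : Idx n, sgn (dot u.2 j) = sgn (dot v.2 j) := by
    intro j
    have h3 := congrFun (congrFun h (j + u.1)) j
    rw [Matrix.smul_apply, P_apply, P_apply, smul_eq_mul, hε, one_mul, if_pos rfl, ← huv1,
      if_pos rfl, one_mul, one_mul] at h3
    exact h3
  apply Prod.ext huv1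
  funext i
  have h4 := sgn_inj _ _ (h2 (Pi.single i 1))
  rw [dot_eq, dot_eq, dotProduct_single_one, dotProduct_single_one] at h4
  exact h4

end Cfsg.Agent.H16.ES3
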