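import Mathlib
import Cfsg.Agent.H75.ESDefs
import Cfsg.Agent.H17.Symp

/-!
# S6002, piece ROT: `1 + a` for `a ∈ R` of square `-1`
-/

set_option autoImplicit false

namespace Cfsg.Agent.H16.ES

open Cfsg.Agent.H75.ES Matrix

universe u

theorem rot : StRot.{u} := by
  intro F _ R h2 hES hsp a ha haa
  classical
  -- matrix form of `a * a = -1`
  have hAA : (a : M4 F) * (a : M4 F) = -1 := by
    have h1 := congrArg (fun x : G4 F => (x : M4 F)) haa
    simpa using h1
  -- the unit `g = 1 + a`
  have hinv1 : (1 + (a : M4 F)) * ((2 : F)⁻¹ • (1 - (a : M4 F))) = 1 := by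
    rw [Matrix.mul_smul, mul_sub, mul_one, add_mul, one_mul, hAA]
    have h3 : (1 : M4 F) + (a : M4 F) - ((a : M4 F) + -1) = (2 : F) • (1 : M4 F) := by
      rw [two_smul]
      abel
    rw [h3, smul_smul, inv_mul_cancel₀ h2, one_smul]
  have hinv2 : ((2 : F)⁻¹ • (1 - (a : M4 F))) * (1 + (a : M4 F)) = 1 := by
    rw [Matrix.smul_mul, sub_mul, one_mul, mul_add, mul_one, hAA]
    have h3 : (1 : M4 F) + (a : M4 F) - ((a : M4 F) + -1) = (2 : F) • (1 : M4 F) := by
      rw [two_smul]
      abel
    rw [h3, smul_smul, inv_mul_cancel₀ h2, one_smul]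
  obtain ⟨g, hg⟩ : ∃ g : G4 F, (g : M4 F) = 1 + (a : M4 F) :=
    ⟨⟨1 + (a : M4 F), (2 : F)⁻¹ • (1 - (a : M4 F)), hinv1, hinv2⟩, rfl⟩
  -- the two conjugation formulas
  have hc1 : ∀ h : G4 F, a * h = h * a → g * h * g⁻¹ = h := by
    intro h hah
    rw [mul_inv_eq_iff_eq_mul]
    apply Units.ext
    have h1 : (a : M4 F) * (h : M4 F) = (h : M4 F) * (a : M4 F) := by
      have h1 := congrArg (fun x : G4 F => (x : M4 F)) hah
      simpa using h1
    rw [Units.val_mul, Units.val_mul, hg, add_mul, one_mul, mul_add, mul_one, h1]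
  have hc2 : ∀ h : G4 F, a * h = -(h * a) → g * h * g⁻¹ = -(h * a) := by
    intro h hah
    rw [mul_inv_eq_iff_eq_mul]
    apply Units.ext
    have h1 : (a : M4 F) * (h : M4 F) = -((h : M4 F) * (a : M4 F)) := by
      have h1 := congrArg (fun x : G4 F => (x : M4 F)) hah
      simpa using h1
    rw [Units.val_mul, Units.val_mul, Units.val_neg, Units.val_mul, hg, add_mul, one_mul, mul_add,
      mul_one, h1, neg_mul, Matrix.mul_assoc, hAA]
    simp
    abel
  have hnegmem : ∀ x ∈ R, -x ∈ R := by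
    intro x hx
    have h1 : -x = (-1 : G4 F) * x := by
      rw [neg_one_mul]
    rw [h1]
    exact R.mul_mem hES.neg_mem hx
  refine ⟨g, hg, ?_, fun h _ => hc1 h, fun h _ => hc2 h, ?_⟩
  · unfold Cfsg.Geo.subgroupNormalizer
    rw [Subgroup.mem_normalizer_iff]
    intro h
    constructor
    · intro hh
      rcases hES.comm a ha h hh with h1 | h1
      · rw [hc1 h h1]
        exact hh
      · rw [hc2 h h1]
        exact hnegmem _ (R.mul_mem hh ha)
    · intro hk
      rcases hES.comm a ha _ hk with h1 | h1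
      · have h3 := hc1 _ h1
        have h4 : g * h * g⁻¹ = h := by
          have h5 : g * (g * h * g⁻¹) * g⁻¹ = g * h * g⁻¹ := h3
          have h6 := congrArg (fun x => g⁻¹ * x * g) h5
          simp only [mul_assoc, inv_mul_cancel_left, inv_mul_cancel, mul_one] at h6
          simpa [mul_assoc] using h6
        rw [← h4]
        exact hk
      · -- `k = g h g⁻¹` anticommutes with `a`; then `h = k a`
        have hka : a * (g * h * g⁻¹ * a) = -((g * h * g⁻¹ * a) * a) := by
          rw [← mul_assoc, h1, neg_mul]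
        have h3 := hc2 _ hka
        have h4 : g * h * g⁻¹ * a * a = -(g * h * g⁻¹) := by
          rw [mul_assoc, haa, mul_neg, mul_one]
        rw [h4, neg_neg] at h3
        have h5 : g * h * g⁻¹ * a = h := by
          have h6 := congrArg (fun x => g⁻¹ * x * g) h3
          simp only [mul_assoc, inv_mul_cancel_left, inv_mul_cancel, mul_one] at h6
          simpa [mul_assoc] using h6
        rw [← h5]
        exact R.mul_mem hk ha
  · intro u v
    have hasp : ∀ u v : I4 → F, Cfsg.sympForm 2 F ((a : M4 F) *ᵥ u) ((a : M4 F) *ᵥ v) =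
        Cfsg.sympForm 2 F u v := hsp ha
    have hJ : (a : M4 F)ᵀ * Matrix.J (Fin 2) F * (a : M4 F) = Matrix.J (Fin 2) F := by
      apply Cfsg.Agent.H17.matrix_ext_form
      intro u v
      have := hasp u v
      rw [Cfsg.Agent.H17.sympForm_mulVec] at this
      exact this
    have hJ2 : (a : M4 F)ᵀ * Matrix.J (Fin 2) F = -(Matrix.J (Fin 2) F * (a : M4 F)) := by
      have h1 : (a : M4 F)ᵀ * Matrix.J (Fin 2) F * (a : M4 F) * (a : M4 F)
          = Matrix.J (Fin 2) F * (a : M4 F) := by
        rw [hJ]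
      rw [Matrix.mul_assoc ((a : M4 F)ᵀ * Matrix.J (Fin 2) F), hAA, mul_neg, mul_one] at h1
      rw [← h1, neg_neg]
    rw [Cfsg.Agent.H17.sympForm_mulVec, hg]
    have h3 : (1 + (a : M4 F))ᵀ * Matrix.J (Fin 2) F * (1 + (a : M4 F))
        = (2 : F) • Matrix.J (Fin 2) F := by
      rw [Matrix.transpose_add, Matrix.transpose_one, add_mul, one_mul, mul_add, mul_one, add_mul,
        hJ, hJ2, two_smul]
      abel
    rw [h3, Matrix.smul_mulVec, dotProduct_smul, smul_eq_mul]
    rfl

example : StRot.{u} := rot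

end Cfsg.Agent.H16.ES
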