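import Mathlib

set_option autoImplicit false

namespace Cfsg.Agent.H16

open MulAction
open scoped Pointwise

/-- Sylow conjugacy, elementwise: two subgroups whose order is the full `p`-part are conjugate. -/
theorem exists_conj_mem_of_card {H : Type*} [Group H] [Finite H] {p : ℕ} [Fact p.Prime]
    {P Q : Subgroup H} (hP : Nat.card P = p ^ (Nat.card H).factorization p)
    (hQ : Nat.card Q = p ^ (Nat.card H).factorization p) :
    ∃ h : H, ∀ x ∈ Q, h * x * h⁻¹ ∈ P := by
  let S : Sylow p H := Sylow.ofCard P hP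
  let S' : Sylow p H := Sylow.ofCard Q hQ
  obtain ⟨h, hh⟩ := MulAction.exists_smul_eq H S' S
  refine ⟨h, fun x hx => ?_⟩
  have h1 : x ∈ (S' : Subgroup H) := hx
  have h2 : MulAut.conj h • x ∈ MulAut.conj h • (S' : Subgroup H) :=
    Subgroup.smul_mem_pointwise_smul _ _ _ h1
  have h3 : (MulAut.conj h • (S' : Subgroup H)) = (S : Subgroup H) := by
    rw [← Sylow.coe_subgroup_smul, hh]
  rw [h3] at h2
  have h4 : MulAut.conj h • x = h * x * h⁻¹ := by simp [MulAut.smul_def]
  rw [h4] at h2
  exact h2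

/-- Sylow conjugacy inside a subgroup `K` of an ambient group. -/
theorem exists_conj_mem_in_subgroup {X : Type*} [Group X] [Finite X] {p : ℕ} [Fact p.Prime]
    (K P Q : Subgroup X) (hPK : P ≤ K) (hQK : Q ≤ K) {n : ℕ} (hP : Nat.card P = p ^ n)
    (hQ : Nat.card Q = p ^ n) (hK : ¬ p ^ (n + 1) ∣ Nat.card K) :
    ∃ h ∈ K, ∀ x ∈ Q, h * x * h⁻¹ ∈ P := by
  have hp : p.Prime := Fact.out
  have hKpos : Nat.card K ≠ 0 := Nat.card_pos.ne'
  have hfac : (Nat.card K).factorization p = n := by
    have h1 : n ≤ (Nat.card K).factorization p := by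
      rw [← hp.pow_dvd_iff_le_factorization hKpos, ← hP]
      exact Subgroup.card_dvd_of_le hPK
    have h2 : ¬ n + 1 ≤ (Nat.card K).factorization p := by
      rw [← hp.pow_dvd_iff_le_factorization hKpos]; exact hK
    omega
  have hP' : Nat.card (P.subgroupOf K) = p ^ (Nat.card K).factorization p := by
    rw [hfac, ← hP]
    exact Nat.card_congr (Subgroup.subgroupOfEquivOfLe hPK).toEquiv
  have hQ' : Nat.card (Q.subgroupOf K) = p ^ (Nat.card K).factorization p := by
    rw [hfac, ← hQ]
    exact Nat.card_congr (Subgroup.subgroupOfEquivOfLe hQK).toEquiv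
  obtain ⟨h, hh⟩ := exists_conj_mem_of_card hP' hQ'
  refine ⟨h.1, h.2, fun x hx => ?_⟩
  have h1 : (⟨x, hQK hx⟩ : K) ∈ Q.subgroupOf K := by
    rw [Subgroup.mem_subgroupOf]; exact hx
  have h2 := hh _ h1
  rw [Subgroup.mem_subgroupOf] at h2
  simpa using h2

/-- In a finite group, an element conjugating a subgroup into itself normalises it. -/
theorem mem_normalizer_of_conj_mem {X : Type*} [Group X] [Finite X] (P : Subgroup X) (g : X)
    (h : ∀ u ∈ P, g * u * g⁻¹ ∈ P) : g ∈ Subgroup.normalizer (P : Set X) := by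
  have hpow : ∀ j : ℕ, ∀ u ∈ P, g ^ j * u * (g ^ j)⁻¹ ∈ P := by
    intro j
    induction j with
    | zero => intro u hu; simpa using hu
    | succ j ih =>
      intro u hu
      have h1 := h _ (ih u hu)
      have h2 : g * (g ^ j * u * (g ^ j)⁻¹) * g⁻¹ = g ^ (j + 1) * u * (g ^ (j + 1))⁻¹ := by
        rw [pow_succ']; group
      rw [h2] at h1
      exact h1
  have hinv : ∀ u ∈ P, g⁻¹ * u * g ∈ P := by
    intro u hu
    have hg1 : g ^ (orderOf g - 1) = g⁻¹ := by
      have hpos : 0 < orderOf g := orderOf_pos g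
      rw [eq_inv_iff_mul_eq_one, ← pow_succ, Nat.sub_add_cancel hpos, pow_orderOf_eq_one]
    have := hpow (orderOf g - 1) u hu
    rw [hg1, inv_inv] at this
    exact this
  rw [Subgroup.mem_normalizer_iff]
  intro u
  constructor
  · exact h u
  · intro hu
    have := hinv _ hu
    have h2 : g⁻¹ * (g * u * g⁻¹) * g = u := by group
    rw [h2] at this
    exact this

/-- A `p`-group acting on a finite invariant set of size prime to `p` has a fixed point in
it. -/
theorem exists_fixed_in_invariant {α : Type*} [Finite α] {p : ℕ} [Fact p.Prime]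
    (Q : Subgroup (Equiv.Perm α)) (hQ : IsPGroup p Q) (O : Set α)
    (hO : ∀ g ∈ Q, ∀ x ∈ O, g x ∈ O) (hcard : ¬ p ∣ Nat.card O) :
    ∃ y ∈ O, ∀ g ∈ Q, g y = y := by
  let S : SubMulAction Q α := { carrier := O, smul_mem' := fun g x hx => hO g.1 g.2 x hx }
  have hS : Nat.card S = Nat.card O := rfl
  obtain ⟨⟨y, hy⟩, hfix⟩ := hQ.nonempty_fixed_point_of_prime_not_dvd_card S (by rw [hS]; exact hcard)
  refine ⟨y, hy, fun g hg => ?_⟩
  have := hfix ⟨g, hg⟩
  exact congrArg Subtype.val this

end Cfsg.Agent.H16
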