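import Mathlib
import Cfsg.Prelude.Def_LocalStructure
import Cfsg.Agent.H68.MinPClosed
import Cfsg.Agent.H16.SylowConj

/-!
# Minimal non-`p`-closed configurations `G = Q ⋊ P`
-/

set_option autoImplicit false
set_option linter.unusedSectionVars false

namespace Cfsg.Agent.H16

open Cfsg

/-- The configuration: `G = Q P` with `Q` a normal nilpotent `p'`-subgroup, `P` an abelian
`p`-subgroup not centralizing `Q`, and all proper subgroups of `G` `p`-closed. -/
structure MinCfg {G : Type*} [Group G] (p : ℕ) (Q P : Subgroup G) : Prop where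
  qnormal : Q.Normal
  hPp : IsPGroup p P
  hQp : ¬ p ∣ Nat.card Q
  hab : ∀ a ∈ P, ∀ b ∈ P, a * b = b * a
  hsup : Q ⊔ P = ⊤
  hnc : ¬ (∀ u ∈ P, ∀ l ∈ Q, u * l = l * u)
  hIH : ∀ K : Subgroup G, K ≠ ⊤ → IsPClosed p K
  hnil : Group.IsNilpotent Q

section MinCfgLemmas

variable {G : Type*} [Group G] [Finite G] {p : ℕ} [Fact p.Prime] {Q P : Subgroup G}

theorem MinCfg.exists_mul (h : MinCfg p Q P) (g : G) : ∃ l ∈ Q, ∃ y ∈ P, g = l * y := by
  have := h.qnormal
  have hg : g ∈ ((Q ⊔ P : Subgroup G) : Set G) := by rw [h.hsup]; trivial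
  rw [Subgroup.normal_mul] at hg
  obtain ⟨l, hl, y, hy, rfl⟩ := Set.mem_mul.mp hg
  exact ⟨l, hl, y, hy, rfl⟩

theorem MinCfg.disj (h : MinCfg p Q P) {g : G} (hgQ : g ∈ Q) (hgP : g ∈ P) : g = 1 := by
  obtain ⟨k, hk⟩ := h.hPp ⟨g, hgP⟩
  have hgk : g ^ p ^ k = 1 := by simpa using congrArg Subtype.val hk
  exact H68.eq_one_of_pow_prime_pow_eq_one h.hQp hgQ hgk

theorem MinCfg.commute_of_ne (h : MinCfg p Q P) (D : Subgroup G) (hDQ : D ≤ Q)
    (hPD : P ≤ Subgroup.normalizer (D : Set G)) (hne : D ≠ Q) {u m : G} (hu : u ∈ P)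
    (hm : m ∈ D) : u * m = m * u := by
  have hK : D ⊔ P ≠ ⊤ := by
    intro htop
    apply hne
    apply le_antisymm hDQ
    intro l hl
    have hl' : l ∈ ((D ⊔ P : Subgroup G) : Set G) := by rw [htop]; trivial
    rw [Subgroup.coe_mul_of_right_le_normalizer_left D P hPD] at hl'
    obtain ⟨d, hd, y, hy, rfl⟩ := Set.mem_mul.mp hl'
    have hyQ : y ∈ Q := by
      have : y = d⁻¹ * (d * y) := by group
      rw [this]; exact Q.mul_mem (Q.inv_mem (hDQ hd)) hl
    have hy1 : y = 1 := h.disj hyQ hy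
    rw [hy1, mul_one]; exact hd
  have hpD : ¬ p ∣ Nat.card D := fun hdvd => h.hQp (hdvd.trans (Subgroup.card_dvd_of_le hDQ))
  exact H68.commute_of_pclosed (D ⊔ P) (h.hIH _ hK) P D le_sup_right le_sup_left h.hPp hpD
    (sup_le Subgroup.le_normalizer hPD) hu hm

/-- The centralizer of `P` in `Q` is central in `G`. -/
theorem MinCfg.central (h : MinCfg p Q P) {c : G} (hcQ : c ∈ Q)
    (hcP : ∀ u ∈ P, u * c = c * u) : c ∈ Subgroup.center G := by
  classical
  have hQn := h.qnormal
  set C : Subgroup G := Q ⊓ Subgroup.centralizer (P : Set G) with hC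
  have hCQ : C ≤ Q := inf_le_left
  have hCmem : ∀ x, x ∈ C ↔ x ∈ Q ∧ ∀ u ∈ P, u * x = x * u := by
    intro x
    rw [hC, Subgroup.mem_inf, Subgroup.mem_centralizer_iff]
    rfl
  have hCne : C ≠ Q := by
    intro heq
    apply h.hnc
    intro u hu l hl
    have : l ∈ C := by rw [heq]; exact hl
    exact ((hCmem l).mp this).2 u hu
  -- P normalizes C
  have hPC : P ≤ Subgroup.normalizer (C : Set G) := by
    intro u hu
    apply mem_normalizer_of_conj_mem
    intro x hx
    have hx' := (hCmem x).mp hx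
    have : u * x * u⁻¹ = x := by rw [hx'.2 u hu]; group
    rw [this]; exact hx
  -- Q normalizes C
  have hQC : Q ≤ Subgroup.normalizer (C : Set G) := by
    by_contra hnot
    set N : Subgroup G := Q ⊓ Subgroup.normalizer (C : Set G) with hN
    have hNQ : N ≤ Q := inf_le_left
    have hNne : N ≠ Q := fun heq => hnot (by rw [← heq]; exact inf_le_right)
    have hPN : P ≤ Subgroup.normalizer (N : Set G) := by
      intro u hu
      apply mem_normalizer_of_conj_mem
      intro x hx
      refine ⟨hQn.conj_mem x hx.1 u, ?_⟩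
      exact (Subgroup.normalizer (C : Set G)).mul_mem
        ((Subgroup.normalizer (C : Set G)).mul_mem (hPC hu) hx.2)
        ((Subgroup.normalizer (C : Set G)).inv_mem (hPC hu))
    have hnc : NormalizerCondition Q := @Group.normalizerCondition_of_isNilpotent Q _ h.hnil
    have hlt : C.subgroupOf Q < ⊤ := by
      rw [lt_top_iff_ne_top]
      intro htop
      apply hCne
      exact le_antisymm hCQ (Subgroup.subgroupOf_eq_top.mp htop)
    have hlt2 := hnc (C.subgroupOf Q) hlt
    obtain ⟨x, hxN, hxC⟩ := SetLike.exists_of_lt hlt2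
    have hxN' : (x : G) ∈ N := by
      refine ⟨x.2, ?_⟩
      apply mem_normalizer_of_conj_mem
      intro c hc
      have hcQ' : c ∈ Q := hCQ hc
      have := (Subgroup.mem_normalizer_iff.mp hxN ⟨c, hcQ'⟩).mp (Subgroup.mem_subgroupOf.mpr hc)
      exact Subgroup.mem_subgroupOf.mp this
    have hxC' : (x : G) ∈ C := by
      rw [hCmem]
      exact ⟨x.2, fun u hu => h.commute_of_ne N hNQ hPN hNne hu hxN'⟩
    exact hxC (Subgroup.mem_subgroupOf.mpr hxC')
  -- Q centralizes C
  have hQcent : ∀ l ∈ Q, ∀ c ∈ C, l * c = c * l := by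
    by_contra hnot
    set D : Subgroup G := Q ⊓ Subgroup.centralizer (C : Set G) with hD
    have hDQ : D ≤ Q := inf_le_left
    have hDne : D ≠ Q := by
      intro heq
      apply hnot
      intro l hl c hc
      have : l ∈ D := by rw [heq]; exact hl
      exact (Subgroup.mem_centralizer_iff.mp (Subgroup.mem_inf.mp this).2 c hc).symm
    have hPD : P ≤ Subgroup.normalizer (D : Set G) := by
      intro u hu
      apply mem_normalizer_of_conj_mem
      intro x hx
      have hx1 := (Subgroup.mem_inf.mp hx).1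
      have hx2 := (Subgroup.mem_inf.mp hx).2
      refine Subgroup.mem_inf.mpr ⟨hQn.conj_mem x hx1 u, ?_⟩
      rw [Subgroup.mem_centralizer_iff]
      intro c hc
      have hcu : u * c = c * u := ((hCmem c).mp hc).2 u hu
      have hxc : c * x = x * c := Subgroup.mem_centralizer_iff.mp hx2 c hc
      have hcu' : c * u⁻¹ = u⁻¹ * c := by
        calc c * u⁻¹ = u⁻¹ * (u * c) * u⁻¹ := by group
          _ = u⁻¹ * (c * u) * u⁻¹ := by rw [hcu]
          _ = u⁻¹ * c := by group
      calc c * (u * x * u⁻¹) = (c * u) * x * u⁻¹ := by group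
        _ = u * (c * x) * u⁻¹ := by rw [← hcu]; group
        _ = u * x * (c * u⁻¹) := by rw [hxc]; group
        _ = u * x * u⁻¹ * c := by rw [hcu']; group
    apply h.hnc
    intro u hu l hl
    set wd : G := l⁻¹ * (u * l * u⁻¹) with hwd
    have hwQ : wd ∈ Q := Q.mul_mem (Q.inv_mem hl) (hQn.conj_mem l hl u)
    have hwD : wd ∈ D := by
      refine Subgroup.mem_inf.mpr ⟨hwQ, ?_⟩
      rw [Subgroup.mem_centralizer_iff]
      intro c hc
      have hc' : l * c * l⁻¹ ∈ C := (Subgroup.mem_normalizer_iff.mp (hQC hl) c).mp hc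
      have hcu : u * c = c * u := ((hCmem c).mp hc).2 u hu
      have hc'u : u * (l * c * l⁻¹) = (l * c * l⁻¹) * u := ((hCmem _).mp hc').2 u hu
      have hcu' : u⁻¹ * c = c * u⁻¹ := by
        calc u⁻¹ * c = u⁻¹ * (c * u) * u⁻¹ := by group
          _ = u⁻¹ * (u * c) * u⁻¹ := by rw [hcu]
          _ = c * u⁻¹ := by group
      symm
      calc wd * c = l⁻¹ * (u * l) * (u⁻¹ * c) := by rw [hwd]; group
        _ = l⁻¹ * (u * l) * (c * u⁻¹) := by rw [hcu']
        _ = l⁻¹ * (u * (l * c * l⁻¹)) * l * u⁻¹ := by group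
        _ = l⁻¹ * ((l * c * l⁻¹) * u) * l * u⁻¹ := by rw [hc'u]
        _ = c * wd := by rw [hwd]; group
    have hwu : u * wd = wd * u := h.commute_of_ne D hDQ hPD hDne hu hwD
    have hconj : u * l * u⁻¹ = l * wd := by rw [hwd]; group
    have hpow : ∀ j : ℕ, u ^ j * l * (u ^ j)⁻¹ = l * wd ^ j := by
      intro j
      induction j with
      | zero => simp
      | succ j ih =>
        have hwuj : u * wd ^ j = wd ^ j * u := (Commute.pow_right (show Commute u wd from hwu) j).eq
        calc u ^ (j + 1) * l * (u ^ (j + 1))⁻¹ = u * (u ^ j * l * (u ^ j)⁻¹) * u⁻¹ := by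
              rw [pow_succ']; group
          _ = u * (l * wd ^ j) * u⁻¹ := by rw [ih]
          _ = (u * l * u⁻¹) * (u * wd ^ j) * u⁻¹ := by group
          _ = l * wd * (wd ^ j * u) * u⁻¹ := by rw [hconj, hwuj]
          _ = l * wd ^ (j + 1) := by rw [pow_succ']; group
    obtain ⟨k, hk⟩ := h.hPp ⟨u, hu⟩
    have huk : u ^ p ^ k = 1 := by simpa using congrArg Subtype.val hk
    have h6 := hpow (p ^ k)
    rw [huk] at h6
    have hw1 : wd ^ p ^ k = 1 := by
      have : l * wd ^ p ^ k = l * 1 := by rw [← h6]; group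
      exact mul_left_cancel this
    have hw1' : wd = 1 := H68.eq_one_of_pow_prime_pow_eq_one h.hQp hwQ hw1
    rw [hw1', mul_one] at hconj
    calc u * l = u * l * u⁻¹ * u := by group
      _ = l * u := by rw [hconj]
  -- conclusion
  rw [Subgroup.mem_center_iff]
  intro g
  obtain ⟨l, hl, y, hy, rfl⟩ := h.exists_mul g
  have hcC : c ∈ C := (hCmem c).mpr ⟨hcQ, hcP⟩
  have e1 := hQcent l hl c hcC
  have e2 := hcP y hy
  calc l * y * c = l * (y * c) := by group
    _ = l * (c * y) := by rw [e2]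
    _ = (l * c) * y := by group
    _ = c * l * y := by rw [e1]
    _ = c * (l * y) := by group

/-- Lang-type lemma: every element of the coset `Q y` (`y ∈ P` non-central) is a central
multiple of a conjugate of `y`. -/
theorem MinCfg.lang (h : MinCfg p Q P) {y : G} (hy : y ∈ P)
    (hyZ : y ∉ Subgroup.center G) {l : G} (hl : l ∈ Q) :
    ∃ c ∈ Subgroup.center G, ∃ m : G, l * y = c * (m * y * m⁻¹) := by
  classical
  have hQn := h.qnormal
  set Z : Subgroup G := Subgroup.center G with hZ
  -- the centralizer of `y` in `Q` is central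
  have hDy : ∀ t ∈ Q, t * y = y * t → t ∈ Z := by
    intro t ht hty
    set D : Subgroup G := Q ⊓ Subgroup.centralizer ({y} : Set G) with hD
    have hDne : D ≠ Q := by
      intro heq
      apply hyZ
      rw [Subgroup.mem_center_iff]
      intro g
      obtain ⟨l', hl', y', hy', rfl⟩ := h.exists_mul g
      have hl'D : l' ∈ D := by rw [heq]; exact hl'
      have e1 : y * l' = l' * y :=
        Subgroup.mem_centralizer_iff.mp (Subgroup.mem_inf.mp hl'D).2 y rfl
      have e2 := h.hab y hy y' hy'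
      calc l' * y' * y = l' * (y' * y) := by group
        _ = l' * (y * y') := by rw [e2]
        _ = (l' * y) * y' := by group
        _ = y * l' * y' := by rw [e1]
        _ = y * (l' * y') := by group
    have hPD : P ≤ Subgroup.normalizer (D : Set G) := by
      intro u hu
      apply mem_normalizer_of_conj_mem
      intro x hx
      have hx1 := (Subgroup.mem_inf.mp hx).1
      have hx2 := (Subgroup.mem_inf.mp hx).2
      refine Subgroup.mem_inf.mpr ⟨hQn.conj_mem x hx1 u, ?_⟩
      rw [Subgroup.mem_centralizer_iff]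
      intro z hz
      rw [Set.mem_singleton_iff] at hz
      subst hz
      have hxy : z * x = x * z := Subgroup.mem_centralizer_iff.mp hx2 z rfl
      have huy : u * z = z * u := h.hab u hu z hy
      have huy' : z * u⁻¹ = u⁻¹ * z := by
        calc z * u⁻¹ = u⁻¹ * (u * z) * u⁻¹ := by group
          _ = u⁻¹ * (z * u) * u⁻¹ := by rw [huy]
          _ = u⁻¹ * z := by group
      calc z * (u * x * u⁻¹) = (z * u) * x * u⁻¹ := by group
        _ = u * (z * x) * u⁻¹ := by rw [← huy]; group
        _ = u * x * (z * u⁻¹) := by rw [hxy]; group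
        _ = u * x * u⁻¹ * z := by rw [huy']; group
    have htD : t ∈ D := by
      refine Subgroup.mem_inf.mpr ⟨ht, ?_⟩
      rw [Subgroup.mem_centralizer_iff]
      intro z hz
      rw [Set.mem_singleton_iff] at hz
      subst hz
      exact hty.symm
    exact h.central ht (fun u hu => h.commute_of_ne D inf_le_left hPD hDne hu htD)
  -- the commutator map on `Q` modulo the centre
  let S : Subgroup Q := Z.subgroupOf Q
  let F : Q → Q := fun m => ⟨(m : G) * y * (m : G)⁻¹ * y⁻¹, by
    have : (m : G) * y * (m : G)⁻¹ * y⁻¹ = (m : G) * (y * (m : G)⁻¹ * y⁻¹) := by group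
    rw [this]
    exact Q.mul_mem m.2 (hQn.conj_mem _ (Q.inv_mem m.2) y)⟩
  have hFval : ∀ m : Q, ((F m : Q) : G) = (m : G) * y * (m : G)⁻¹ * y⁻¹ := fun m => rfl
  have hSmem : ∀ x : Q, x ∈ S ↔ (x : G) ∈ Z := fun x => Subgroup.mem_subgroupOf
  have hFwd : ∀ a b : Q, (QuotientGroup.leftRel S) a b → (QuotientGroup.leftRel S) (F a) (F b) := by
    intro a b hab
    rw [QuotientGroup.leftRel_apply] at hab ⊢
    have hz : ((a : G)⁻¹ * (b : G)) ∈ Z := by
      have := (hSmem _).mp hab
      simpa using this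
    have hFab : F b = F a := by
      apply Subtype.ext
      rw [hFval, hFval]
      set z := (a : G)⁻¹ * (b : G) with hzdef
      have hb : (b : G) = (a : G) * z := by rw [hzdef]; group
      have hzy : y * z = z * y := Subgroup.mem_center_iff.mp hz y
      rw [hb]
      calc (a : G) * z * y * ((a : G) * z)⁻¹ * y⁻¹
          = (a : G) * (z * y) * z⁻¹ * (a : G)⁻¹ * y⁻¹ := by group
        _ = (a : G) * (y * z) * z⁻¹ * (a : G)⁻¹ * y⁻¹ := by rw [hzy]
        _ = (a : G) * y * (a : G)⁻¹ * y⁻¹ := by group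
    rw [hFab, inv_mul_cancel]
    exact S.one_mem
  let Fbar : Q ⧸ S → Q ⧸ S := Quotient.map' F hFwd
  have hFbar : ∀ a : Q, Fbar (QuotientGroup.mk a) = QuotientGroup.mk (F a) := fun a => rfl
  obtain ⟨k, hk⟩ := h.hPp ⟨y, hy⟩
  have hyk : y ^ p ^ k = 1 := by simpa using congrArg Subtype.val hk
  have hinj : Function.Injective Fbar := by
    intro a b
    induction a using QuotientGroup.induction_on with
    | H a =>
    induction b using QuotientGroup.induction_on with
    | H b =>
    intro hab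
    rw [hFbar, hFbar, QuotientGroup.eq] at hab
    rw [QuotientGroup.eq]
    have hz : ((F a : Q) : G)⁻¹ * ((F b : Q) : G) ∈ Z := by
      have := (hSmem _).mp hab
      simpa using this
    set z := ((F a : Q) : G)⁻¹ * ((F b : Q) : G) with hzdef
    have hzQ : z ∈ Q := Q.mul_mem (Q.inv_mem (F a).2) (F b).2
    set t : G := (a : G)⁻¹ * (b : G) with ht
    have htQ : t ∈ Q := Q.mul_mem (Q.inv_mem a.2) b.2
    have hzy : y * z = z * y := Subgroup.mem_center_iff.mp hz y
    have hza : (a : G) * z = z * (a : G) := Subgroup.mem_center_iff.mp hz a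
    have hty : t * y * t⁻¹ = y * z := by
      have e1 : ((F b : Q) : G) = ((F a : Q) : G) * z := by rw [hzdef]; group
      rw [hFval, hFval] at e1
      calc t * y * t⁻¹ = (a : G)⁻¹ * ((b : G) * y * (b : G)⁻¹ * y⁻¹) * y * (a : G) := by
            rw [ht]; group
        _ = (a : G)⁻¹ * ((a : G) * y * (a : G)⁻¹ * y⁻¹ * z) * y * (a : G) := by rw [e1]
        _ = y * (a : G)⁻¹ * y⁻¹ * (z * y) * (a : G) := by group
        _ = y * (a : G)⁻¹ * y⁻¹ * (y * z) * (a : G) := by rw [hzy]
        _ = y * (a : G)⁻¹ * (z * (a : G)) := by group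
        _ = y * (a : G)⁻¹ * ((a : G) * z) := by rw [hza]
        _ = y * z := by group
    have hz1 : z = 1 := by
      have e2 : (y * z) ^ p ^ k = z ^ p ^ k := by
        have hc : Commute y z := hzy
        rw [hc.mul_pow, hyk, one_mul]
      have e3 : (t * y * t⁻¹) ^ p ^ k = 1 := by
        rw [conj_pow, hyk]; group
      rw [hty, e2] at e3
      exact H68.eq_one_of_pow_prime_pow_eq_one h.hQp hzQ e3
    rw [hz1, mul_one] at hty
    have htZ : t ∈ Z := hDy t htQ (by
      calc t * y = t * y * t⁻¹ * t := by group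
        _ = y * t := by rw [hty])
    apply (hSmem _).mpr
    simpa using htZ
  have hsurj : Function.Surjective Fbar := Finite.surjective_of_injective hinj
  obtain ⟨mq, hmq⟩ := hsurj (QuotientGroup.mk (⟨l, hl⟩ : Q))
  induction mq using QuotientGroup.induction_on with
  | H m =>
  rw [hFbar, QuotientGroup.eq] at hmq
  have hz : ((F m : Q) : G)⁻¹ * l ∈ Z := by
    have := (hSmem _).mp hmq
    simpa using this
  refine ⟨((F m : Q) : G)⁻¹ * l, hz, (m : G), ?_⟩
  set c := ((F m : Q) : G)⁻¹ * l with hc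
  have hcy : y * c = c * y := Subgroup.mem_center_iff.mp hz y
  have hlc : l = ((F m : Q) : G) * c := by rw [hc]; group
  calc l * y = ((F m : Q) : G) * (c * y) := by rw [hlc]; group
    _ = ((F m : Q) : G) * (y * c) := by rw [hcy]
    _ = ((m : G) * y * (m : G)⁻¹) * c := by rw [hFval]; group
    _ = c * ((m : G) * y * (m : G)⁻¹) := Subgroup.mem_center_iff.mp hz _

/-- The intersection `P ∩ Z(G)` has index `p` in `P`, and there is a linear character of `G` of
order `p`, trivial on `Q`, whose kernel meets `P` in `P ∩ Z(G)`. -/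
theorem MinCfg.exists_lam (h : MinCfg p Q P) :
    Nat.card P = p * Nat.card (P ⊓ Subgroup.center G : Subgroup G) ∧
    ∃ lam : G →* ℂˣ, (∀ g, lam g ^ p = 1) ∧ (∀ l ∈ Q, lam l = 1) ∧
      (∀ y ∈ P, (lam y = 1 ↔ y ∈ Subgroup.center G)) := by
  classical
  have hp : p.Prime := Fact.out
  have hQn := h.qnormal
  set Z : Subgroup G := Subgroup.center G with hZ
  set P0 : Subgroup G := P ⊓ Z with hP0
  have hP0P : P0 ≤ P := inf_le_left
  have hP0ne : P0 ≠ P := by
    intro heq
    apply h.hnc
    intro u hu l hl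
    have : u ∈ P0 := by rw [heq]; exact hu
    exact (Subgroup.mem_center_iff.mp (Subgroup.mem_inf.mp this).2 l).symm
  obtain ⟨k, hk⟩ := h.hPp.exists_card_eq
  have hk0 : k ≠ 0 := by
    intro hk0
    rw [hk0, pow_zero] at hk
    apply hP0ne
    have hPbot : P = ⊥ := Subgroup.card_eq_one.mp hk
    rw [hP0, hPbot]; simp
  -- a subgroup of index `p` in `P`
  obtain ⟨K, hK⟩ := Sylow.exists_subgroup_card_pow_prime (G := P) p
    (show p ^ (k - 1) ∣ Nat.card P by rw [hk]; exact pow_dvd_pow p (Nat.sub_le k 1))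
  set P1 : Subgroup G := K.map P.subtype with hP1
  have hP1P : P1 ≤ P := Subgroup.map_subtype_le K
  have hP1card : Nat.card P1 = p ^ (k - 1) := by
    rw [← hK]
    exact Nat.card_congr (K.equivMapOfInjective P.subtype P.subtype_injective).symm.toEquiv
  have hP1Q : ∀ u ∈ P1, ∀ l ∈ Q, u * l = l * u := by
    have hK' : Q ⊔ P1 ≠ ⊤ := by
      intro htop
      have hle : P ≤ P1 := by
        intro y hy
        have hy' : y ∈ ((Q ⊔ P1 : Subgroup G) : Set G) := by rw [htop]; trivial
        rw [Subgroup.normal_mul] at hy'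
        obtain ⟨l, hl, y1, hy1, rfl⟩ := Set.mem_mul.mp hy'
        have hlP : l ∈ P := by
          have : l = (l * y1) * y1⁻¹ := by group
          rw [this]; exact P.mul_mem hy (P.inv_mem (hP1P hy1))
        have hl1 : l = 1 := h.disj hl hlP
        rw [hl1, one_mul]; exact hy1
      have := Subgroup.card_le_of_le hle
      rw [hk, hP1card] at this
      have hlt : p ^ (k - 1) < p ^ k := Nat.pow_lt_pow_right hp.one_lt (by omega)
      omega
    intro u hu l hl
    exact H68.commute_of_pclosed (Q ⊔ P1) (h.hIH _ hK') P1 Q le_sup_right le_sup_left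
      (h.hPp.to_le hP1P) h.hQp (Subgroup.le_normalizer_of_normal) hu hl
  have hP1P0 : P1 ≤ P0 := by
    intro u hu
    refine Subgroup.mem_inf.mpr ⟨hP1P hu, ?_⟩
    rw [Subgroup.mem_center_iff]
    intro g
    obtain ⟨l, hl, y, hy, rfl⟩ := h.exists_mul g
    have e1 := hP1Q u hu l hl
    have e2 := h.hab u (hP1P hu) y hy
    calc l * y * u = l * (y * u) := by group
      _ = l * (u * y) := by rw [e2]
      _ = (l * u) * y := by group
      _ = u * l * y := by rw [e1]
      _ = u * (l * y) := by group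
  have hcardP : Nat.card P = p * Nat.card P0 := by
    have h1 : Nat.card P0 ∣ p ^ k := by rw [← hk]; exact Subgroup.card_dvd_of_le hP0P
    obtain ⟨j, hjk, hj⟩ := (Nat.dvd_prime_pow hp).mp h1
    have h2 : p ^ (k - 1) ∣ p ^ j := by
      rw [← hP1card, ← hj]; exact Subgroup.card_dvd_of_le hP1P0
    have h3 : k - 1 ≤ j := (Nat.pow_dvd_pow_iff_le_right hp.one_lt).mp h2
    have h4 : j ≠ k := by
      intro hjk'
      apply hP0ne
      apply Subgroup.eq_of_le_of_card_ge hP0P
      rw [hk, hj, hjk']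
    have h5 : j = k - 1 := by omega
    rw [hk, hj, h5]
    conv_lhs => rw [show k = (k - 1) + 1 by omega]
    rw [pow_succ]; ring
  refine ⟨hcardP, ?_⟩
  -- the normal subgroup A = Q P0 of index p
  have hP0n : P0.Normal := by
    refine ⟨fun z hz g => ?_⟩
    have hzZ : z ∈ Z := (Subgroup.mem_inf.mp hz).2
    have : g * z * g⁻¹ = z := by
      rw [Subgroup.mem_center_iff.mp hzZ g]; group
    rw [this]; exact hz
  set A : Subgroup G := Q ⊔ P0 with hA
  have hAn : A.Normal := Subgroup.sup_normal Q P0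
  have hQA : Q ≤ A := le_sup_left
  have hAP : ∀ y ∈ P, y ∈ A → y ∈ P0 := by
    intro y hy hyA
    have hy' : y ∈ ((Q ⊔ P0 : Subgroup G) : Set G) := hyA
    rw [Subgroup.normal_mul] at hy'
    obtain ⟨l, hl, z, hz, rfl⟩ := Set.mem_mul.mp hy'
    have hlP : l ∈ P := by
      have : l = (l * z) * z⁻¹ := by group
      rw [this]; exact P.mul_mem hy (P.inv_mem (hP0P hz))
    have hl1 : l = 1 := h.disj hl hlP
    rw [hl1, one_mul]; exact hz
  let φ : P →* G ⧸ A := (QuotientGroup.mk' A).comp P.subtype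
  have hφ : Function.Surjective φ := by
    intro x
    obtain ⟨g, rfl⟩ := QuotientGroup.mk'_surjective A x
    obtain ⟨l, hl, y, hy, rfl⟩ := h.exists_mul g
    refine ⟨⟨y, hy⟩, ?_⟩
    change (QuotientGroup.mk' A) y = (QuotientGroup.mk' A) (l * y)
    have hl1 : (QuotientGroup.mk' A) l = 1 := (QuotientGroup.eq_one_iff l).mpr (hQA hl)
    rw [map_mul, hl1, one_mul]
  have hker : φ.ker = P0.subgroupOf P := by
    ext y
    rw [MonoidHom.mem_ker, Subgroup.mem_subgroupOf]
    change (QuotientGroup.mk' A) (y : G) = 1 ↔ _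
    rw [QuotientGroup.mk'_apply, QuotientGroup.eq_one_iff]
    exact ⟨fun hyA => hAP y y.2 hyA, fun hy0 => le_sup_right (a := Q) hy0⟩
  have hcardGA : Nat.card (G ⧸ A) = p := by
    have e1 : Nat.card (G ⧸ A) = Nat.card (P ⧸ φ.ker) :=
      Nat.card_congr (QuotientGroup.quotientKerEquivOfSurjective φ hφ).symm.toEquiv
    have e2 : Nat.card φ.ker * φ.ker.index = Nat.card P := Subgroup.card_mul_index φ.ker
    have e3 : Nat.card φ.ker = Nat.card P0 := by
      rw [hker]
      exact Nat.card_congr (Subgroup.subgroupOfEquivOfLe hP0P).toEquiv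
    rw [e1, ← Subgroup.index_eq_card]
    rw [e3, hcardP] at e2
    have hpos : 0 < Nat.card P0 := Nat.card_pos
    have : Nat.card P0 * φ.ker.index = Nat.card P0 * p := by rw [e2]; ring
    exact Nat.eq_of_mul_eq_mul_left hpos this
  have hprime : Fact (Nat.card (G ⧸ A)).Prime := ⟨by rw [hcardGA]; exact hp⟩
  have hcyc : IsCyclic (G ⧸ A) := isCyclic_of_prime_card hcardGA
  let _ : CommGroup (G ⧸ A) := IsCyclic.commGroup
  have : NeZero (Monoid.exponent (G ⧸ A)) := ⟨Monoid.exponent_ne_zero_of_finite⟩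
  -- an element outside
  obtain ⟨y0, hy0P, hy0⟩ : ∃ y0 ∈ P, y0 ∉ P0 := by
    by_contra hcon
    push Not at hcon
    exact hP0ne (le_antisymm hP0P hcon)
  have ha : (QuotientGroup.mk y0 : G ⧸ A) ≠ 1 := by
    intro h1
    exact hy0 (hAP y0 hy0P ((QuotientGroup.eq_one_iff y0).mp h1))
  obtain ⟨φ', hφ'⟩ := CommGroup.exists_apply_ne_one_of_hasEnoughRootsOfUnity (G ⧸ A) ℂ ha
  have hkerφ' : φ'.ker = ⊥ := by
    rcases φ'.ker.eq_bot_or_eq_top_of_prime_card with h1 | h1
    · exact h1
    · exfalso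
      apply hφ'
      have : (QuotientGroup.mk y0 : G ⧸ A) ∈ φ'.ker := by rw [h1]; trivial
      exact MonoidHom.mem_ker.mp this
  refine ⟨φ'.comp (QuotientGroup.mk' A), ?_, ?_, ?_⟩
  · intro g
    rw [MonoidHom.comp_apply, ← map_pow]
    have : (QuotientGroup.mk' A g) ^ p = 1 := by
      rw [← hcardGA]; exact pow_card_eq_one'
    rw [this, map_one]
  · intro l hl
    rw [MonoidHom.comp_apply, QuotientGroup.mk'_apply, (QuotientGroup.eq_one_iff l).mpr (hQA hl),
      map_one]
  · intro y hy
    rw [MonoidHom.comp_apply]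
    constructor
    · intro h1
      have h2 : (QuotientGroup.mk' A y) ∈ φ'.ker := MonoidHom.mem_ker.mpr h1
      rw [hkerφ', Subgroup.mem_bot, QuotientGroup.mk'_apply, QuotientGroup.eq_one_iff] at h2
      exact (Subgroup.mem_inf.mp (hAP y hy h2)).2
    · intro hyZ
      have hyA : y ∈ A := le_sup_right (a := Q) (Subgroup.mem_inf.mpr ⟨hy, hyZ⟩)
      rw [QuotientGroup.mk'_apply, (QuotientGroup.eq_one_iff y).mpr hyA, map_one]

end MinCfgLemmas

end Cfsg.Agent.H16
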