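import Mathlib
import Cfsg.Prelude.Def_Characters
import Cfsg.Prelude.Def_LocalStructure
import Cfsg.Agent.H68.MinPClosed
import Cfsg.Agent.H16.FTBChar
import Cfsg.Agent.H16.FTBGroup

/-!
# The Feit–Thompson–Blichfeldt normal Sylow theorem

A finite group with a faithful complex representation of degree `n` has a normal Sylow
`p`-subgroup if `(n+1)² ≤ p`, or if `p > n + 1` and every subgroup of order not divisible by `p²`
is `p`-closed.
-/

set_option autoImplicit false
set_option linter.unusedSectionVars false

namespace Cfsg.Agent.H16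

open Cfsg Cfsg.Agent.H4 Module Representation
open scoped ComplexConjugate commutatorElement

universe u

theorem isPClosed_of_mulEquiv' {p : ℕ} [Fact p.Prime] {A B : Type*} [Group A] [Group B] [Finite A]
    (e : A ≃* B) (h : IsPClosed p A) : IsPClosed p B := by
  intro Q
  have hinj : Function.Injective (e.toMonoidHom : A →* B) := e.injective
  have hsurj : Function.Surjective (e.toMonoidHom : A →* B) := e.surjective
  have hr : (Q : Subgroup B) ≤ (e.toMonoidHom).range := by
    rw [MonoidHom.range_eq_top.mpr hsurj]; exact le_top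
  have hQ : (Q : Subgroup B) =
      ((Q.comapOfInjective e.toMonoidHom hinj hr : Sylow p A) : Subgroup A).map
        e.toMonoidHom := by
    rw [Sylow.coe_comapOfInjective, Subgroup.map_comap_eq_self_of_surjective hsurj]
  rw [hQ]
  exact (h _).map e.toMonoidHom hsurj

section Sylow

variable {G : Type u} [Group G] [Finite G] {p : ℕ} [Fact p.Prime]

/-- In a `p`-closed subgroup `H` containing a Sylow `p`-subgroup `R` of `G`, every `p`-element
of `H` lies in `R`. -/
theorem mem_sylow_of_pclosed (H : Subgroup G) (hH : IsPClosed p H) (R : Sylow p G)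
    (hRH : (R : Subgroup G) ≤ H) {s : G} (hs : s ∈ H) {j : ℕ} (hsp : s ^ p ^ j = 1) :
    s ∈ (R : Subgroup G) := by
  have hp : p.Prime := Fact.out
  set s' : H := ⟨s, hs⟩ with hs'
  have hs'p : s' ^ p ^ j = 1 := Subtype.ext (by simpa using hsp)
  have hS : IsPGroup p (Subgroup.zpowers s') := by
    obtain ⟨i, -, hi⟩ := (Nat.dvd_prime_pow hp).mp (orderOf_dvd_of_pow_eq_one hs'p)
    apply IsPGroup.of_card (n := i)
    rw [Nat.card_zpowers, hi]
  obtain ⟨T, hT⟩ := hS.exists_le_sylow
  have hRn : ((R.subtype hRH : Sylow p H) : Subgroup H).Normal := hH _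
  obtain ⟨g, hg⟩ := MulAction.exists_smul_eq H (R.subtype hRH) T
  rw [Sylow.smul_eq_of_normal] at hg
  have h1 : s' ∈ (T : Subgroup H) := hT (Subgroup.mem_zpowers s')
  rw [← hg, Sylow.coe_subtype, Subgroup.mem_subgroupOf] at h1
  exact h1

/-- If a Sylow `p`-subgroup is abelian then any two `p`-elements of a `p`-closed subgroup
commute. -/
theorem commute_of_pclosed_of_abelian (P : Sylow p G)
    (hab : ∀ a ∈ (P : Subgroup G), ∀ b ∈ (P : Subgroup G), a * b = b * a)
    (H : Subgroup G) (hH : IsPClosed p H) {x y : G} (hx : x ∈ H) (hy : y ∈ H) {i j : ℕ}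
    (hxp : x ^ p ^ i = 1) (hyp : y ^ p ^ j = 1) : x * y = y * x := by
  have hp : p.Prime := Fact.out
  obtain ⟨T⟩ : Nonempty (Sylow p H) := inferInstance
  have hTn : (T : Subgroup H).Normal := hH T
  -- both lie in T
  have hmem : ∀ s : G, ∀ hs : s ∈ H, ∀ k : ℕ, s ^ p ^ k = 1 → (⟨s, hs⟩ : H) ∈ (T : Subgroup H) := by
    intro s hs k hsk
    set s' : H := ⟨s, hs⟩ with hs'
    have hs'p : s' ^ p ^ k = 1 := Subtype.ext (by simpa using hsk)
    have hS : IsPGroup p (Subgroup.zpowers s') := by
      obtain ⟨i, -, hi⟩ := (Nat.dvd_prime_pow hp).mp (orderOf_dvd_of_pow_eq_one hs'p)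
      apply IsPGroup.of_card (n := i)
      rw [Nat.card_zpowers, hi]
    obtain ⟨T', hT'⟩ := hS.exists_le_sylow
    obtain ⟨g, hg⟩ := MulAction.exists_smul_eq H T T'
    rw [Sylow.smul_eq_of_normal] at hg
    rw [hg]
    exact hT' (Subgroup.mem_zpowers s')
  -- T maps into a conjugate of P
  have hTp : IsPGroup p ((T : Subgroup H).map H.subtype) := T.isPGroup'.map H.subtype
  obtain ⟨S, hS⟩ := hTp.exists_le_sylow
  obtain ⟨g, rfl⟩ := MulAction.exists_smul_eq G P S
  have hxS : x ∈ ((g • P : Sylow p G) : Subgroup G) :=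
    hS ⟨⟨x, hx⟩, hmem x hx i hxp, rfl⟩
  have hyS : y ∈ ((g • P : Sylow p G) : Subgroup G) :=
    hS ⟨⟨y, hy⟩, hmem y hy j hyp, rfl⟩
  rw [Sylow.coe_subgroup_smul, Subgroup.mem_smul_pointwise_iff_exists] at hxS hyS
  obtain ⟨u, hu, hux⟩ := hxS
  obtain ⟨v, hv, hvy⟩ := hyS
  have hux' : x = g * u * g⁻¹ := by rw [← hux]; rfl
  have hvy' : y = g * v * g⁻¹ := by rw [← hvy]; rfl
  rw [hux', hvy']
  have := hab u hu v hv
  calc g * u * g⁻¹ * (g * v * g⁻¹) = g * (u * v) * g⁻¹ := by group
    _ = g * (v * u) * g⁻¹ := by rw [this]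
    _ = g * v * g⁻¹ * (g * u * g⁻¹) := by group

/-- The Feit–Thompson centralizer condition, for an abelian Sylow `p`-subgroup meeting the
centre trivially in a group all of whose proper subgroups are `p`-closed. -/
theorem ft_hone (P : Sylow p G)
    (hab : ∀ a ∈ (P : Subgroup G), ∀ b ∈ (P : Subgroup G), a * b = b * a)
    (hZ : (P : Subgroup G) ⊓ Subgroup.center G = ⊥)
    (hIH : ∀ K : Subgroup G, K ≠ ⊤ → IsPClosed p K)
    (g : G) (hg : g ∉ Subgroup.center G) (a b : G)
    (ha : Subgroup.centralizer ({g} : Set G) ⊓ (P : Subgroup G).map (MulAut.conj a).toMonoidHom ≠ ⊥)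
    (hb : Subgroup.centralizer ({g} : Set G) ⊓ (P : Subgroup G).map (MulAut.conj b).toMonoidHom ≠ ⊥) :
    (P : Subgroup G).map (MulAut.conj a).toMonoidHom =
      (P : Subgroup G).map (MulAut.conj b).toMonoidHom := by
  have hp : p.Prime := Fact.out
  -- conjugates as Sylow subgroups
  have hcard : ∀ c : G, Nat.card ((P : Subgroup G).map (MulAut.conj c).toMonoidHom) =
      p ^ (Nat.card G).factorization p := by
    intro c
    rw [← Sylow.card_eq_multiplicity P]
    exact Nat.card_congr ((P : Subgroup G).equivMapOfInjective _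
      (MulAut.conj c).injective).symm.toEquiv
  have hmemc : ∀ c x : G, x ∈ (P : Subgroup G).map (MulAut.conj c).toMonoidHom ↔
      ∃ u ∈ (P : Subgroup G), x = c * u * c⁻¹ := by
    intro c x
    constructor
    · rintro ⟨u, hu, rfl⟩
      exact ⟨u, hu, by simp⟩
    · rintro ⟨u, hu, rfl⟩
      exact ⟨u, hu, by simp⟩
  -- properties of a conjugate
  have hconjab : ∀ c x y : G, x ∈ (P : Subgroup G).map (MulAut.conj c).toMonoidHom →
      y ∈ (P : Subgroup G).map (MulAut.conj c).toMonoidHom → x * y = y * x := by
    intro c x y hx hy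
    obtain ⟨u, hu, rfl⟩ := (hmemc c x).mp hx
    obtain ⟨v, hv, rfl⟩ := (hmemc c y).mp hy
    have := hab u hu v hv
    calc c * u * c⁻¹ * (c * v * c⁻¹) = c * (u * v) * c⁻¹ := by group
      _ = c * (v * u) * c⁻¹ := by rw [this]
      _ = c * v * c⁻¹ * (c * u * c⁻¹) := by group
  have hconjZ : ∀ c x : G, x ∈ (P : Subgroup G).map (MulAut.conj c).toMonoidHom → x ≠ 1 →
      x ∉ Subgroup.center G := by
    intro c x hx hx1 hxZ
    obtain ⟨u, hu, rfl⟩ := (hmemc c x).mp hx
    have huZ : u ∈ Subgroup.center G := by
      have h1 : u = c⁻¹ * (c * u * c⁻¹) * c := by group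
      have h2 : c⁻¹ * (c * u * c⁻¹) = (c * u * c⁻¹) * c⁻¹ := Subgroup.mem_center_iff.mp hxZ c⁻¹
      have h3 : u = c * u * c⁻¹ := by
        calc u = c⁻¹ * (c * u * c⁻¹) * c := h1
          _ = (c * u * c⁻¹) * c⁻¹ * c := by rw [h2]
          _ = c * u * c⁻¹ := by group
      rw [h3]; exact hxZ
    have hu1 : u = 1 := by
      have : u ∈ (P : Subgroup G) ⊓ Subgroup.center G := Subgroup.mem_inf.mpr ⟨hu, huZ⟩
      rw [hZ] at this
      exact Subgroup.mem_bot.mp this
    apply hx1
    rw [hu1]; group
  have hconjp : ∀ c x : G, x ∈ (P : Subgroup G).map (MulAut.conj c).toMonoidHom →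
      ∃ k : ℕ, x ^ p ^ k = 1 := by
    intro c x hx
    obtain ⟨u, hu, rfl⟩ := (hmemc c x).mp hx
    obtain ⟨k, hk⟩ := P.isPGroup' ⟨u, hu⟩
    have huk : u ^ p ^ k = 1 := by simpa using congrArg Subtype.val hk
    exact ⟨k, by rw [conj_pow, huk]; group⟩
  -- nontrivial elements
  obtain ⟨x, hx1⟩ := (Subgroup.ne_bot_iff_exists_ne_one).mp ha
  obtain ⟨y, hy1⟩ := (Subgroup.ne_bot_iff_exists_ne_one).mp hb
  have hx1' : (x : G) ≠ 1 := fun h => hx1 (Subtype.ext h)
  have hy1' : (y : G) ≠ 1 := fun h => hy1 (Subtype.ext h)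
  have hxg := (Subgroup.mem_inf.mp x.2).1
  have hxa := (Subgroup.mem_inf.mp x.2).2
  have hyg := (Subgroup.mem_inf.mp y.2).1
  have hyb := (Subgroup.mem_inf.mp y.2).2
  obtain ⟨i, hxi⟩ := hconjp a x hxa
  obtain ⟨j, hyj⟩ := hconjp b y hyb
  -- x and y commute
  have hCg : Subgroup.centralizer ({g} : Set G) ≠ ⊤ := by
    intro htop
    apply hg
    rw [Subgroup.mem_center_iff]
    intro t
    have : t ∈ Subgroup.centralizer ({g} : Set G) := by rw [htop]; trivial
    exact (Subgroup.mem_centralizer_iff.mp this g rfl).symm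
  have hxy : (x : G) * y = y * x :=
    commute_of_pclosed_of_abelian P hab _ (hIH _ hCg) hxg hyg hxi hyj
  -- the centralizer of x
  have hCne : ∀ z : G, z ∉ Subgroup.center G → Subgroup.centralizer ({z} : Set G) ≠ ⊤ := by
    intro z hz htop
    apply hz
    rw [Subgroup.mem_center_iff]
    intro t
    have : t ∈ Subgroup.centralizer ({z} : Set G) := by rw [htop]; trivial
    exact (Subgroup.mem_centralizer_iff.mp this z rfl).symm
  have hPaCx : (P : Subgroup G).map (MulAut.conj a).toMonoidHom ≤
      Subgroup.centralizer ({(x : G)} : Set G) := by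
    intro t ht
    rw [Subgroup.mem_centralizer_iff]
    intro z hz
    rw [Set.mem_singleton_iff] at hz
    subst hz
    exact hconjab a _ _ hxa ht
  have hya : (y : G) ∈ (P : Subgroup G).map (MulAut.conj a).toMonoidHom := by
    have := mem_sylow_of_pclosed (Subgroup.centralizer ({(x : G)} : Set G))
      (hIH _ (hCne x (hconjZ a x hxa hx1'))) (Sylow.ofCard _ (hcard a)) hPaCx
      (s := (y : G)) (by
        rw [Subgroup.mem_centralizer_iff]
        intro z hz
        rw [Set.mem_singleton_iff] at hz
        subst hz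
        exact hxy) hyj
    exact this
  -- the centralizer of y contains both conjugates
  have hPbCy : (P : Subgroup G).map (MulAut.conj b).toMonoidHom ≤
      Subgroup.centralizer ({(y : G)} : Set G) := by
    intro t ht
    rw [Subgroup.mem_centralizer_iff]
    intro z hz
    rw [Set.mem_singleton_iff] at hz
    subst hz
    exact hconjab b _ _ hyb ht
  have hle : (P : Subgroup G).map (MulAut.conj a).toMonoidHom ≤
      (P : Subgroup G).map (MulAut.conj b).toMonoidHom := by
    intro t ht
    obtain ⟨k, htk⟩ := hconjp a t ht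
    have := mem_sylow_of_pclosed (Subgroup.centralizer ({(y : G)} : Set G))
      (hIH _ (hCne y (hconjZ b y hyb hy1'))) (Sylow.ofCard _ (hcard b)) hPbCy
      (s := t) (by
        rw [Subgroup.mem_centralizer_iff]
        intro z hz
        rw [Set.mem_singleton_iff] at hz
        subst hz
        exact hconjab a _ _ hya ht) htk
    exact this
  exact Subgroup.eq_of_le_of_card_ge hle (by rw [hcard a, hcard b])

end Sylow

/-- **Feit–Thompson–Blichfeldt.** -/
theorem ftb_main (p n : ℕ) [Fact p.Prime] (hpn : n + 1 < p) :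
    ∀ (N : ℕ) (G : Type u) [Group G] [Finite G], Nat.card G = N →
      (∃ ρ : Representation ℂ G (Fin n → ℂ), Function.Injective ρ) →
      ((n + 1) ^ 2 ≤ p ∨ ∀ K : Subgroup G, ¬ p ^ 2 ∣ Nat.card K → IsPClosed p K) →
      IsPClosed p G := by
  intro N
  induction N using Nat.strong_induction_on with
  | _ N ih =>
  intro G _ _ hN hrep hyp
  classical
  have hp : p.Prime := Fact.out
  by_contra hcon
  have hex : ∃ P : Sylow p G, ¬ (P : Subgroup G).Normal := by
    by_contra h
    push Not at h
    exact hcon h
  obtain ⟨P, hPnn⟩ := hex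
  obtain ⟨ρ, hρ⟩ := hrep
  let _ := Fintype.ofFinite G
  have hfr : Module.finrank ℂ (Fin n → ℂ) = n := by simp
  -- all proper subgroups are p-closed
  have hIH : ∀ K : Subgroup G, K ≠ ⊤ → IsPClosed p K := by
    intro K hK
    have hlt : Nat.card K < N := by
      rw [← hN]
      exact lt_of_le_of_ne (Subgroup.card_le_card_group K)
        (fun h => hK ((Subgroup.card_eq_iff_eq_top K).mp h))
    refine ih _ hlt K rfl ⟨ρ.comp K.subtype, ?_⟩ ?_
    · intro a b hab
      exact Subtype.ext (hρ hab)
    · rcases hyp with h1 | h2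
      · exact Or.inl h1
      · right
        intro K' hK'
        have e : K' ≃* K'.map K.subtype := K'.equivMapOfInjective K.subtype K.subtype_injective
        have hc : Nat.card (K'.map K.subtype) = Nat.card K' := Nat.card_congr e.symm.toEquiv
        exact isPClosed_of_mulEquiv' e.symm (h2 _ (by rw [hc]; exact hK'))
  -- P is abelian
  have hab : ∀ a ∈ (P : Subgroup G), ∀ b ∈ (P : Subgroup G), a * b = b * a := by
    intro a ha b hb
    have := comm_of_isPGroup_faithful hp P.isPGroup' (ρ.comp (P : Subgroup G).subtype)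
      (by intro x y hxy; exact Subtype.ext (hρ hxy)) (by rw [hfr]; omega) ⟨a, ha⟩ ⟨b, hb⟩
    exact congrArg Subtype.val this
  -- no proper normal subgroup contains P
  have hS1 : ∀ M : Subgroup G, M.Normal → (P : Subgroup G) ≤ M → M = ⊤ := by
    intro M hM hPM
    by_contra hne
    exact hPnn (H68.sylow_normal_of_le_normal_pclosed M P hPM (hIH M hne))
  -- all constituents linear gives a contradiction
  have hfinal : (∀ ψ : IrrCharacter G, classInner ρ.character ψ.1 ≠ 0 → ψ.1 1 = 1) → False := by
    intro hlin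
    apply hPnn
    have hcomm := comm_of_linear_constituents ρ hρ hlin
    refine ⟨fun x hx g => ?_⟩
    have : g * x * g⁻¹ = x := by rw [hcomm g x]; group
    rw [this]; exact hx
  by_cases hZ : (P : Subgroup G) ⊓ Subgroup.center G = ⊥
  · -- the Feit–Thompson inequality
    have hPcard : (n + 1) ^ 2 ≤ Nat.card (P : Subgroup G) := by
      have hPne : (P : Subgroup G) ≠ ⊥ := by
        intro hb
        apply hPnn
        rw [hb]
        infer_instance
      obtain ⟨k, hk⟩ := P.isPGroup'.exists_card_eq
      rcases hyp with h1 | h2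
      · have hk0 : k ≠ 0 := by
          intro h0
          rw [h0, pow_zero] at hk
          exact hPne (Subgroup.card_eq_one.mp hk)
        calc (n + 1) ^ 2 ≤ p := h1
          _ ≤ p ^ k := Nat.le_self_pow hk0 p
          _ = _ := hk.symm
      · have hp2 : p ^ 2 ∣ Nat.card G := by
          by_contra hnd
          have h3 := h2 ⊤ (by rw [Subgroup.card_top]; exact hnd)
          exact hcon (isPClosed_of_mulEquiv' Subgroup.topEquiv h3)
        have hk2 : 2 ≤ k := by
          have h4 : p ^ 2 ∣ Nat.card (P : Subgroup G) := by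
            rw [Sylow.card_eq_multiplicity]
            exact pow_dvd_pow p
              ((Nat.Prime.pow_dvd_iff_le_factorization hp Nat.card_pos.ne').mp hp2)
          rw [hk] at h4
          exact (Nat.pow_dvd_pow_iff_le_right hp.one_lt).mp h4
        calc (n + 1) ^ 2 ≤ p ^ 2 := Nat.pow_le_pow_left (by omega) 2
          _ ≤ p ^ k := Nat.pow_le_pow_right hp.pos hk2
          _ = _ := hk.symm
    apply hfinal
    intro ψ hψ
    by_contra hψ1
    obtain ⟨d, hd1, hd0, hdle⟩ := constituent_degree_le ρ ψ hψ
    have hft := ft_ineq2 (P : Subgroup G) hab hZ (ft_hone P hab hZ hIH) ψ.1 ψ.2 hψ1 hS1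
    rw [hd1] at hft
    have h' : (Nat.card (P : Subgroup G) : ℝ) < (((1 + d) ^ 2 : ℕ) : ℝ) := by
      push_cast
      simpa using hft
    have h'' : Nat.card (P : Subgroup G) < (1 + d) ^ 2 := by exact_mod_cast h'
    have hdn : d ≤ n := by rw [hfr] at hdle; exact hdle
    have h3 : (1 + d) ^ 2 ≤ (n + 1) ^ 2 := Nat.pow_le_pow_left (by omega) 2
    omega
  · -- P ∩ Z(G) ≠ 1
    set L : Subgroup G := commutator G with hL
    have hP0L : ∀ z, z ∈ (P : Subgroup G) → z ∈ Subgroup.center G → z ∈ L → z = 1 := by
      intro z hzP hzZ hzL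
      obtain ⟨k, hk⟩ := P.isPGroup' ⟨z, hzP⟩
      have hzk : z ^ p ^ k = 1 := by simpa using congrArg Subtype.val hk
      exact eq_one_of_center_commutator hp ρ hρ (by rw [hfr]; omega) hzZ hzL hzk
    have hLne : L ≠ ⊤ := by
      intro htop
      apply hZ
      rw [Subgroup.eq_bot_iff_forall]
      intro z hz
      exact hP0L z (Subgroup.mem_inf.mp hz).1 (Subgroup.mem_inf.mp hz).2 (by rw [htop]; trivial)
    have hLn : L.Normal := inferInstance
    -- p does not divide |L|
    have hpL : ¬ p ∣ Nat.card L := by
      intro hdvd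
      have hLcl := hIH L hLne
      obtain ⟨T⟩ : Nonempty (Sylow p L) := inferInstance
      have hTn : (T : Subgroup L).Normal := hLcl T
      have hTchar : (T : Subgroup L).Characteristic := Sylow.characteristic_of_normal T hTn
      set R : Subgroup G := (T : Subgroup L).map L.subtype with hR
      have hRn : R.Normal := ConjAct.normal_of_characteristic_of_normal
      have hRp : IsPGroup p R := T.isPGroup'.map L.subtype
      have hRL : R ≤ L := Subgroup.map_subtype_le _
      have hRP : R ≤ (P : Subgroup G) := by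
        obtain ⟨S, hS⟩ := hRp.exists_le_sylow
        obtain ⟨g, rfl⟩ := MulAction.exists_smul_eq G P S
        intro r hr
        have h1 : g * r * g⁻¹ ∈ R := hRn.conj_mem r hr g
        have h2 := hS h1
        rw [Sylow.coe_subgroup_smul, Subgroup.mem_smul_pointwise_iff_exists] at h2
        obtain ⟨u, hu, hur⟩ := h2
        have hur' : g * u * g⁻¹ = g * r * g⁻¹ := by rw [← hur]; rfl
        have : u = r := by
          have := congrArg (fun t => g⁻¹ * t * g) hur'
          simpa [mul_assoc] using this
        rw [← this]; exact hu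
      have hCRn : (Subgroup.centralizer (R : Set G)).Normal := inferInstance
      have hCR : Subgroup.centralizer (R : Set G) = ⊤ := by
        apply hS1 _ hCRn
        intro u hu
        rw [Subgroup.mem_centralizer_iff]
        intro r hr
        exact hab r (hRP hr) u hu
      have hRZ : R ≤ Subgroup.center G := by
        intro r hr
        rw [Subgroup.mem_center_iff]
        intro g
        have : g ∈ Subgroup.centralizer (R : Set G) := by rw [hCR]; trivial
        exact (Subgroup.mem_centralizer_iff.mp this r hr).symm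
      have hRbot : R = ⊥ := by
        rw [Subgroup.eq_bot_iff_forall]
        intro r hr
        exact hP0L r (hRP hr) (hRZ hr) (hRL hr)
      have hTcard : Nat.card (T : Subgroup L) = 1 := by
        have : Nat.card R = Nat.card (T : Subgroup L) :=
          Nat.card_congr ((T : Subgroup L).equivMapOfInjective L.subtype
            L.subtype_injective).symm.toEquiv
        rw [← this, hRbot]; simp
      have hmult := Sylow.card_eq_multiplicity T
      rw [hTcard] at hmult
      have h1 : 1 ≤ (Nat.card L).factorization p :=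
        (Nat.Prime.dvd_iff_one_le_factorization hp Nat.card_pos.ne').mp hdvd
      have h2 : p ≤ p ^ (Nat.card L).factorization p := Nat.le_self_pow (by omega) p
      have := hp.two_le
      omega
    -- P L = G
    have hPL : (P : Subgroup G) ⊔ L = ⊤ := by
      apply hS1 _ ?_ le_sup_left
      refine ⟨fun x hx g => ?_⟩
      have hcm : g * x * g⁻¹ * x⁻¹ ∈ L := by
        rw [hL, commutator_def]
        have : g * x * g⁻¹ * x⁻¹ = ⁅g, x⁆ := (commutatorElement_def g x).symm
        rw [this]
        exact Subgroup.commutator_mem_commutator (Subgroup.mem_top g) (Subgroup.mem_top x)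
      have : g * x * g⁻¹ = (g * x * g⁻¹ * x⁻¹) * x := by group
      rw [this]
      exact Subgroup.mul_mem _ (le_sup_right (a := (P : Subgroup G)) hcm) hx
    -- the prime q
    have hexq : ∃ Q : Subgroup G, Q ≤ L ∧ (∃ q : ℕ, q.Prime ∧ IsPGroup q Q) ∧
        (P : Subgroup G) ≤ Subgroup.normalizer (Q : Set G) ∧ Q ⊔ (P : Subgroup G) = ⊤ := by
      by_contra hno
      push Not at hno
      have hcent : L ≤ Subgroup.centralizer ((P : Subgroup G) : Set G) := by
        set C : Subgroup G := L ⊓ Subgroup.centralizer ((P : Subgroup G) : Set G) with hC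
        have hdvd : Nat.card L ∣ Nat.card C := by
          have hL0 : Nat.card L ≠ 0 := Nat.card_pos.ne'
          have hC0 : Nat.card C ≠ 0 := Nat.card_pos.ne'
          rw [← Nat.factorization_le_iff_dvd hL0 hC0]
          intro q
          by_cases hq : q.Prime
          · have : Fact q.Prime := ⟨hq⟩
            obtain ⟨Q, hQL, hQcard, hQq, hQP⟩ := H68.exists_invariant_sylow L hpL P q
            have hne := hno Q hQL ⟨q, hq, hQq⟩ hQP
            have hQC : Q ≤ C := by
              intro m hm
              refine Subgroup.mem_inf.mpr ⟨hQL hm, ?_⟩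
              rw [Subgroup.mem_centralizer_iff]
              intro u hu
              have hpQ : ¬ p ∣ Nat.card Q :=
                fun hd => hpL (hd.trans (Subgroup.card_dvd_of_le hQL))
              exact H68.commute_of_pclosed (Q ⊔ (P : Subgroup G)) (hIH _ hne) P Q le_sup_right
                le_sup_left P.isPGroup' hpQ (sup_le Subgroup.le_normalizer hQP) hu hm
            have h1 : q ^ (Nat.card L).factorization q ∣ Nat.card C := by
              rw [← hQcard]; exact Subgroup.card_dvd_of_le hQC
            exact (Nat.Prime.pow_dvd_iff_le_factorization hq hC0).mp h1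
          · simp [Nat.factorization_eq_zero_of_not_prime _ hq]
        have hCL : C = L :=
          Subgroup.eq_of_le_of_card_ge inf_le_left (Nat.le_of_dvd Nat.card_pos hdvd)
        rw [← hCL]; exact inf_le_right
      apply hPnn
      have hN : Subgroup.normalizer ((P : Subgroup G) : Set G) = ⊤ := by
        rw [eq_top_iff, ← hPL]
        exact sup_le Subgroup.le_normalizer
          (hcent.trans (Subgroup.centralizer_le_normalizer _))
      exact Subgroup.normalizer_eq_top_iff.mp hN
    obtain ⟨Q, hQL, ⟨q, hq, hQq⟩, hQP, hQPtop⟩ := hexq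
    have : Fact q.Prime := ⟨hq⟩
    have hQn : Q.Normal := by
      apply Subgroup.normalizer_eq_top_iff.mp
      rw [eq_top_iff, ← hQPtop]
      exact sup_le Subgroup.le_normalizer hQP
    have hpQ : ¬ p ∣ Nat.card Q := fun hd => hpL (hd.trans (Subgroup.card_dvd_of_le hQL))
    have hcfg : MinCfg p Q (P : Subgroup G) :=
      { qnormal := hQn
        hPp := P.isPGroup'
        hQp := hpQ
        hab := hab
        hsup := hQPtop
        hnc := by
          intro hc
          apply hPnn
          apply Subgroup.normalizer_eq_top_iff.mp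
          rw [eq_top_iff, ← hQPtop]
          refine sup_le ?_ Subgroup.le_normalizer
          intro l hl
          apply mem_normalizer_of_conj_mem
          intro u hu
          have : l * u * l⁻¹ = u := by rw [← hc u hu l hl]; group
          rw [this]; exact hu
        hIH := hIH
        hnil := hQq.isNilpotent }
    obtain ⟨hcardP, lam, hl1, hl2, hl3⟩ := hcfg.exists_lam
    have hcompl : Subgroup.IsComplement' Q (P : Subgroup G) := by
      apply Subgroup.isComplement'_of_disjoint_and_mul_eq_univ
      · rw [disjoint_iff, Subgroup.eq_bot_iff_forall]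
        intro g hg
        exact hcfg.disj (Subgroup.mem_inf.mp hg).1 (Subgroup.mem_inf.mp hg).2
      · rw [← Subgroup.normal_mul, hQPtop]; rfl
    apply hfinal
    intro ψ hψ
    obtain ⟨d, hd1, hd0, hdle⟩ := constituent_degree_le ρ ψ hψ
    have hdn : d ≤ n := by rw [hfr] at hdle; exact hdle
    have hdich := degree_dichotomy hp Q (P : Subgroup G) hcompl lam hl1 hl2 hl3 hcardP
      (fun y hy hyZ l hl => hcfg.lang hy hyZ hl) ψ.2 hd1
    have hd_eq : d = 1 := by
      rcases hdich with h1 | h1
      · have h2 : p ∣ d ^ 2 := by exact_mod_cast h1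
        have h3 : p ∣ d := hp.dvd_of_dvd_pow h2
        have := Nat.le_of_dvd hd0 h3
        omega
      · have h2 : p ∣ (d - 1) * (d + 1) := by
          have h3 : ((d : ℤ) ^ 2 - 1) = (((d - 1) * (d + 1) : ℕ) : ℤ) := by
            have h4 : 1 ≤ d := hd0
            push_cast [Nat.cast_sub h4]; ring
          rw [h3] at h1
          exact_mod_cast h1
        rcases (Nat.Prime.dvd_mul hp).mp h2 with h4 | h4
        · by_contra hne
          have h5 : 0 < d - 1 := by omega
          have := Nat.le_of_dvd h5 h4
          omega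
        · have := Nat.le_of_dvd (by omega) h4
          omega
    rw [hd1, hd_eq]; simp

end Cfsg.Agent.H16
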