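import Mathlib
import Cfsg.Agent.H58.UqDefs
import Cfsg.Agent.H86.TsJS

/-!
# UQ-FRAT (piece of helper58's project for S2950)

Frattini argument: `T` Sylow in `L`, `J = J(T)`; if every `L`-conjugate of `J` and `N_L(J)`
normalize `U`, then `L` normalizes `U`.

`Y := ⟨J^l : l ∈ L⟩ ⊴ L`; a Sylow 2-subgroup `P` of `Y` containing `J` has `J(P) = J` (TS-JS), and
`L = N_L(P) Y ≤ N_L(J) Y`.
-/

set_option autoImplicit false

namespace Cfsg.Agent.H16.Uq

open Cfsg Cfsg.Agent.H58.Uq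

universe u

theorem map_conj_of_mem_normalizer {G : Type u} [Group G] {H : Subgroup G} {g : G}
    (hg : g ∈ Subgroup.normalizer (H : Set G)) : H.map (MulAut.conj g).toMonoidHom = H := by
  ext h
  constructor
  · rintro ⟨p, hp, rfl⟩
    exact (Subgroup.mem_normalizer_iff.mp hg p).mp hp
  · intro hh
    refine ⟨g⁻¹ * h * g, ?_, ?_⟩
    · refine (Subgroup.mem_normalizer_iff.mp hg (g⁻¹ * h * g)).mpr ?_
      have e : g * (g⁻¹ * h * g) * g⁻¹ = h := by group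
      rw [e]; exact hh
    · show g * (g⁻¹ * h * g) * g⁻¹ = h
      group

theorem mem_normalizer_of_map_conj {G : Type u} [Group G] {H : Subgroup G} {g : G}
    (hg : H.map (MulAut.conj g).toMonoidHom = H) : g ∈ Subgroup.normalizer (H : Set G) := by
  rw [Subgroup.mem_normalizer_iff]
  intro h
  constructor
  · intro hh
    have h1 : g * h * g⁻¹ ∈ H.map (MulAut.conj g).toMonoidHom := ⟨h, hh, rfl⟩
    rwa [hg] at h1
  · intro hh
    rw [← hg] at hh
    obtain ⟨p, hp, hpe⟩ := hh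
    have h1 : g * p * g⁻¹ = g * h * g⁻¹ := hpe
    have h2 : p = h := by
      have := congrArg (fun t => g⁻¹ * t * g) h1
      simpa [mul_assoc] using this
    rw [← h2]; exact hp

theorem frat : StFrat.{u} := by
  intro G _ _ T L U hTL hconj hNJ
  classical
  haveI : Fact (Nat.Prime 2) := ⟨Nat.prime_two⟩
  obtain ⟨J, hJ⟩ : ∃ J, J = thompsonSubgroupOf 2 T := ⟨_, rfl⟩
  rw [← hJ] at hconj hNJ
  have hJT : J ≤ T := by rw [hJ]; exact Subgroup.map_subtype_le _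
  have hJL : J ≤ L := hJT.trans hTL.1
  have hJ2 : IsPGroup 2 ↥J := hTL.2.1.to_le hJT
  -- the normal closure of `J` in `L`
  let Y : Subgroup G := ⨆ l : ↥L, J.map (MulAut.conj (l : G)).toMonoidHom
  have hYU : Y ≤ Subgroup.normalizer (U : Set G) := iSup_le fun l => hconj l l.2
  have hYL : Y ≤ L := by
    apply iSup_le
    rintro l _ ⟨j, hj, rfl⟩
    show (l : G) * j * (l : G)⁻¹ ∈ L
    exact L.mul_mem (L.mul_mem l.2 (hJL hj)) (L.inv_mem l.2)
  have hJY : J ≤ Y := by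
    have h1 : J.map (MulAut.conj ((1 : ↥L) : G)).toMonoidHom ≤ Y :=
      le_iSup (fun l : ↥L => J.map (MulAut.conj (l : G)).toMonoidHom) 1
    have h2 : J.map (MulAut.conj ((1 : ↥L) : G)).toMonoidHom = J := by
      ext g
      constructor
      · rintro ⟨j, hj, rfl⟩
        show ((1 : ↥L) : G) * j * ((1 : ↥L) : G)⁻¹ ∈ J
        simpa using hj
      · intro hg
        refine ⟨g, hg, ?_⟩
        show ((1 : ↥L) : G) * g * ((1 : ↥L) : G)⁻¹ = g
        simp
    rwa [h2] at h1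
  have hLY : L ≤ Subgroup.normalizer (Y : Set G) := by
    intro g hg
    apply mem_normalizer_of_map_conj
    have hmap : ∀ g ∈ L, Y.map (MulAut.conj g).toMonoidHom ≤ Y := by
      intro g hg
      rw [Subgroup.map_iSup]
      apply iSup_le
      intro l
      rw [Subgroup.map_map]
      have e : (MulAut.conj g).toMonoidHom.comp (MulAut.conj (l : G)).toMonoidHom
          = (MulAut.conj (((⟨g, hg⟩ : ↥L) * l : ↥L) : G)).toMonoidHom := by
        ext x
        show g * ((l : G) * x * (l : G)⁻¹) * g⁻¹ = (g * (l : G)) * x * (g * (l : G))⁻¹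
        group
      rw [e]
      exact le_iSup (fun l : ↥L => J.map (MulAut.conj (l : G)).toMonoidHom) (⟨g, hg⟩ * l)
    apply le_antisymm (hmap g hg)
    intro y hy
    have h1 : g⁻¹ * y * g ∈ Y := by
      have h2 : (MulAut.conj g⁻¹) y ∈ Y := hmap g⁻¹ (L.inv_mem hg) ⟨y, hy, rfl⟩
      have e : (MulAut.conj g⁻¹) y = g⁻¹ * y * g := by
        show g⁻¹ * y * g⁻¹⁻¹ = g⁻¹ * y * g
        rw [inv_inv]
      rwa [e] at h2
    refine ⟨g⁻¹ * y * g, h1, ?_⟩
    show g * (g⁻¹ * y * g) * g⁻¹ = y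
    group
  haveI hNn : (Y.subgroupOf L).Normal := Subgroup.normal_subgroupOf_of_le_normalizer hLY
  -- a Sylow 2-subgroup of `Y` containing `J`
  have hQ₁ : IsPGroup 2 ↥(J.subgroupOf L) :=
    hJ2.comap_of_injective L.subtype L.subtype_injective
  have hQ₀ : IsPGroup 2 ↥((J.subgroupOf L).subgroupOf (Y.subgroupOf L)) :=
    hQ₁.comap_of_injective (Y.subgroupOf L).subtype (Subgroup.subtype_injective _)
  obtain ⟨P, hP⟩ := hQ₀.exists_le_sylow
  have hfr := Sylow.normalizer_sup_eq_top P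
  obtain ⟨P1, hP1⟩ : ∃ P1 : Subgroup ↥L,
      P1 = (P : Subgroup ↥(Y.subgroupOf L)).map (Y.subgroupOf L).subtype := ⟨_, rfl⟩
  rw [← hP1] at hfr
  obtain ⟨P2, hP2⟩ : ∃ P2 : Subgroup G, P2 = P1.map L.subtype := ⟨_, rfl⟩
  have hP2L : P2 ≤ L := by rw [hP2]; exact Subgroup.map_subtype_le _
  have hP22 : IsPGroup 2 ↥P2 := by
    rw [hP2, hP1]
    exact (P.isPGroup'.map _).map _
  have hJP2 : J ≤ P2 := by
    intro j hj
    have ha : (⟨j, hJL hj⟩ : ↥L) ∈ Y.subgroupOf L := Subgroup.mem_subgroupOf.mpr (hJY hj)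
    have hb : (⟨⟨j, hJL hj⟩, ha⟩ : ↥(Y.subgroupOf L)) ∈
        (J.subgroupOf L).subgroupOf (Y.subgroupOf L) :=
      Subgroup.mem_subgroupOf.mpr (Subgroup.mem_subgroupOf.mpr hj)
    rw [hP2, hP1]
    exact ⟨⟨j, hJL hj⟩, ⟨⟨⟨j, hJL hj⟩, ha⟩, hP hb, rfl⟩, rfl⟩
  have hJP : thompsonSubgroupOf 2 P2 = J := by
    rw [hJ]
    exact Cfsg.Agent.H86.Ts.js T L hTL P2 hP22 hP2L (hJ ▸ hJP2)
  -- the Frattini decomposition
  intro l hl
  have hmem : (⟨l, hl⟩ : ↥L) ∈ Subgroup.normalizer (P1 : Set ↥L) ⊔ Y.subgroupOf L := by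
    rw [hfr]; exact Subgroup.mem_top _
  obtain ⟨n₀, hn₀, y, hy, hxy⟩ := Subgroup.mem_sup_of_normal_right.mp hmem
  have hl' : l = (n₀ : G) * (y : G) := by
    have := congrArg Subtype.val hxy
    exact this.symm
  have hyU : (y : G) ∈ Subgroup.normalizer (U : Set G) := hYU (Subgroup.mem_subgroupOf.mp hy)
  -- `n₀` normalizes `P2`, hence `J`
  have hn₀P2 : P2.map (MulAut.conj (n₀ : G)).toMonoidHom = P2 := by
    have hle : ∀ n : ↥L, n ∈ Subgroup.normalizer (P1 : Set ↥L) →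
        P2.map (MulAut.conj (n : G)).toMonoidHom ≤ P2 := by
      intro n hn
      rw [hP2]
      rintro _ ⟨_, ⟨p, hp, rfl⟩, rfl⟩
      refine ⟨n * p * n⁻¹, (Subgroup.mem_normalizer_iff.mp hn p).mp hp, rfl⟩
    apply le_antisymm (hle n₀ hn₀)
    intro h hh
    have h1 := hle n₀⁻¹ (Subgroup.inv_mem _ hn₀) ⟨h, hh, rfl⟩
    refine ⟨(MulAut.conj ((n₀⁻¹ : ↥L) : G)) h, h1, ?_⟩
    show (n₀ : G) * (((n₀⁻¹ : ↥L) : G) * h * ((n₀⁻¹ : ↥L) : G)⁻¹) * (n₀ : G)⁻¹ = h
    simp [mul_assoc]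
  have hn₀J : (n₀ : G) ∈ Subgroup.normalizer (J : Set G) := by
    apply mem_normalizer_of_map_conj
    have h1 := Cfsg.Agent.H14.thompsonSubgroupOf_map 2 (MulAut.conj (n₀ : G)).toMonoidHom P2
      (fun x _ hx => by
        have h2 : (MulAut.conj (n₀ : G)) x = 1 := hx
        exact (MulEquiv.map_eq_one_iff _).mp h2)
    rw [hn₀P2, hJP] at h1
    exact h1
  have hn₀U : (n₀ : G) ∈ Subgroup.normalizer (U : Set G) :=
    hNJ (Subgroup.mem_inf.mpr ⟨n₀.2, hn₀J⟩)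
  rw [hl']
  exact Subgroup.mul_mem _ hn₀U hyU

example : StFrat.{u} := frat

end Cfsg.Agent.H16.Uq
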