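import Mathlib
import Cfsg.Agent.H64.JzDefs
import Cfsg.Agent.S2950
import Cfsg.Agent.H12.SpConjG
import Cfsg.Agent.H16.UqFrat

/-!
# JZ-OUT1 (piece of helper64's project for S2951 / S2952)

`T = S` and `g ∈ N_G(J(S)) ∖ L`: the conjugate `K^g` is a `J(S)`-component not inside `L`
(otherwise `L^(g⁻¹)` is a maximal 2-local over `⟨K, J(S)⟩`, hence `= L` by S2950, and
`g ∈ N_G(L) = L`).
-/

set_option autoImplicit false

namespace Cfsg.Agent.H16.Jz

open Cfsg Cfsg.Agent.H64.Jz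

universe u

/-- A conjugate of a 2-local subgroup is a 2-local subgroup. -/
theorem isTwoLocal_map_conj {G : Type u} [Group G] {N : Subgroup G} (h : IsTwoLocal N) (g : G) :
    IsTwoLocal (N.map (MulAut.conj g).toMonoidHom) := by
  obtain ⟨U, hU2, hU1, rfl⟩ := h
  refine ⟨U.map (MulAut.conj g).toMonoidHom, hU2.map _, ?_, ?_⟩
  · intro hbot
    apply hU1
    exact (Subgroup.map_eq_bot_iff_of_injective U (MulAut.conj g).injective).mp hbot
  · exact Subgroup.map_equiv_normalizer_eq U (MulAut.conj g)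

theorem map_conj_inv_map_conj {G : Type u} [Group G] (N : Subgroup G) (g : G) :
    (N.map (MulAut.conj g).toMonoidHom).map (MulAut.conj g⁻¹).toMonoidHom = N := by
  rw [Subgroup.map_map]
  have e : (MulAut.conj g⁻¹).toMonoidHom.comp (MulAut.conj g).toMonoidHom = MonoidHom.id G := by
    ext x
    show g⁻¹ * (g * x * g⁻¹) * g⁻¹⁻¹ = x
    group
  rw [e, Subgroup.map_id]

/-- A conjugate of a maximal 2-local subgroup is a maximal 2-local subgroup. -/
theorem isMaximalTwoLocal_map_conj {G : Type u} [Group G] {L : Subgroup G}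
    (h : IsMaximalTwoLocal L) (g : G) :
    IsMaximalTwoLocal (L.map (MulAut.conj g).toMonoidHom) := by
  refine ⟨isTwoLocal_map_conj h.1 g, ?_⟩
  intro N hN hle
  have h1 : IsTwoLocal (N.map (MulAut.conj g⁻¹).toMonoidHom) := isTwoLocal_map_conj hN g⁻¹
  have h2 : L ≤ N.map (MulAut.conj g⁻¹).toMonoidHom := by
    have := Subgroup.map_mono (f := (MulAut.conj g⁻¹).toMonoidHom) hle
    rwa [map_conj_inv_map_conj] at this
  have h3 := h.2 _ h1 h2
  have h4 := map_conj_inv_map_conj N g⁻¹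
  rw [inv_inv] at h4
  rw [← h4, h3]

/-- A maximal 2-local subgroup is self-normalizing. -/
theorem normalizer_le_of_isMaximalTwoLocal {G : Type u} [Group G] [Finite G] {L : Subgroup G}
    (h : IsMaximalTwoLocal L) : Subgroup.normalizer (L : Set G) ≤ L := by
  obtain ⟨⟨U, hU2, hU1, hLU⟩, hmax⟩ := h
  have hUL : U ≤ L := by rw [hLU]; exact Subgroup.le_normalizer
  have hUO : U ≤ pCoreOf 2 L :=
    Cfsg.Agent.H31.X.H54.le_pCoreOf hUL (by rw [hLU]) hU2
  have hO1 : pCoreOf 2 L ≠ ⊥ := by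
    intro hbot
    rw [hbot] at hUO
    exact hU1 (le_bot_iff.mp hUO)
  have hloc : IsTwoLocal (Subgroup.normalizer (pCoreOf 2 L : Set G)) :=
    ⟨pCoreOf 2 L, Cfsg.Agent.H31.X.H54.isPGroup_pCoreOf L, hO1, rfl⟩
  have heq := hmax _ hloc (Cfsg.Agent.H31.X.H54.le_normalizer_pCoreOf L)
  calc Subgroup.normalizer (L : Set G)
      ≤ Subgroup.normalizer (pCoreOf 2 L : Set G) :=
        Cfsg.Agent.H31.X.H54.normalizer_le_normalizer_pCoreOf L
    _ = L := heq

theorem out1 : StOut1.{u} := by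
  intro G _ _ S M T K L hB hTS hNJ
  obtain ⟨hZN, hO, hM, hMJ, hT, -, hK, hLmax, hKL⟩ := hB
  obtain ⟨g, hgN, hgL⟩ := SetLike.not_le_iff_exists.mp hNJ
  have hgN' : g ∈ Subgroup.normalizer (thompsonSubgroupOf 2 T : Set G) := by rw [hTS]; exact hgN
  have hJg : (thompsonSubgroupOf 2 T).map (MulAut.conj g).toMonoidHom = thompsonSubgroupOf 2 T :=
    Cfsg.Agent.H16.Uq.map_conj_of_mem_normalizer hgN'
  have hcj := Cfsg.Agent.H12.Sp.conjG T K g
  have hKJ : IsJComponent T K := hK.1.1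
  have h1 : IsJComponent (T.map (MulAut.conj g).toMonoidHom)
      (K.map (MulAut.conj g).toMonoidHom) := hcj.2.2 hKJ
  have h2 : thompsonSubgroupOf 2 (T.map (MulAut.conj g).toMonoidHom) = thompsonSubgroupOf 2 T := by
    rw [hcj.1, hJg]
  have h3 : IsJComponent T (K.map (MulAut.conj g).toMonoidHom) :=
    ((Cfsg.Agent.H58.Uq.k0_congr T (T.map (MulAut.conj g).toMonoidHom) h2).2 _).mp h1
  refine ⟨K.map (MulAut.conj g).toMonoidHom, h3, ?_⟩
  intro hle
  -- `L' := L^(g⁻¹)` is a maximal 2-local over `K ⊔ J(T)`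
  have hL' : IsMaximalTwoLocal (L.map (MulAut.conj g⁻¹).toMonoidHom) :=
    isMaximalTwoLocal_map_conj hLmax g⁻¹
  have hKL' : K ≤ L.map (MulAut.conj g⁻¹).toMonoidHom := by
    have := Subgroup.map_mono (f := (MulAut.conj g⁻¹).toMonoidHom) hle
    rwa [map_conj_inv_map_conj] at this
  have hJL' : thompsonSubgroupOf 2 T ≤ L.map (MulAut.conj g⁻¹).toMonoidHom := by
    have h4 : (thompsonSubgroupOf 2 T).map (MulAut.conj g).toMonoidHom ≤ L := by
      rw [hJg]; exact le_sup_right.trans hKL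
    have := Subgroup.map_mono (f := (MulAut.conj g⁻¹).toMonoidHom) h4
    rwa [map_conj_inv_map_conj] at this
  obtain ⟨L₀, -, -, huniq, -, -⟩ :=
    Cfsg.Agent.S2950.result hZN.1 hZN.2.1 hZN.2.2 hO S M hM hMJ T hT K hK
  have e1 : L = L₀ := huniq L hLmax hKL
  have e2 : L.map (MulAut.conj g⁻¹).toMonoidHom = L₀ := huniq _ hL' (sup_le hKL' hJL')
  have e3 : L.map (MulAut.conj g⁻¹).toMonoidHom = L := e2.trans e1.symm
  have hgi : g⁻¹ ∈ Subgroup.normalizer (L : Set G) :=
    Cfsg.Agent.H16.Uq.mem_normalizer_of_map_conj e3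
  have hg : g ∈ Subgroup.normalizer (L : Set G) := by
    have := Subgroup.inv_mem _ hgi
    rwa [inv_inv] at this
  exact hgL (normalizer_le_of_isMaximalTwoLocal hLmax hg)

example : StOut1.{u} := out1

end Cfsg.Agent.H16.Jz
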