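import Mathlib
import Cfsg.Agent.H28.JkDefs
import Cfsg.Agent.S2950
import Cfsg.Agent.H16.JzOut1
import Cfsg.Agent.Helper55.J48

/-!
# JK-A (piece of helper28's sub-project JK of JZ-KILL, for S2951 / S2952)

For `Base S M T K L`: `L ∈ ℒ(T)` (S2950: uniqueness identifies `L`, `T` is Sylow in `L`;
`J(T) ⊄ O₂(L)` since `K = [K, J(T)]` is not a 2-group; `C_G(O₂(L)) ≤ O₂(L)` by characteristic
2 type), `O₂(K) ≤ O₂(L)` (`K` subnormal in `L`), and `N_G(L) ≤ L`.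
-/

set_option autoImplicit false

namespace Cfsg.Agent.H16.Jk

open Cfsg Cfsg.Agent.H64.Jz

universe u

theorem ka : Cfsg.Agent.H28.Jk.StKA.{u} := by
  intro G _ _ S M T K L hB
  obtain ⟨hZN, hO, hM, hMJ, hT, -, hK, hLmax, hKL⟩ := hB
  obtain ⟨L₀, -, -, huniq, hsn, hsyl⟩ :=
    Cfsg.Agent.S2950.result hZN.1 hZN.2.1 hZN.2.2 hO S M hM hMJ T hT K hK
  have e1 : L = L₀ := huniq L hLmax hKL
  subst e1
  have hKL' : K ≤ L := le_sup_left.trans hKL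
  have hO2 : pCoreOf 2 K ≤ pCoreOf 2 L := Cfsg.Agent.H54.Uq.o2sn K L hKL' hsn
  have hcent : Subgroup.centralizer (pCoreOf 2 L : Set G) ≤ pCoreOf 2 L :=
    Cfsg.Agent.Helper55.J48.centralizer_pCoreOf_le hZN.1 hLmax.1
  refine ⟨⟨hsyl, ?_, hcent⟩, hO2, Cfsg.Agent.H16.Jz.normalizer_le_of_isMaximalTwoLocal hLmax⟩
  intro hJ
  have hKJ : IsJComponent T K := hK.1.1
  have hcomm : ⁅K, thompsonSubgroupOf 2 T⁆ = K := hKJ.2.1
  have hrel : (pCoreOf 2 K).relIndex K = 3 := hKJ.2.2.1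
  have hnorm : L ≤ Subgroup.normalizer (pCoreOf 2 L : Set G) :=
    Cfsg.Agent.H31.X.H54.le_normalizer_pCoreOf L
  have hKO : ⁅K, thompsonSubgroupOf 2 T⁆ ≤ pCoreOf 2 L := by
    rw [Subgroup.commutator_le]
    intro k hk j hj
    have h1 : k * j * k⁻¹ ∈ pCoreOf 2 L :=
      (Subgroup.mem_normalizer_iff.mp (hnorm (hKL' hk)) j).mp (hJ hj)
    have h2 : j⁻¹ ∈ pCoreOf 2 L := Subgroup.inv_mem _ (hJ hj)
    show k * j * k⁻¹ * j⁻¹ ∈ pCoreOf 2 L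
    exact Subgroup.mul_mem _ h1 h2
  rw [hcomm] at hKO
  have hK2 : IsPGroup 2 ↥K := (Cfsg.Agent.H31.X.H54.isPGroup_pCoreOf L).to_le hKO
  have hKK : K ≤ pCoreOf 2 K :=
    Cfsg.Agent.H31.X.H54.le_pCoreOf (le_refl K) Subgroup.le_normalizer hK2
  have h1 : (pCoreOf 2 K).relIndex K = 1 := Subgroup.relIndex_eq_one.mpr hKK
  omega

example : Cfsg.Agent.H28.Jk.StKA.{u} := ka

end Cfsg.Agent.H16.Jk
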