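import Cfsg.Agent.H28.JkDefs
import Cfsg.Agent.H18.JkZ

/-!
# JK-Z (piece of helper28's sub-project JK of JZ-KILL, for S2951 / S2952)

A wrapper of helper18's landed K-Z (`Cfsg.Agent.H18.Jk.kZ : H59.JzK.StKZ`): in the residual
situation there is `z ≠ 1` in `V = Ω₁Z(O₂(L))` and in `O₂(L')` (the extra hypothesis
`|Ω₁Z(S)| = 2` is not needed).
-/

set_option autoImplicit false

namespace Cfsg.Agent.H16.Jk

open Cfsg Cfsg.Agent.H64.Jz

universe u

theorem kz : Cfsg.Agent.H28.Jk.StKZ.{u} := by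
  intro G _ _ S M K L T' K' L' hR _
  obtain ⟨z, hzV, hz1, hzO⟩ := Cfsg.Agent.H18.Jk.kZ S M K L T' K' L' hR
  exact ⟨z, hz1, hzV, hzO⟩

example : Cfsg.Agent.H28.Jk.StKZ.{u} := kz

end Cfsg.Agent.H16.Jk
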