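import Mathlib
import Cfsg.Agent.H42.JtDefs
import Cfsg.Prelude.Def_GeometricClasses
import Cfsg.Agent.H49.CD
import Cfsg.Agent.H49.Omega2
import Cfsg.Agent.H49.Invol

set_option autoImplicit false

/-! helper16: piece JT-CAY of helper42's team project S5996/S5995
(the Cayley transform of a nilpotent skew matrix is a unipotent element of `Ω`). -/

namespace Cfsg.Agent.H16.Jt

open Cfsg.Agent.H42.Jt

theorem toLin'_pow_eq {ι : Type} [Fintype ι] [DecidableEq ι] {F : Type*} [Field F]
    (X : Matrix ι ι F) (e : ℕ) : (Matrix.toLin' X) ^ e = Matrix.toLin' (X ^ e) := by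
  induction e with
  | zero => simp [Module.End.one_eq_id]
  | succ n ih => rw [pow_succ, pow_succ, Matrix.toLin'_mul, ih]; rfl

theorem exists_omega_unipotent {ι : Type} [Fintype ι] [DecidableEq ι] {F : Type*} [Field F]
    [Fintype F] {p : ℕ} [Fact p.Prime] [CharP F p] (h2 : (2 : F) ≠ 0)
    (Q : QuadraticForm F (ι → F)) (hQ : (QuadraticMap.polarBilin Q).Nondegenerate)
    (N : Matrix ι ι F) (hN : ∀ w : ι → F, QuadraticMap.polar (⇑Q) w (N.mulVec w) = 0)
    (hnil : N ^ p = 0) :
    ∃ x : Matrix.GeneralLinearGroup ι F, x ∈ Cfsg.Geo.omegaGL (⇑Q) ∧ x ^ p = 1 ∧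
      ∀ e : ℕ, kd (Matrix.toLin' ((x : Matrix ι ι F) - 1)) e = kd (Matrix.toLin' N) e := by
  classical
  rcases isEmpty_or_nonempty ι with hι | hι
  · refine ⟨1, Subgroup.one_mem _, one_pow _, fun e => ?_⟩
    unfold kd
    haveI : Subsingleton (ι → F) := inferInstance
    rw [Module.finrank_zero_of_subsingleton, Module.finrank_zero_of_subsingleton]
  · haveI : CharP (Matrix ι ι F) p := inferInstance
    set c : F := (2 : F)⁻¹ with hc
    have h2c : c + c = 1 := by
      rw [← two_mul]; exact mul_inv_cancel₀ h2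
    set M : Matrix ι ι F := c • N with hM
    have hMM : M + M = N := by
      rw [hM, ← add_smul, h2c, one_smul]
    have hMnil : IsNilpotent M := ⟨p, by rw [hM, smul_pow, hnil, smul_zero]⟩
    obtain ⟨uA, huA⟩ := hMnil.isUnit_one_sub
    obtain ⟨uA', huA'⟩ := hMnil.isUnit_one_add
    have hcomm : Commute N (↑uA⁻¹ : Matrix ι ι F) := by
      have h1 : Commute N (↑uA : Matrix ι ι F) := by
        rw [huA]
        exact (Commute.one_right N).sub_right ((Commute.refl N).smul_right c)
      exact h1.units_inv_right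
    have hB : (1 - M) * (↑uA⁻¹ : Matrix ι ι F) = 1 := by
      rw [← huA, Units.mul_inv]
    let y : Matrix.GeneralLinearGroup ι F := uA' * uA⁻¹
    have hyv : (y : Matrix ι ι F) = (1 + M) * (↑uA⁻¹ : Matrix ι ι F) := by
      show ((uA' * uA⁻¹ : (Matrix ι ι F)ˣ) : Matrix ι ι F) = _
      rw [Units.val_mul, huA']
    have hy1 : (y : Matrix ι ι F) - 1 = N * (↑uA⁻¹ : Matrix ι ι F) := by
      rw [hyv]
      calc (1 + M) * (↑uA⁻¹ : Matrix ι ι F) - 1
          = (1 + M) * (↑uA⁻¹ : Matrix ι ι F) - (1 - M) * (↑uA⁻¹ : Matrix ι ι F) := by rw [hB]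
        _ = (M + M) * (↑uA⁻¹ : Matrix ι ι F) := by rw [← sub_mul]; congr 1; abel
        _ = N * (↑uA⁻¹ : Matrix ι ι F) := by rw [hMM]
    -- isometry
    have hyiso : y ∈ Cfsg.isometryGroup F (⇑Q) := by
      rw [Cfsg.Agent.H49.mem_isometryGroup_iff]
      intro u
      set w : ι → F := (↑uA⁻¹ : Matrix ι ι F).mulVec u with hw
      have hu : u = w - c • N.mulVec w := by
        have h1 : ((1 - M) * (↑uA⁻¹ : Matrix ι ι F)).mulVec u = u := by
          rw [hB, Matrix.one_mulVec]
        rw [← Matrix.mulVec_mulVec, ← hw, Matrix.sub_mulVec, Matrix.one_mulVec, hM,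
          Matrix.smul_mulVec] at h1
        exact h1.symm
      have hyu : (y : Matrix ι ι F).mulVec u = w + c • N.mulVec w := by
        rw [hyv, ← Matrix.mulVec_mulVec, ← hw, Matrix.add_mulVec, Matrix.one_mulVec, hM,
          Matrix.smul_mulVec]
      have hp0 := hN w
      have e1 : Q (w + c • N.mulVec w) = Q w + Q (c • N.mulVec w) := by
        rw [QuadraticMap.map_add (⇑Q), QuadraticMap.polar_smul_right, hp0, smul_zero, add_zero]
      have e2 : Q (w - c • N.mulVec w) = Q w + Q (c • N.mulVec w) := by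
        rw [sub_eq_add_neg, QuadraticMap.map_add (⇑Q), QuadraticMap.polar_neg_right,
          QuadraticMap.polar_smul_right, hp0, smul_zero, neg_zero, add_zero, QuadraticMap.map_neg]
      rw [hyu, e1]
      conv_rhs => rw [hu, e2]
    -- powers
    have hpow : ∀ e : ℕ, ((y : Matrix ι ι F) - 1) ^ e
        = (↑((uA ^ e)⁻¹) : Matrix ι ι F) * N ^ e := by
      intro e
      rw [hy1, hcomm.mul_pow, (hcomm.pow_pow e e).eq, ← Units.val_pow_eq_pow_val, inv_pow]
    have hyp : (y : Matrix ι ι F) ^ p = 1 := by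
      have h0 : ((y : Matrix ι ι F) - 1) ^ p = 0 := by rw [hpow, hnil, mul_zero]
      have h1 : (y : Matrix ι ι F) = ((y : Matrix ι ι F) - 1) + 1 := (sub_add_cancel _ _).symm
      rw [h1, add_pow_char_of_commute p (Commute.one_right ((y : Matrix ι ι F) - 1)), h0,
        one_pow, zero_add]
    have hyp' : y ^ p = 1 := by
      apply Units.ext
      rw [Units.val_pow_eq_pow_val]
      exact hyp
    -- membership in Ω
    have hpodd : Odd p := by
      rcases (Fact.out : p.Prime).eq_two_or_odd' with h | h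
      · exfalso
        apply h2
        have := CharP.cast_eq_zero F p
        rw [h] at this
        exact_mod_cast this
      · exact h
    obtain ⟨k, hk⟩ := hpodd
    let g : ↥(Cfsg.isometryGroup F (⇑Q)) := ⟨y, hyiso⟩
    have hgp : g ^ p = 1 := Subtype.ext (by
      rw [Subgroup.coe_pow]
      exact hyp')
    have hmem : g ∈ commutator ↥(Cfsg.isometryGroup F (⇑Q)) := by
      have h := Cfsg.Agent.H49.sq_mem_commutator (Cfsg.Agent.H49.reflSet Q)
        (Cfsg.Agent.H49.reflSet_invol Q) (Cfsg.Agent.H49.closure_reflSet_eq_top Q h2 hQ)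
        (g ^ (k + 1))
      have h3 : g ^ (k + 1) * g ^ (k + 1) = g := by
        rw [← pow_add]
        have : k + 1 + (k + 1) = p + 1 := by omega
        rw [this, pow_succ, hgp, one_mul]
      rwa [h3] at h
    refine ⟨y, ?_, hyp', ?_⟩
    · unfold Cfsg.Geo.omegaGL
      rw [Subgroup.mem_map]
      exact ⟨g, hmem, rfl⟩
    · intro e
      unfold kd
      rw [toLin'_pow_eq, toLin'_pow_eq, hpow]
      have hker : LinearMap.ker (Matrix.toLin' ((↑((uA ^ e)⁻¹) : Matrix ι ι F) * N ^ e))
          = LinearMap.ker (Matrix.toLin' (N ^ e)) := by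
        ext v
        simp only [LinearMap.mem_ker, Matrix.toLin'_apply]
        rw [← Matrix.mulVec_mulVec]
        constructor
        · intro h
          have h1 := congrArg (fun z => (↑(uA ^ e) : Matrix ι ι F).mulVec z) h
          simp only [Matrix.mulVec_zero] at h1
          rw [Matrix.mulVec_mulVec, Units.mul_inv, Matrix.one_mulVec] at h1
          exact h1
        · intro h
          rw [h, Matrix.mulVec_zero]
      rw [hker]

end Cfsg.Agent.H16.Jt
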