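import Mathlib
import Cfsg.Agent.H42.JtDefs

set_option autoImplicit false

/-! helper16: piece JT-SUM of helper42's team project S5996/S5995
(orthogonal sums and transport of the Jordan-type datum `HD`). -/

namespace Cfsg.Agent.H16.Jt

open Cfsg.Agent.H42.Jt

section general

variable {F : Type*} [Field F]

theorem pow_conj_apply {V V' : Type*} [AddCommGroup V] [Module F V] [AddCommGroup V']
    [Module F V'] (Φ : V ≃ₗ[F] V') (L : Module.End F V) (L' : Module.End F V')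
    (h : ∀ v, L' (Φ v) = Φ (L v)) (e : ℕ) (v : V) : (L' ^ e) (Φ v) = Φ ((L ^ e) v) := by
  induction e generalizing v with
  | zero => simp
  | succ n ih =>
    rw [pow_succ, pow_succ, Module.End.mul_apply, Module.End.mul_apply, h, ih]

theorem kd_conj {V V' : Type*} [AddCommGroup V] [Module F V] [AddCommGroup V']
    [Module F V'] (Φ : V ≃ₗ[F] V') (L : Module.End F V) (L' : Module.End F V')
    (h : ∀ v, L' (Φ v) = Φ (L v)) (e : ℕ) : kd L' e = kd L e := by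
  unfold kd
  have hker : LinearMap.ker (L' ^ e) = (LinearMap.ker (L ^ e)).map (Φ : V →ₗ[F] V') := by
    ext w
    rw [Submodule.mem_map]
    constructor
    · intro hw
      refine ⟨Φ.symm w, ?_, by simp⟩
      rw [LinearMap.mem_ker] at hw ⊢
      have h1 := pow_conj_apply Φ L L' h e (Φ.symm w)
      rw [LinearEquiv.apply_symm_apply, hw] at h1
      exact Φ.injective (by rw [← h1, map_zero])
    · rintro ⟨v, hv, rfl⟩
      rw [LinearMap.mem_ker] at hv ⊢
      have h1 := pow_conj_apply Φ L L' h e v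
      rw [LinearEquiv.coe_coe, h1, hv, map_zero]
  rw [hker]
  exact LinearEquiv.finrank_map_eq Φ _

theorem prodMap_pow' {V₁ V₂ : Type*} [AddCommGroup V₁] [Module F V₁] [AddCommGroup V₂]
    [Module F V₂] (L₁ : Module.End F V₁) (L₂ : Module.End F V₂) (e : ℕ) :
    (LinearMap.prodMap L₁ L₂ : Module.End F (V₁ × V₂)) ^ e
      = LinearMap.prodMap (L₁ ^ e) (L₂ ^ e) := by
  induction e with
  | zero => simp
  | succ n ih => rw [pow_succ, pow_succ, pow_succ, ih, LinearMap.prodMap_mul]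

theorem finrank_prod_sub {V₁ V₂ : Type*} [AddCommGroup V₁] [Module F V₁] [AddCommGroup V₂]
    [Module F V₂] [FiniteDimensional F V₁] [FiniteDimensional F V₂]
    (p : Submodule F V₁) (q : Submodule F V₂) :
    Module.finrank F (p.prod q) = Module.finrank F p + Module.finrank F q := by
  let e : (p.prod q) ≃ₗ[F] (p × q) :=
    { toFun := fun x => (⟨x.1.1, x.2.1⟩, ⟨x.1.2, x.2.2⟩)
      map_add' := fun x y => rfl
      map_smul' := fun c x => rfl
      invFun := fun y => ⟨(y.1.1, y.2.1), ⟨y.1.2, y.2.2⟩⟩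
      left_inv := fun x => rfl
      right_inv := fun y => rfl }
  rw [e.finrank_eq, Module.finrank_prod]

theorem kd_prod {V₁ V₂ : Type*} [AddCommGroup V₁] [Module F V₁] [AddCommGroup V₂]
    [Module F V₂] [FiniteDimensional F V₁] [FiniteDimensional F V₂]
    (L₁ : Module.End F V₁) (L₂ : Module.End F V₂) (e : ℕ) :
    kd (LinearMap.prodMap L₁ L₂ : Module.End F (V₁ × V₂)) e = kd L₁ e + kd L₂ e := by
  unfold kd
  rw [prodMap_pow', LinearMap.ker_prodMap, finrank_prod_sub]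

end general

theorem HD_sum {ι₁ ι₂ : Type} [Fintype ι₁] [DecidableEq ι₁] [Fintype ι₂] [DecidableEq ι₂]
    {F : Type*} [Field F] (Q₁ : (ι₁ → F) → F) (Q₂ : (ι₂ → F) → F) (μ₁ μ₂ : Multiset ℕ)
    (h₁ : HD Q₁ μ₁) (h₂ : HD Q₂ μ₂) :
    HD (fun v : ι₁ ⊕ ι₂ → F => Q₁ (fun i => v (Sum.inl i)) + Q₂ (fun i => v (Sum.inr i)))
      (μ₁ + μ₂) := by
  obtain ⟨N₁, hN₁, hk₁⟩ := h₁
  obtain ⟨N₂, hN₂, hk₂⟩ := h₂
  have hmv : ∀ w : ι₁ ⊕ ι₂ → F,
      (Matrix.fromBlocks N₁ 0 0 N₂).mulVec w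
        = Sum.elim (N₁.mulVec (fun i => w (Sum.inl i))) (N₂.mulVec (fun i => w (Sum.inr i))) := by
    intro w
    have hw : w = Sum.elim (fun i => w (Sum.inl i)) (fun i => w (Sum.inr i)) := by
      ext (i | i) <;> rfl
    conv_lhs => rw [hw]
    rw [Matrix.fromBlocks_mulVec]
    simp
  refine ⟨Matrix.fromBlocks N₁ 0 0 N₂, ?_, ?_⟩
  · intro w
    have e1 := hN₁ (fun i => w (Sum.inl i))
    have e2 := hN₂ (fun i => w (Sum.inr i))
    unfold QuadraticMap.polar at e1 e2 ⊢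
    rw [hmv]
    simp only [Pi.add_apply, Sum.elim_inl, Sum.elim_inr]
    have a1 : (fun i => w (Sum.inl i) + N₁.mulVec (fun i => w (Sum.inl i)) i)
        = (fun i => w (Sum.inl i)) + N₁.mulVec (fun i => w (Sum.inl i)) := rfl
    have a2 : (fun i => w (Sum.inr i) + N₂.mulVec (fun i => w (Sum.inr i)) i)
        = (fun i => w (Sum.inr i)) + N₂.mulVec (fun i => w (Sum.inr i)) := rfl
    have b1 : (fun i => N₁.mulVec (fun i => w (Sum.inl i)) i)
        = N₁.mulVec (fun i => w (Sum.inl i)) := rfl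
    have b2 : (fun i => N₂.mulVec (fun i => w (Sum.inr i)) i)
        = N₂.mulVec (fun i => w (Sum.inr i)) := rfl
    rw [a1, a2, b1, b2]
    linear_combination e1 + e2
  · intro e
    have hc := kd_conj (LinearEquiv.sumArrowLequivProdArrow ι₁ ι₂ F F)
      (Matrix.toLin' (Matrix.fromBlocks N₁ 0 0 N₂))
      (LinearMap.prodMap (Matrix.toLin' N₁) (Matrix.toLin' N₂)) (by
        intro v
        rw [Matrix.toLin'_apply, hmv]
        ext i
        · simp [LinearEquiv.sumArrowLequivProdArrow, Matrix.toLin'_apply]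
          rfl
        · simp [LinearEquiv.sumArrowLequivProdArrow, Matrix.toLin'_apply]
          rfl) e
    rw [← hc, kd_prod, hk₁, hk₂, Multiset.map_add, Multiset.sum_add]

theorem HD_transport {ι ι' : Type} [Fintype ι] [DecidableEq ι] [Fintype ι'] [DecidableEq ι']
    {F : Type*} [Field F] (Q : (ι → F) → F) (Q' : (ι' → F) → F)
    (Φ : (ι → F) ≃ₗ[F] (ι' → F)) (hΦ : ∀ v, Q' (Φ v) = Q v) (μ : Multiset ℕ) (h : HD Q μ) :
    HD Q' μ := by
  obtain ⟨N, hN, hk⟩ := h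
  let L' : Module.End F (ι' → F) :=
    (Φ : (ι → F) →ₗ[F] (ι' → F)) ∘ₗ Matrix.toLin' N ∘ₗ (Φ.symm : (ι' → F) →ₗ[F] (ι → F))
  have hL' : ∀ v, L' (Φ v) = Φ (Matrix.toLin' N v) := by
    intro v
    simp [L']
  have htl : Matrix.toLin' (LinearMap.toMatrix' L') = L' := Matrix.toLin'_toMatrix' L'
  refine ⟨LinearMap.toMatrix' L', ?_, ?_⟩
  · intro w
    have e1 := hN (Φ.symm w)
    have h1 : (LinearMap.toMatrix' L').mulVec w = Φ (N.mulVec (Φ.symm w)) := by
      rw [← Matrix.toLin'_apply, htl]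
      have := hL' (Φ.symm w)
      rw [LinearEquiv.apply_symm_apply] at this
      rw [this, Matrix.toLin'_apply]
    unfold QuadraticMap.polar at e1 ⊢
    rw [h1]
    have h2 : w + Φ (N.mulVec (Φ.symm w)) = Φ (Φ.symm w + N.mulVec (Φ.symm w)) := by
      rw [map_add, LinearEquiv.apply_symm_apply]
    have h3 : Q' w = Q (Φ.symm w) := by
      rw [← hΦ, LinearEquiv.apply_symm_apply]
    rw [h2, hΦ, hΦ, h3]
    exact e1
  · intro e
    rw [htl, kd_conj Φ (Matrix.toLin' N) L' hL' e, hk]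

theorem HD_zero {F : Type*} [Field F] : HD (Cfsg.quadFormPlus 0 F) 0 := by
  refine ⟨0, ?_, ?_⟩
  · intro w
    unfold QuadraticMap.polar Cfsg.quadFormPlus
    simp
  · intro e
    unfold kd
    simp only [Multiset.map_zero, Multiset.sum_zero]
    haveI : Subsingleton (Fin 0 ⊕ Fin 0 → F) := inferInstance
    exact Module.finrank_zero_of_subsingleton

theorem quadFormPlus_add {F : Type*} [Field F] (s₁ s₂ : ℕ)
    (v : (Fin s₁ ⊕ Fin s₁) ⊕ (Fin s₂ ⊕ Fin s₂) → F) :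
    Cfsg.quadFormPlus (s₁ + s₂) F
        (fun i => v ((Equiv.sumCongr finSumFinEquiv.symm finSumFinEquiv.symm).trans
          (Equiv.sumSumSumComm (Fin s₁) (Fin s₂) (Fin s₁) (Fin s₂)) i))
      = Cfsg.quadFormPlus s₁ F (fun i => v (Sum.inl i))
        + Cfsg.quadFormPlus s₂ F (fun i => v (Sum.inr i)) := by
  unfold Cfsg.quadFormPlus
  rw [Fin.sum_univ_add]
  simp

theorem HD_plus_add {F : Type*} [Field F] (s₁ s₂ : ℕ) (μ₁ μ₂ : Multiset ℕ)
    (h₁ : HD (Cfsg.quadFormPlus s₁ F) μ₁) (h₂ : HD (Cfsg.quadFormPlus s₂ F) μ₂) :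
    HD (Cfsg.quadFormPlus (s₁ + s₂) F) (μ₁ + μ₂) := by
  have h := HD_sum _ _ μ₁ μ₂ h₁ h₂
  refine HD_transport _ _ (LinearEquiv.funCongrLeft F F
    ((Equiv.sumCongr finSumFinEquiv.symm finSumFinEquiv.symm).trans
      (Equiv.sumSumSumComm (Fin s₁) (Fin s₂) (Fin s₁) (Fin s₂)))) ?_ _ h
  intro v
  exact quadFormPlus_add s₁ s₂ v

/-- The index equivalence used for `HD_odd_add`. -/
def oddIdx (s₁ s₂ : ℕ) :
    Unit ⊕ (Fin (s₁ + s₂) ⊕ Fin (s₁ + s₂)) ≃ (Fin s₁ ⊕ Fin s₁) ⊕ (Unit ⊕ (Fin s₂ ⊕ Fin s₂)) where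
  toFun := Sum.elim (fun _ => Sum.inr (Sum.inl ()))
    (Sum.elim
      (fun i => Fin.addCases (fun a => Sum.inl (Sum.inl a))
        (fun b => Sum.inr (Sum.inr (Sum.inl b))) i)
      (fun i => Fin.addCases (fun a => Sum.inl (Sum.inr a))
        (fun b => Sum.inr (Sum.inr (Sum.inr b))) i))
  invFun := Sum.elim
    (Sum.elim (fun a => Sum.inr (Sum.inl (Fin.castAdd s₂ a)))
      (fun a => Sum.inr (Sum.inr (Fin.castAdd s₂ a))))
    (Sum.elim (fun _ => Sum.inl ())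
      (Sum.elim (fun b => Sum.inr (Sum.inl (Fin.natAdd s₁ b)))
        (fun b => Sum.inr (Sum.inr (Fin.natAdd s₁ b)))))
  left_inv := by
    rintro (u | i | i)
    · rfl
    · refine Fin.addCases (fun a => ?_) (fun b => ?_) i <;> simp
    · refine Fin.addCases (fun a => ?_) (fun b => ?_) i <;> simp
  right_inv := by
    rintro ((a | a) | u | b | b) <;> simp

theorem quadFormOdd_add {F : Type*} [Field F] (s₁ s₂ : ℕ)
    (v : (Fin s₁ ⊕ Fin s₁) ⊕ (Unit ⊕ (Fin s₂ ⊕ Fin s₂)) → F) :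
    Cfsg.quadFormOdd (s₁ + s₂) F (fun i => v (oddIdx s₁ s₂ i))
      = Cfsg.quadFormPlus s₁ F (fun i => v (Sum.inl i))
        + Cfsg.quadFormOdd s₂ F (fun i => v (Sum.inr i)) := by
  unfold Cfsg.quadFormPlus Cfsg.quadFormOdd
  rw [Fin.sum_univ_add]
  simp [oddIdx]
  ring

theorem HD_odd_add {F : Type*} [Field F] (s₁ s₂ : ℕ) (μ₁ μ₂ : Multiset ℕ)
    (h₁ : HD (Cfsg.quadFormPlus s₁ F) μ₁) (h₂ : HD (Cfsg.quadFormOdd s₂ F) μ₂) :
    HD (Cfsg.quadFormOdd (s₁ + s₂) F) (μ₁ + μ₂) := by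
  have h := HD_sum _ _ μ₁ μ₂ h₁ h₂
  refine HD_transport _ _ (LinearEquiv.funCongrLeft F F (oddIdx s₁ s₂)) ?_ _ h
  intro v
  exact quadFormOdd_add s₁ s₂ v

end Cfsg.Agent.H16.Jt
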