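import Mathlib
import Cfsg.Agent.H64.JzDefs
import Cfsg.Agent.H64.JyDefs
import Cfsg.Agent.H16.JkA
import Cfsg.Agent.Helper55.StrongFusion

/-!
# JY-NOTIN (piece Y4 of helper64's project for S2953)

`Base S M T K L`, `T ≠ S`: some `x ∈ N_S(T) ∖ T` (normalizers grow in the 2-group `S`); it lies
in `M` (`S ≤ N_G(J(S)) ≤ M`) and not in `L` (`T` is a Sylow 2-subgroup of `L`, S2950).
-/

set_option autoImplicit false

namespace Cfsg.Agent.H16.Jy

open Cfsg Cfsg.Agent.H64.Jz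

universe u

/-- A 2-subgroup of `L` containing a Sylow 2-subgroup `T` of `L` is `T`. -/
theorem le_of_isSylowTwoIn {G : Type u} [Group G] [Finite G] {T L P : Subgroup G}
    (h : IsSylowTwoIn T L) (hP : IsPGroup 2 ↥P) (hTP : T ≤ P) (hPL : P ≤ L) : P ≤ T := by
  have : Fact (Nat.Prime 2) := ⟨Nat.prime_two⟩
  have h1 := Subgroup.relIndex_mul_relIndex T P L hTP hPL
  have hodd : Odd (T.relIndex P) := by
    have h2 : Odd (T.relIndex P * P.relIndex L) := by rw [h1]; exact h.2.2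
    exact (Nat.odd_mul.mp h2).1
  obtain ⟨n, hn⟩ := hP.index (T.subgroupOf P)
  have h3 : T.relIndex P = 2 ^ n := hn
  rw [← Subgroup.relIndex_eq_one]
  rw [h3] at hodd ⊢
  rcases Nat.eq_zero_or_pos n with rfl | hpos
  · rfl
  · exfalso
    have : Even (2 ^ n) := (Nat.even_pow.mpr ⟨even_two, hpos.ne'⟩)
    exact (Nat.not_even_iff_odd.mpr hodd) this

/-- A Sylow 2-subgroup normalizes its Thompson subgroup. -/
theorem sylow_le_normalizer_J {G : Type u} [Group G] (S : Subgroup G) :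
    S ≤ Subgroup.normalizer (thompsonSubgroupOf 2 S : Set G) := by
  intro x hxS
  apply Cfsg.Agent.H16.Uq.mem_normalizer_of_map_conj
  rw [Cfsg.Agent.H14.thompsonSubgroupOf_conj 2 x S,
    Cfsg.Agent.H16.Uq.map_conj_of_mem_normalizer (Subgroup.le_normalizer hxS)]

/-- **JY-NOTIN** (exact Prop of `H64.JyDefs`). -/
theorem notIn : Cfsg.Agent.H64.Jy.StNotIn.{u} := by
  intro G _ _ S M T K L hB hTS
  have : Fact (Nat.Prime 2) := ⟨Nat.prime_two⟩
  have hsyl : IsSylowTwoIn T L := (Cfsg.Agent.H16.Jk.ka S M T K L hB).1.1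
  obtain ⟨-, -, -, hMJ, -, hTSle, -, -, -⟩ := hB
  have hlt : T < (S : Subgroup G) := lt_of_le_of_ne hTSle hTS
  obtain ⟨x, hxS, hxN, hxT⟩ :=
    Cfsg.Agent.Helper55.exists_mem_normalizer_not_mem (p := 2) S.isPGroup' hlt
  refine ⟨x, hMJ (sylow_le_normalizer_J (S : Subgroup G) hxS), hxN, ?_⟩
  intro hxL
  have hPS : T ⊔ Subgroup.zpowers x ≤ (S : Subgroup G) :=
    sup_le hTSle ((Subgroup.zpowers_le).mpr hxS)
  have hP2 : IsPGroup 2 ↥(T ⊔ Subgroup.zpowers x) := S.isPGroup'.to_le hPS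
  have hPL : T ⊔ Subgroup.zpowers x ≤ L := sup_le hsyl.1 ((Subgroup.zpowers_le).mpr hxL)
  have hle := le_of_isSylowTwoIn hsyl hP2 le_sup_left hPL
  exact hxT (hle (le_sup_right (a := T) (Subgroup.mem_zpowers x)))

example : Cfsg.Agent.H64.Jy.StNotIn.{u} := notIn

end Cfsg.Agent.H16.Jy
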