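import Mathlib
import Cfsg.Agent.H64.JzDefs
import Cfsg.Agent.H64.JyDefs
import Cfsg.Agent.H16.JyNotin
import Cfsg.Agent.Helper55.UqBase

/-!
# X1 STAR and X2 PF (pieces of helper52's KILL2 plan for S2953)

* `star_core`: `Base S M T K L`, `T ≠ S`: no subgroup `1 ≠ F ≤ T` is normalized by `K ⊔ T` and by
  `N_S(T)` (`N_G(F)` would be a 2-local over `K ⊔ J(T)`, hence inside `L` by S2950, but some
  `x ∈ N_S(T)` is outside `L`).
* `pf_core`: `O₂(K ⊔ T) ≤ T`, `O₂(K ⊔ T) ≠ 1`, `K ⊔ T ≤ N_G(O₂(K ⊔ T))`.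
-/

set_option autoImplicit false

namespace Cfsg.Agent.H16.Jx

open Cfsg Cfsg.Agent.H64.Jz

universe u

/-- NOTIN with `x ∈ S`. -/
theorem notIn_S {G : Type u} [Group G] [Finite G] (S : Sylow 2 G) (M T K L : Subgroup G)
    (hB : Base S M T K L) (hTS : T ≠ (S : Subgroup G)) :
    ∃ x ∈ (S : Subgroup G), x ∈ Subgroup.normalizer (T : Set G) ∧ x ∉ L := by
  have : Fact (Nat.Prime 2) := ⟨Nat.prime_two⟩
  have hsyl : IsSylowTwoIn T L := (Cfsg.Agent.H16.Jk.ka S M T K L hB).1.1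
  obtain ⟨-, -, -, -, -, hTSle, -, -, -⟩ := hB
  have hlt : T < (S : Subgroup G) := lt_of_le_of_ne hTSle hTS
  obtain ⟨x, hxS, hxN, hxT⟩ :=
    Cfsg.Agent.Helper55.exists_mem_normalizer_not_mem (p := 2) S.isPGroup' hlt
  refine ⟨x, hxS, hxN, ?_⟩
  intro hxL
  have hPS : T ⊔ Subgroup.zpowers x ≤ (S : Subgroup G) :=
    sup_le hTSle ((Subgroup.zpowers_le).mpr hxS)
  have hP2 : IsPGroup 2 ↥(T ⊔ Subgroup.zpowers x) := S.isPGroup'.to_le hPS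
  have hPL : T ⊔ Subgroup.zpowers x ≤ L := sup_le hsyl.1 ((Subgroup.zpowers_le).mpr hxL)
  have hle := Cfsg.Agent.H16.Jy.le_of_isSylowTwoIn hsyl hP2 le_sup_left hPL
  exact hxT (hle (le_sup_right (a := T) (Subgroup.mem_zpowers x)))

/-- A 2-local subgroup over `K ⊔ J(T)` lies in `L` (S2950 uniqueness). -/
theorem twoLocal_le_of_base {G : Type u} [Group G] [Finite G] (S : Sylow 2 G)
    (M T K L : Subgroup G) (hB : Base S M T K L) (X : Subgroup G) (hX : IsTwoLocal X)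
    (hKX : K ⊔ thompsonSubgroupOf 2 T ≤ X) : X ≤ L := by
  obtain ⟨hZN, hO, hM, hMJ, hT, -, hK, hLmax, hKL⟩ := hB
  obtain ⟨L₀, -, -, huniq, -, -⟩ :=
    Cfsg.Agent.S2950.result hZN.1 hZN.2.1 hZN.2.2 hO S M hM hMJ T hT K hK
  obtain ⟨L', hL'max, hXL'⟩ := Cfsg.Agent.Helper55.Uq.exists_maximalTwoLocal hX
  have e1 : L = L₀ := huniq L hLmax hKL
  have e2 : L' = L₀ := huniq L' hL'max (hKX.trans hXL')
  rw [e1, ← e2]
  exact hXL'

/-- X1 STAR, core form. -/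
theorem star_core {G : Type u} [Group G] [Finite G] (S : Sylow 2 G) (M T K L : Subgroup G)
    (hB : Base S M T K L) (hTS : T ≠ (S : Subgroup G)) (F : Subgroup G) (hF1 : F ≠ ⊥)
    (hFT : F ≤ T) (hPF : K ⊔ T ≤ Subgroup.normalizer (F : Set G))
    (hx : ∀ x ∈ (S : Subgroup G), x ∈ Subgroup.normalizer (T : Set G) →
      x ∈ Subgroup.normalizer (F : Set G)) : False := by
  obtain ⟨x, hxS, hxN, hxL⟩ := notIn_S S M T K L hB hTS
  have hT2 : IsPGroup 2 ↥T := S.isPGroup'.to_le hB.2.2.2.2.2.1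
  have hF2 : IsPGroup 2 ↥F := hT2.to_le hFT
  have hloc : IsTwoLocal (Subgroup.normalizer (F : Set G)) := ⟨F, hF2, hF1, rfl⟩
  have hKJ : K ⊔ thompsonSubgroupOf 2 T ≤ Subgroup.normalizer (F : Set G) :=
    (sup_le_sup_left (Cfsg.Agent.H14.thompsonSubgroupOf_le 2 T) K).trans hPF
  exact hxL (twoLocal_le_of_base S M T K L hB _ hloc hKJ (hx x hxS hxN))

/-- `T` is a Sylow 2-subgroup of `K ⊔ T`. -/
theorem isSylowTwoIn_sup {G : Type u} [Group G] [Finite G] (S : Sylow 2 G) (M T K L : Subgroup G)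
    (hB : Base S M T K L) : IsSylowTwoIn T (K ⊔ T) := by
  have hsyl : IsSylowTwoIn T L := (Cfsg.Agent.H16.Jk.ka S M T K L hB).1.1
  obtain ⟨-, -, -, -, -, -, -, -, hKL⟩ := hB
  have hPL : K ⊔ T ≤ L := sup_le (le_sup_left.trans hKL) hsyl.1
  refine ⟨le_sup_right, hsyl.2.1, ?_⟩
  have h1 := Subgroup.relIndex_mul_relIndex T (K ⊔ T) L le_sup_right hPL
  have h2 : Odd (T.relIndex (K ⊔ T) * (K ⊔ T).relIndex L) := by rw [h1]; exact hsyl.2.2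
  exact (Nat.odd_mul.mp h2).1

/-- X2 PF, core form. -/
theorem pf_core {G : Type u} [Group G] [Finite G] (S : Sylow 2 G) (M T K L : Subgroup G)
    (hB : Base S M T K L) :
    pCoreOf 2 (K ⊔ T) ≤ T ∧ pCoreOf 2 (K ⊔ T) ≠ ⊥ ∧
      K ⊔ T ≤ Subgroup.normalizer (pCoreOf 2 (K ⊔ T) : Set G) :=
  ⟨Cfsg.Agent.Helper55.J48.pCoreOf_le_of_sylowIn (isSylowTwoIn_sup S M T K L hB),
    hB.2.2.2.2.2.2.1.2.2, Cfsg.Agent.H31.X.H54.le_normalizer_pCoreOf (K ⊔ T)⟩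

end Cfsg.Agent.H16.Jx
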