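import Cfsg.Agent.H52.JxDefs
import Cfsg.Agent.H16.JxStar

/-!
# X1 STAR and X2 PF in the exact shapes of `H52.JxDefs` (S2953, JY-KILL2)
-/

set_option autoImplicit false

namespace Cfsg.Agent.H16.Jx

open Cfsg Cfsg.Agent.H64.Jz

universe u

/-- **X1 STAR**. -/
theorem star : Cfsg.Agent.H52.Jx.StStar.{u} := by
  intro G _ _ S M T K L hB hTS F hF1 hFT hPF hx
  exact star_core S M T K L hB hTS F hF1 hFT hPF hx

/-- **X2 PF**. -/
theorem pf : Cfsg.Agent.H52.Jx.StPF.{u} := by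
  intro G _ _ S M T K L hB
  exact pf_core S M T K L hB

example : Cfsg.Agent.H52.Jx.StStar.{u} := star
example : Cfsg.Agent.H52.Jx.StPF.{u} := pf

end Cfsg.Agent.H16.Jx
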