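import Mathlib
import Cfsg.Agent.H64.JzDefs
import Cfsg.Agent.H64.JyDefs
import Cfsg.Agent.H12.UqK0Conj
import Cfsg.Agent.H51.Amalgam
import Cfsg.Agent.H16.JzOut1

/-!
# JY-CONJ (piece Y3 of helper64's project for S2953)

`Base S M T K L`, `g ∈ M ∩ N_G(T)`, `g ∉ L`: then `K₂ = K^g`, `L₂ = L^g` satisfy
`Base S M T K₂ L₂` and `L₂ ≠ L` (`N_G(L) = L`).
-/

set_option autoImplicit false

namespace Cfsg.Agent.H16.Jy

open Cfsg Cfsg.Agent.H64.Jz

universe u

/-- JY-CONJ, core form (no project Defs needed). -/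
theorem conj_core {G : Type u} [Group G] [Finite G] (S : Sylow 2 G) (M T K L : Subgroup G)
    (hB : Base S M T K L) (g : G) (hgM : g ∈ M)
    (hgT : g ∈ Subgroup.normalizer (T : Set G)) (hgL : g ∉ L) :
    Base S M T (K.map (MulAut.conj g).toMonoidHom) (L.map (MulAut.conj g).toMonoidHom) ∧
      L.map (MulAut.conj g).toMonoidHom ≠ L := by
  obtain ⟨hZN, hO, hM, hMJ, hT, hTS, hK, hLmax, hKL⟩ := hB
  have hTg : T.map (MulAut.conj g).toMonoidHom = T :=
    Cfsg.Agent.H16.Uq.map_conj_of_mem_normalizer hgT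
  have hJg : (thompsonSubgroupOf 2 T).map (MulAut.conj g).toMonoidHom = thompsonSubgroupOf 2 T := by
    rw [Cfsg.Agent.H14.thompsonSubgroupOf_conj 2 g T, hTg]
  have hK0 : K.map (MulAut.conj g).toMonoidHom ∈ jComponentsZero T := by
    have h := Cfsg.Agent.H12.Uq.k0conj T K g hK.1
    rwa [hTg] at h
  have hKM : ¬ K.map (MulAut.conj g).toMonoidHom ≤ M := by
    intro hle
    apply hK.2.1
    intro k hk
    have h1 : g * k * g⁻¹ ∈ M := hle ⟨k, hk, rfl⟩
    have h2 : g⁻¹ * (g * k * g⁻¹) * g ∈ M := M.mul_mem (M.mul_mem (M.inv_mem hgM) h1) hgM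
    have h3 : g⁻¹ * (g * k * g⁻¹) * g = k := by group
    rwa [h3] at h2
  have hO2 : pCoreOf 2 (K.map (MulAut.conj g).toMonoidHom ⊔ T) ≠ ⊥ := by
    have e1 : K.map (MulAut.conj g).toMonoidHom ⊔ T = (K ⊔ T).map (MulAut.conj g).toMonoidHom := by
      rw [Subgroup.map_sup, hTg]
    rw [e1, Cfsg.Agent.H51.pCoreOf_map 2 (K ⊔ T) (MulAut.conj g)]
    intro hbot
    apply hK.2.2
    exact (Subgroup.map_eq_bot_iff_of_injective _ (MulAut.conj g).injective).mp hbot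
  have hL' : IsMaximalTwoLocal (L.map (MulAut.conj g).toMonoidHom) :=
    Cfsg.Agent.H16.Jz.isMaximalTwoLocal_map_conj hLmax g
  have hKL' : K.map (MulAut.conj g).toMonoidHom ⊔ thompsonSubgroupOf 2 T ≤
      L.map (MulAut.conj g).toMonoidHom := by
    have h := Subgroup.map_mono (f := (MulAut.conj g).toMonoidHom) hKL
    rwa [Subgroup.map_sup, hJg] at h
  refine ⟨⟨hZN, hO, hM, hMJ, hT, hTS, ⟨hK0, hKM, hO2⟩, hL', hKL'⟩, ?_⟩
  intro heq
  have hgN : g ∈ Subgroup.normalizer (L : Set G) :=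
    Cfsg.Agent.H16.Uq.mem_normalizer_of_map_conj heq
  exact hgL (Cfsg.Agent.H16.Jz.normalizer_le_of_isMaximalTwoLocal hLmax hgN)

/-- JY-CONJ in the existential form of post 11029. -/
theorem conj_exists {G : Type u} [Group G] [Finite G] (S : Sylow 2 G) (M T K L : Subgroup G)
    (hB : Base S M T K L) (g : G) (hgM : g ∈ M)
    (hgT : g ∈ Subgroup.normalizer (T : Set G)) (hgL : g ∉ L) :
    ∃ K2 L2 : Subgroup G, Base S M T K2 L2 ∧ L2 ≠ L :=
  ⟨_, _, conj_core S M T K L hB g hgM hgT hgL⟩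

/-- **JY-CONJ** (exact Prop of `H64.JyDefs`). -/
theorem conj : Cfsg.Agent.H64.Jy.StConj.{u} := by
  intro G _ _ S M T K L hB g hgM hgT hgL
  exact conj_exists S M T K L hB g hgM hgT hgL

example : Cfsg.Agent.H64.Jy.StConj.{u} := conj

end Cfsg.Agent.H16.Jy
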