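import Mathlib

/-!
# Near-fields over a commutative additive group: basic facts (helper16)

`IsNF R` packages the near-field axioms for a type carrying `AddCommGroup` and `Monoid`
structures.  This file contains elementary consequences, the embedding of the prime field
units, a counting lemma for additive involutions (`kt_invol_square`) and a purely group
theoretic lemma (`kt_grp`) producing an abelian normal `2`-complement.
-/

set_option autoImplicit false

namespace Cfsg.Agent.H16

/-- Near-field axioms over a commutative additive group. -/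
structure IsNF (R : Type*) [AddCommGroup R] [Monoid R] : Prop where
  rd : ∀ a b c : R, (a + b) * c = a * c + b * c
  mz : ∀ a : R, a * 0 = 0
  ne : (0 : R) ≠ 1
  inv : ∀ a : R, a ≠ 0 → ∃ b : R, a * b = 1 ∧ b * a = 1

theorem kt_no_two_torsion {A : Type*} [AddCommGroup A] [Finite A] (hodd : Odd (Nat.card A))
    (x : A) (h : x + x = 0) : x = 0 := by
  have h1 : addOrderOf x ∣ 2 := addOrderOf_dvd_of_nsmul_eq_zero (by rw [two_nsmul]; exact h)
  have h2 : addOrderOf x ∣ Nat.card A := addOrderOf_dvd_natCard x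
  have h3 : addOrderOf x ∣ Nat.gcd 2 (Nat.card A) := Nat.dvd_gcd h1 h2
  have h4 : Nat.gcd 2 (Nat.card A) = 1 := Nat.coprime_two_left.mpr hodd
  rw [h4] at h3
  exact AddMonoid.addOrderOf_eq_one_iff.mp (Nat.dvd_one.mp h3)

namespace IsNF

variable {R : Type*} [AddCommGroup R] [Monoid R] (hR : IsNF R)
include hR

theorem zm (a : R) : (0 : R) * a = 0 := by
  have h := hR.rd 0 0 a
  rw [add_zero] at h
  exact left_eq_add.mp h

theorem neg_mul' (x a : R) : (-x) * a = -(x * a) := by
  have h := hR.rd x (-x) a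
  rw [add_neg_cancel, hR.zm] at h
  exact eq_neg_of_add_eq_zero_right h.symm

theorem sub_mul' (x y a : R) : (x - y) * a = x * a - y * a := by
  rw [sub_eq_add_neg, hR.rd, hR.neg_mul', ← sub_eq_add_neg]

theorem nsmul_mul' (n : ℕ) (x a : R) : (n • x) * a = n • (x * a) := by
  induction n with
  | zero => simp [hR.zm]
  | succ n ih => rw [succ_nsmul, hR.rd, ih, succ_nsmul]

theorem mul_ne_zero' {a b : R} (ha : a ≠ 0) (hb : b ≠ 0) : a * b ≠ 0 := by
  intro h
  obtain ⟨a', -, h2⟩ := hR.inv a ha
  apply hb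
  have : a' * (a * b) = b := by rw [← mul_assoc, h2, one_mul]
  rw [← this, h, hR.mz]

theorem unit_ne_zero (u : Rˣ) : (u : R) ≠ 0 := by
  intro h
  have := u.mul_inv
  rw [h, hR.zm] at this
  exact hR.ne this

theorem exists_unit (x : R) (hx : x ≠ 0) : ∃ u : Rˣ, (u : R) = x := by
  obtain ⟨y, h1, h2⟩ := hR.inv x hx
  exact ⟨⟨x, y, h1, h2⟩, rfl⟩

theorem neg_one_mul' (x : R) : (-1 : R) * x = -x := by
  rw [hR.neg_mul', one_mul]

theorem neg_one_sq : (-1 : R) * (-1) = 1 := by
  rw [hR.neg_one_mul', neg_neg]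

theorem neg_one_ne_zero : (-1 : R) ≠ 0 := by
  intro h
  have := hR.neg_one_sq
  rw [h, hR.mz] at this
  exact hR.ne this

/-- `-1` as a unit. -/
def negOne : Rˣ := ⟨-1, -1, hR.neg_one_sq, hR.neg_one_sq⟩

theorem negOne_val : ((hR.negOne : Rˣ) : R) = -1 := rfl

theorem one_add_one_ne [Finite R] (hodd : Odd (Nat.card R)) : (1 : R) + 1 ≠ 0 := fun h =>
  hR.ne (kt_no_two_torsion hodd 1 h).symm

theorem neg_one_ne_one [Finite R] (hodd : Odd (Nat.card R)) : (-1 : R) ≠ 1 := by
  intro h
  apply hR.one_add_one_ne hodd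
  calc (1 : R) + 1 = 1 + (-1) := by rw [h]
    _ = 0 := add_neg_cancel 1

theorem sq_eq_one {a : R} (h : a * a = 1) : a = 1 ∨ a = -1 := by
  by_cases h0 : 1 + a = 0
  · right; exact eq_neg_of_add_eq_zero_right h0
  · left
    obtain ⟨y, -, hy⟩ := hR.inv _ h0
    have h1 : (1 + a) * a = 1 + a := by rw [hR.rd, one_mul, h, add_comm]
    calc a = (y * (1 + a)) * a := by rw [hy, one_mul]
      _ = y * ((1 + a) * a) := mul_assoc _ _ _
      _ = 1 := by rw [h1, hy]

theorem mul_neg_one [Finite R] (hodd : Odd (Nat.card R)) (x : R) : x * (-1) = -x := by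
  by_cases hx : x = 0
  · rw [hx, hR.zm, neg_zero]
  obtain ⟨x', h1, h2⟩ := hR.inv x hx
  have hc : (x * (-1) * x') * (x * (-1) * x') = 1 := by
    calc (x * (-1) * x') * (x * (-1) * x') = x * (-1) * (x' * x) * (-1) * x' := by
          simp only [mul_assoc]
      _ = 1 := by rw [h2, mul_one, mul_assoc x, hR.neg_one_sq, mul_one, h1]
  rcases hR.sq_eq_one hc with h | h
  · exfalso
    have h3 : x * (-1) = x := by
      calc x * (-1) = x * (-1) * (x' * x) := by rw [h2, mul_one]
        _ = (x * (-1) * x') * x := by simp only [mul_assoc]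
        _ = x := by rw [h, one_mul]
    have h4 : (-1 : R) = 1 := by
      calc (-1 : R) = (x' * x) * (-1) := by rw [h2, one_mul]
        _ = x' * (x * (-1)) := mul_assoc _ _ _
        _ = 1 := by rw [h3, h2]
    exact hR.neg_one_ne_one hodd h4
  · calc x * (-1) = x * (-1) * (x' * x) := by rw [h2, mul_one]
      _ = (x * (-1) * x') * x := by simp only [mul_assoc]
      _ = -x := by rw [h, hR.neg_one_mul']

end IsNF

/-! ### The prime field units -/

section ZG

variable {R : Type*} [AddCommGroup R] [Monoid R]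

/-- the map `ZMod p → R`, `a ↦ a.val • 1`. -/
def zg (R : Type*) [AddCommGroup R] [Monoid R] (p : ℕ) (a : ZMod p) : R := a.val • (1 : R)

theorem zg_natCast {p : ℕ} (hexp : ∀ x : R, p • x = 0) (n : ℕ) :
    zg R p (n : ZMod p) = n • (1 : R) := by
  unfold zg
  rw [ZMod.val_natCast]
  conv_rhs => rw [← Nat.mod_add_div n p]
  rw [add_nsmul, mul_nsmul, hexp, nsmul_zero, add_zero]

theorem zg_mul (hR : IsNF R) {p : ℕ} [Fact p.Prime] (hexp : ∀ x : R, p • x = 0)
    (a b : ZMod p) : zg R p (a * b) = zg R p a * zg R p b := by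
  have ha : a = ((a.val : ℕ) : ZMod p) := (ZMod.natCast_zmod_val a).symm
  have hb : b = ((b.val : ℕ) : ZMod p) := (ZMod.natCast_zmod_val b).symm
  have hab : a * b = ((a.val * b.val : ℕ) : ZMod p) := by rw [Nat.cast_mul, ← ha, ← hb]
  rw [hab, zg_natCast hexp]
  unfold zg
  rw [hR.nsmul_mul', one_mul, mul_nsmul']

theorem zg_one {p : ℕ} [Fact p.Prime] : zg R p 1 = 1 := by
  unfold zg; rw [ZMod.val_one, one_nsmul]

theorem zg_injective (hR : IsNF R) {p : ℕ} [Fact p.Prime] (hexp : ∀ x : R, p • x = 0) :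
    Function.Injective (zg R p) := by
  intro a b hab
  unfold zg at hab
  have h1 : addOrderOf (1 : R) = p := addOrderOf_eq_prime (hexp 1) (Ne.symm hR.ne)
  have h2 := nsmul_eq_nsmul_iff_modEq.mp hab
  rw [h1] at h2
  exact ZMod.val_injective p (h2.eq_of_lt_of_lt (ZMod.val_lt a) (ZMod.val_lt b))

/-- the monoid hom `ZMod p →* R`. -/
def zgHom (hR : IsNF R) (p : ℕ) [Fact p.Prime] (hexp : ∀ x : R, p • x = 0) : ZMod p →* R where
  toFun := zg R p
  map_one' := zg_one
  map_mul' := zg_mul hR hexp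

end ZG

/-! ### Number theory -/

theorem kt_not_square {p f : ℕ} (hp : p.Prime) (hf : Odd f) (n : ℕ) : p ^ f ≠ n * n := by
  intro h
  have hd : n ∣ p ^ f := ⟨n, h⟩
  obtain ⟨i, -, rfl⟩ := (Nat.dvd_prime_pow hp).mp hd
  rw [← pow_add] at h
  have := Nat.pow_right_injective hp.two_le h
  obtain ⟨k, hk⟩ := hf
  omega

theorem kt_geom {p f : ℕ} (hp : Odd p) (hf : Odd f) :
    ∃ N, Odd N ∧ p ^ f - 1 = (p - 1) * N := by
  refine ⟨∑ i ∈ Finset.range f, p ^ i, ?_, ?_⟩
  · rw [Finset.odd_sum_iff_odd_card_odd]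
    have : (Finset.range f).filter (fun i => Odd (p ^ i)) = Finset.range f := by
      apply Finset.filter_true_of_mem
      intro i _
      exact hp.pow
    rw [this, Finset.card_range]
    exact hf
  · have key : ∀ n, (p - 1) * (∑ i ∈ Finset.range n, p ^ i) + 1 = p ^ n := by
      intro n
      induction n with
      | zero => simp
      | succ n ih =>
        obtain ⟨k, rfl⟩ : ∃ k, p = k + 1 := by
          obtain ⟨j, hj⟩ := hp
          exact ⟨2 * j, hj⟩
        rw [Finset.sum_range_succ, mul_add, add_right_comm, ih, pow_succ]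
        simp only [Nat.add_sub_cancel]
        ring
    rw [← key f]
    simp

/-! ### Additive involutions -/

theorem kt_invol_square {A : Type*} [AddCommGroup A] [Fintype A] (hodd : Odd (Fintype.card A))
    (ρ u : A → A) (hρa : ∀ x y, ρ (x + y) = ρ x + ρ y) (hua : ∀ x y, u (x + y) = u x + u y)
    (hρ : ∀ x, ρ (ρ x) = x) (hu : Function.Injective u)
    (hρu : ∀ x, ρ (u x) = -(u (ρ x))) : ∃ n : ℕ, Fintype.card A = n * n := by
  classical
  have hodd' : Odd (Nat.card A) := by rw [Nat.card_eq_fintype_card]; exact hodd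
  have h2 : ∀ z : A, z + z = 0 → z = 0 := kt_no_two_torsion hodd'
  have hρ0 : ρ 0 = 0 := by
    have := hρa 0 0
    rw [add_zero] at this
    exact left_eq_add.mp this
  have hu0 : u 0 = 0 := by
    have := hua 0 0
    rw [add_zero] at this
    exact left_eq_add.mp this
  have hρneg : ∀ x, ρ (-x) = -ρ x := by
    intro x
    have := hρa x (-x)
    rw [add_neg_cancel, hρ0] at this
    exact eq_neg_of_add_eq_zero_right this.symm
  have huneg : ∀ x, u (-x) = -u x := by
    intro x
    have := hua x (-x)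
    rw [add_neg_cancel, hu0] at this
    exact eq_neg_of_add_eq_zero_right this.symm
  have hρsub : ∀ x y, ρ (x - y) = ρ x - ρ y := by
    intro x y
    rw [sub_eq_add_neg, hρa, hρneg, ← sub_eq_add_neg]
  have h1 : Fintype.card {x : A // ρ x = x} ≤ Fintype.card {x : A // ρ x = -x} :=
    Fintype.card_le_of_injective (fun a => ⟨u a.1, by rw [hρu, a.2]⟩) (by
      intro a b h
      exact Subtype.ext (hu (congrArg Subtype.val h)))
  have h1' : Fintype.card {x : A // ρ x = -x} ≤ Fintype.card {x : A // ρ x = x} :=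
    Fintype.card_le_of_injective (fun a => ⟨u a.1, by rw [hρu, a.2, huneg, neg_neg]⟩) (by
      intro a b h
      exact Subtype.ext (hu (congrArg Subtype.val h)))
  have h3 : Fintype.card ({x : A // ρ x = x} × {x : A // ρ x = -x}) ≤ Fintype.card A :=
    Fintype.card_le_of_injective (fun ab => ab.1.1 + ab.2.1) (by
      rintro ⟨⟨a, ha⟩, ⟨b, hb⟩⟩ ⟨⟨a', ha'⟩, ⟨b', hb'⟩⟩ h
      have h : a + b = a' + b' := h
      have hz1 : a - a' = b' - b := by
        rw [sub_eq_sub_iff_add_eq_add, h, add_comm]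
      have hz2 : ρ (a - a') = a - a' := by rw [hρsub, ha, ha']
      have hz3 : ρ (a - a') = -(a - a') := by rw [hz1, hρsub, hb, hb']; abel
      have hz4 : a - a' = 0 := by
        apply h2
        have : a - a' = -(a - a') := hz2.symm.trans hz3
        calc a - a' + (a - a') = -(a - a') + (a - a') := by rw [← this]
          _ = 0 := neg_add_cancel _
      have hz5 : b' - b = 0 := by rw [← hz1, hz4]
      have e1 : a = a' := sub_eq_zero.mp hz4
      have e2 : b' = b := sub_eq_zero.mp hz5
      subst e1; subst e2; rfl)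
  have h4 : Fintype.card A ≤ Fintype.card ({x : A // ρ x = x} × {x : A // ρ x = -x}) :=
    Fintype.card_le_of_injective
      (fun x => (⟨x + ρ x, by rw [hρa, hρ, add_comm]⟩, ⟨x - ρ x, by rw [hρsub, hρ]; abel⟩)) (by
      intro x y h
      have e1 : x + ρ x = y + ρ y := congrArg (fun q => q.1.1) h
      have e2 : x - ρ x = y - ρ y := congrArg (fun q => q.2.1) h
      have e3 : (x - y) + (x - y) = 0 := by
        calc (x - y) + (x - y) = (x + ρ x) + (x - ρ x) - ((y + ρ y) + (y - ρ y)) := by abel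
          _ = 0 := by rw [e1, e2, sub_self]
      exact sub_eq_zero.mp (h2 _ e3))
  refine ⟨Fintype.card {x : A // ρ x = x}, ?_⟩
  rw [Fintype.card_prod] at h3 h4
  have e : Fintype.card {x : A // ρ x = -x} = Fintype.card {x : A // ρ x = x} :=
    le_antisymm h1' h1
  rw [e] at h3 h4
  exact le_antisymm h4 h3

end Cfsg.Agent.H16
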