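import Mathlib

/-!
# An abelian normal 2-complement from an involutory automorphism (helper16)

`kt_grp`: let `H` be a finite group with a unique involution `z`, `P ≤ H` of odd index with an
injective homomorphism into a commutative group of exponent dividing `2^k * m₀` (`m₀` odd), and
`α` an involutory automorphism of `H` whose fixed points are `1, z`.  Then `H` has an abelian
normal subgroup `M` with `H = M P` and `h ^ 2^k ∈ M` for all `h`.
-/

set_option autoImplicit false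

namespace Cfsg.Agent.H16

theorem kt_grp {H : Type*} [Group H] [Finite H] (z : H) (hz1 : z ≠ 1) (hzz : z * z = 1)
    (hzu : ∀ u : H, u * u = 1 → u = 1 ∨ u = z)
    (P : Subgroup H) (hPodd : Odd P.index)
    {A : Type*} [CommGroup A] (ϕ : P →* A) (hϕ : Function.Injective ϕ)
    (k m₀ : ℕ) (hm₀ : Odd m₀) (hA : ∀ a : A, a ^ (2 ^ k * m₀) = 1)
    (α : H →* H) (hαα : ∀ u, α (α u) = u) (hαfix : ∀ u, α u = u → u = 1 ∨ u = z) :
    ∃ M : Subgroup H, M.Normal ∧ (∀ a ∈ M, ∀ b ∈ M, a * b = b * a) ∧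
      (∀ h : H, ∃ m ∈ M, ∃ s ∈ P, h = m * s) ∧ (∀ h : H, h ^ (2 ^ k) ∈ M) := by
  classical
  -- `z` is central
  have hzc : ∀ g : H, z * g = g * z := by
    intro g
    have h1 : (g⁻¹ * z * g) * (g⁻¹ * z * g) = 1 := by
      calc (g⁻¹ * z * g) * (g⁻¹ * z * g) = g⁻¹ * (z * z) * g := by group
        _ = 1 := by rw [hzz]; group
    rcases hzu _ h1 with h | h
    · exfalso; apply hz1
      calc z = g * (g⁻¹ * z * g) * g⁻¹ := by group
        _ = 1 := by rw [h]; group
    · calc z * g = g * (g⁻¹ * z * g) := by group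
        _ = g * z := by rw [h]
  have hzpow : ∀ j : ℕ, z ^ (2 * j + 1) = z := by
    intro j
    rw [pow_succ, pow_mul, pow_two, hzz, one_pow, one_mul]
  let D : H →* A := MonoidHom.transfer ϕ
  have hDz : D z ≠ 1 := by
    have key : ∀ (j : ℕ) (g₀ : H), g₀⁻¹ * z ^ j * g₀ ∈ P → g₀⁻¹ * z ^ j * g₀ = z ^ j := by
      intro j g₀ _
      have hc : Commute z g₀ := hzc g₀
      have : z ^ j * g₀ = g₀ * z ^ j := (hc.pow_left j).eq
      rw [mul_assoc, this, inv_mul_cancel_left]
    have h1 : D z = ϕ ⟨z ^ P.index, _⟩ := MonoidHom.transfer_eq_pow ϕ z key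
    intro h2
    rw [h1] at h2
    have h3 := hϕ (h2.trans (map_one ϕ).symm)
    have h4 : z ^ P.index = 1 := congrArg Subtype.val h3
    obtain ⟨j, hj⟩ := hPodd
    rw [hj, hzpow] at h4
    exact hz1 h4
  let f : H →* A := (powMonoidHom m₀).comp D
  have hf : ∀ h, f h = (D h) ^ m₀ := fun h => rfl
  let M : Subgroup H := f.ker
  have hMn : M.Normal := MonoidHom.normal_ker f
  have hzM : z ∉ M := by
    intro h
    have h1 : (D z) ^ m₀ = 1 := h
    have h2 : (D z) ^ 2 = 1 := by rw [← map_pow, pow_two, hzz, map_one]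
    obtain ⟨j, hj⟩ := hm₀
    rw [hj, pow_succ, pow_mul, h2, one_pow, one_mul] at h1
    exact hDz h1
  have hM4 : ∀ h : H, h ^ (2 ^ k) ∈ M := by
    intro h
    show f (h ^ (2 ^ k)) = 1
    rw [map_pow, hf, ← pow_mul, Nat.mul_comm m₀ (2 ^ k), hA]
  have hModd : ∀ h ∈ M, Odd (orderOf h) := by
    intro h hh
    by_contra hne
    rw [Nat.not_odd_iff_even] at hne
    obtain ⟨j, hj⟩ := hne
    have hpos : 0 < orderOf h := orderOf_pos h
    have hj0 : j ≠ 0 := by omega
    have h1 : h ^ j * h ^ j = 1 := by rw [← pow_add, ← hj, pow_orderOf_eq_one]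
    have h2 : h ^ j ≠ 1 := pow_ne_one_of_lt_orderOf hj0 (by omega)
    rcases hzu _ h1 with h3 | h3
    · exact h2 h3
    · exact hzM (h3 ▸ M.pow_mem hh j)
  have hMof : ∀ h : H, Odd (orderOf h) → h ∈ M := by
    intro h hodd
    show f h = 1
    have h1 : (f h) ^ (2 ^ k) = 1 := by rw [← map_pow]; exact hM4 h
    have h2 : (f h) ^ (orderOf h) = 1 := by rw [← map_pow, pow_orderOf_eq_one, map_one]
    have h3 : orderOf (f h) ∣ Nat.gcd (2 ^ k) (orderOf h) :=
      Nat.dvd_gcd (orderOf_dvd_of_pow_eq_one h1) (orderOf_dvd_of_pow_eq_one h2)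
    have h4 : Nat.gcd (2 ^ k) (orderOf h) = 1 :=
      Nat.Coprime.pow_left k (Nat.coprime_two_left.mpr hodd)
    rw [h4] at h3
    exact orderOf_eq_one_iff.mp (Nat.dvd_one.mp h3)
  have hαinj : Function.Injective α := fun a b h => by rw [← hαα a, ← hαα b, h]
  have hαM : ∀ h ∈ M, α h ∈ M := by
    intro h hh
    apply hMof
    rw [orderOf_injective α hαinj]
    exact hModd h hh
  have hinv : ∀ m ∈ M, α m = m⁻¹ := by
    let ψ : M → M := fun b => ⟨(α b)⁻¹ * b, M.mul_mem (M.inv_mem (hαM b b.2)) b.2⟩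
    have hψ : Function.Injective ψ := by
      intro b c hbc
      have h1 : (α b)⁻¹ * (b : H) = (α c)⁻¹ * c := congrArg Subtype.val hbc
      have h2 : α ((c : H) * (b : H)⁻¹) = c * (b : H)⁻¹ := by
        rw [map_mul, map_inv]
        have h5 : α c * ((α b)⁻¹ * (b : H)) = c := by rw [h1, mul_inv_cancel_left]
        calc α c * (α b)⁻¹ = α c * ((α b)⁻¹ * (b : H)) * (b : H)⁻¹ := by group
          _ = c * (b : H)⁻¹ := by rw [h5]
      rcases hαfix _ h2 with h3 | h3
      · exact Subtype.ext (mul_inv_eq_one.mp h3).symm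
      · exact absurd (h3 ▸ M.mul_mem c.2 (M.inv_mem b.2)) hzM
    have hψs : Function.Surjective ψ := Finite.injective_iff_surjective.mp hψ
    intro m hm
    obtain ⟨b, hb⟩ := hψs ⟨m, hm⟩
    have hb' : (α b)⁻¹ * (b : H) = m := congrArg Subtype.val hb
    rw [← hb', map_mul, map_inv, hαα, mul_inv_rev, inv_inv]
  have hMc : ∀ a ∈ M, ∀ b ∈ M, a * b = b * a := by
    intro a ha b hb
    have h1 : α (a * b) = (a * b)⁻¹ := hinv _ (M.mul_mem ha hb)
    rw [map_mul, hinv a ha, hinv b hb, mul_inv_rev] at h1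
    have h2 := congrArg (·⁻¹) h1
    simp only [mul_inv_rev, inv_inv] at h2
    exact h2.symm
  have hMP : ∀ h : H, ∃ m ∈ M, ∃ s ∈ P, h = m * s := by
    have h1 : (M ⊔ P).index ∣ M.index := Subgroup.index_dvd_of_le le_sup_left
    have h2 : (M ⊔ P).index ∣ P.index := Subgroup.index_dvd_of_le le_sup_right
    have h3 : ∃ n, M.index = 2 ^ n := by
      have hp : IsPGroup 2 f.range := by
        rintro ⟨y, h, rfl⟩
        refine ⟨k, Subtype.ext ?_⟩
        show (f h) ^ (2 ^ k) = 1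
        rw [← map_pow]; exact hM4 h
      have : Fact (Nat.Prime 2) := ⟨Nat.prime_two⟩
      have : Finite f.range := Finite.of_surjective f.rangeRestrict f.rangeRestrict_surjective
      obtain ⟨n, hn⟩ := (IsPGroup.iff_card).mp hp
      exact ⟨n, by rw [← hn]; exact Subgroup.index_ker f⟩
    obtain ⟨n, hn⟩ := h3
    rw [hn] at h1
    have h4 : (M ⊔ P).index = 1 := by
      have hc : Nat.Coprime (2 ^ n) P.index :=
        Nat.Coprime.pow_left n (Nat.coprime_two_left.mpr hPodd)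
      exact Nat.eq_one_of_dvd_coprimes hc h1 h2
    have h5 : M ⊔ P = ⊤ := Subgroup.index_eq_one.mp h4
    intro h
    have h6 : h ∈ ((M ⊔ P : Subgroup H) : Set H) := by rw [h5]; trivial
    rw [Subgroup.normal_mul] at h6
    obtain ⟨m, hm, s, hs, rfl⟩ := Set.mem_mul.mp h6
    exact ⟨m, hm, s, hs, rfl⟩
  exact ⟨M, hMn, hMc, hMP, hM4⟩

end Cfsg.Agent.H16
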