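import Mathlib
import Cfsg.Agent.H16.KTBasic
import Cfsg.Agent.H16.KTGrp

/-!
# Finite KT-near-fields of odd degree over an odd prime field are fields (helper16)

Let `R` be a finite near-field of order `p ^ f`, `p` an odd prime, `f` odd, and `tt` an
involutory automorphism of its multiplicative group whose only fixed points are `±1`.
Then the multiplication of `R` is commutative (`kt_comm`).
-/

set_option autoImplicit false

namespace Cfsg.Agent.H16

theorem kt_tt_neg_one {R : Type*} [AddCommGroup R] [Monoid R] [Finite R] (hR : IsNF R)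
    (hodd : Odd (Nat.card R)) (tt : R → R) (h1 : tt 1 = 1)
    (h2 : ∀ x a, x ≠ 0 → a ≠ 0 → tt (x * a) = tt x * tt a)
    (h3 : ∀ x, x ≠ 0 → tt (tt x) = x) : tt (-1) = -1 := by
  have hn0 : (-1 : R) ≠ 0 := hR.neg_one_ne_zero
  have h5 : tt (-1) * tt (-1) = 1 := by rw [← h2 _ _ hn0 hn0, hR.neg_one_sq, h1]
  rcases hR.sq_eq_one h5 with h | h
  · exfalso
    have h6 := h3 (-1) hn0
    rw [h, h1] at h6
    exact hR.neg_one_ne_one hodd h6.symm
  · exact h

theorem kt_comm {R : Type*} [AddCommGroup R] [Monoid R] [Fintype R] (hR : IsNF R)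
    {p f : ℕ} (hp : p.Prime) (hp2 : p ≠ 2) (hf : Odd f) (hcard : Fintype.card R = p ^ f)
    (hexp : ∀ x : R, p • x = 0)
    (tt : R → R) (h1 : tt 1 = 1)
    (h2 : ∀ x a, x ≠ 0 → a ≠ 0 → tt (x * a) = tt x * tt a)
    (h3 : ∀ x, x ≠ 0 → tt (tt x) = x)
    (h4 : ∀ x, x ≠ 0 → tt x = x → x = 1 ∨ x = -1) :
    ∀ x a : R, x * a = a * x := by
  classical
  have : Fact p.Prime := ⟨hp⟩
  have hpodd : Odd p := hp.odd_of_ne_two hp2
  have hoddc : Odd (Nat.card R) := by rw [Nat.card_eq_fintype_card, hcard]; exact hpodd.pow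
  have hu0 : ∀ u : Rˣ, (u : R) ≠ 0 := hR.unit_ne_zero
  -- the number of units
  have hcardU : Nat.card Rˣ = p ^ f - 1 := by
    have hbij : Function.Bijective (fun u : Rˣ => (⟨(u : R), hu0 u⟩ : {x : R // ¬ (x = 0)})) := by
      constructor
      · intro u v h
        exact Units.ext (congrArg Subtype.val h)
      · rintro ⟨x, hx⟩
        obtain ⟨u, hu⟩ := hR.exists_unit x hx
        exact ⟨u, Subtype.ext hu⟩
    rw [Nat.card_eq_of_bijective _ hbij, Nat.card_eq_fintype_card, Fintype.card_subtype_compl,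
      Fintype.card_subtype_eq, hcard]
  -- the prime field units
  let ι : (ZMod p)ˣ →* Rˣ := Units.map (zgHom hR p hexp)
  have hιinj : Function.Injective ι := Units.map_injective (zg_injective hR hexp)
  let P : Subgroup Rˣ := ι.range
  have hPk : ∀ s ∈ P, ∃ k : ℕ, ((s : Rˣ) : R) = k • (1 : R) := by
    rintro s ⟨a, rfl⟩
    exact ⟨(a : ZMod p).val, rfl⟩
  have hPcard : Nat.card P = p - 1 := by
    rw [← Nat.card_congr (MonoidHom.ofInjective hιinj).toEquiv, Nat.card_eq_fintype_card,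
      ZMod.card_units]
  have hPidx : Odd P.index := by
    obtain ⟨N, hNodd, hN⟩ := kt_geom hpodd hf
    have h := P.index_mul_card
    rw [hPcard, hcardU, hN] at h
    have hp1 : 0 < p - 1 := by have := hp.two_le; omega
    have : P.index = N := by
      apply Nat.eq_of_mul_eq_mul_right hp1
      rw [h, mul_comm]
    rw [this]; exact hNodd
  have hPc : ∀ a ∈ P, ∀ b ∈ P, a * b = b * a := by
    rintro _ ⟨a, rfl⟩ _ ⟨b, rfl⟩
    rw [← map_mul, ← map_mul, mul_comm]
  let ϕ : P →* (ZMod p)ˣ := (MonoidHom.ofInjective hιinj).symm.toMonoidHom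
  have hϕ : Function.Injective ϕ := (MonoidHom.ofInjective hιinj).symm.injective
  obtain ⟨k, m₀, hm₀, hkm⟩ := Nat.exists_eq_two_pow_mul_odd (n := p - 1)
    (by have := hp.two_le; omega)
  have hA : ∀ a : (ZMod p)ˣ, a ^ (2 ^ k * m₀) = 1 := by
    intro a
    rw [← hkm]
    exact ZMod.units_pow_card_sub_one_eq_one p a
  -- the automorphism
  let α : Rˣ →* Rˣ :=
    { toFun := fun u => ⟨tt u, tt ((u⁻¹ : Rˣ) : R),
        by rw [← h2 _ _ (hu0 u) (hu0 u⁻¹), Units.mul_inv, h1],
        by rw [← h2 _ _ (hu0 u⁻¹) (hu0 u), Units.inv_mul, h1]⟩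
      map_one' := Units.ext h1
      map_mul' := fun u v => Units.ext (by
        show tt ((u * v : Rˣ) : R) = tt u * tt v
        rw [Units.val_mul]
        exact h2 _ _ (hu0 u) (hu0 v)) }
  have hαv : ∀ u : Rˣ, ((α u : Rˣ) : R) = tt u := fun u => rfl
  have hαα : ∀ u, α (α u) = u := fun u => Units.ext (by rw [hαv, hαv]; exact h3 _ (hu0 u))
  have hαfix : ∀ u, α u = u → u = 1 ∨ u = hR.negOne := by
    intro u hu
    have h5 : tt (u : R) = u := by rw [← hαv, hu]
    rcases h4 _ (hu0 u) h5 with h | h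
    · left; exact Units.ext h
    · right; exact Units.ext h
  have hz1 : hR.negOne ≠ 1 := fun h => hR.neg_one_ne_one hoddc (congrArg Units.val h)
  have hzz : hR.negOne * hR.negOne = 1 := Units.ext hR.neg_one_sq
  have hzu : ∀ u : Rˣ, u * u = 1 → u = 1 ∨ u = hR.negOne := by
    intro u hu
    have h5 : (u : R) * (u : R) = 1 := by rw [← Units.val_mul, hu, Units.val_one]
    rcases hR.sq_eq_one h5 with h | h
    · left; exact Units.ext h
    · right; exact Units.ext h
  obtain ⟨M, hMn, hMc, hMP, hM4⟩ :=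
    kt_grp hR.negOne hz1 hzz hzu P hPidx ϕ hϕ k m₀ hm₀ hA α hαα hαfix
  -- elements of `P` commuting with `M` are central
  have hcen : ∀ s ∈ P, (∀ m ∈ M, s * m = m * s) → ∀ x : R, x * (s : R) = (s : R) * x := by
    intro s hs hsm x
    by_cases hx : x = 0
    · rw [hx, hR.zm, hR.mz]
    obtain ⟨u, rfl⟩ := hR.exists_unit x hx
    obtain ⟨m, hm, s', hs', rfl⟩ := hMP u
    have h5 : (m * s') * s = s * (m * s') := by
      rw [mul_assoc, hPc s' hs' s hs, ← mul_assoc, ← hsm m hm, mul_assoc]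
    have h6 := congrArg Units.val h5
    rw [Units.val_mul, Units.val_mul s] at h6
    exact h6
  -- the key step
  have hstep : ∀ s ∈ P, (∀ m ∈ M, (s * s) * m = m * (s * s)) → ∀ m ∈ M, s * m = m * s := by
    intro s hs hs2 m hm
    by_contra hne
    have hc := hcen (s * s) (P.mul_mem hs hs) hs2
    obtain ⟨k', hk'⟩ := hPk s⁻¹ (P.inv_mem hs)
    have hsl : ∀ x : R, ((s⁻¹ : Rˣ) : R) * x = k' • x := by
      intro x; rw [hk', hR.nsmul_mul', one_mul]
    have hm' : s⁻¹ * m * s ∈ M := by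
      have := hMn.conj_mem m hm s⁻¹
      rwa [inv_inv] at this
    have hρa : ∀ x y : R, ((s⁻¹ : Rˣ) : R) * (x + y) * (s : R)
        = ((s⁻¹ : Rˣ) : R) * x * (s : R) + ((s⁻¹ : Rˣ) : R) * y * (s : R) := by
      intro x y
      rw [hsl, hsl, hsl, nsmul_add, hR.rd]
    have hua : ∀ x y : R, (x + y) * (m : R) - (x + y) * ((s⁻¹ * m * s : Rˣ) : R)
        = (x * (m : R) - x * ((s⁻¹ * m * s : Rˣ) : R))
          + (y * (m : R) - y * ((s⁻¹ * m * s : Rˣ) : R)) := by
      intro x y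
      rw [hR.rd, hR.rd]; abel
    have hρρ : ∀ x : R, ((s⁻¹ : Rˣ) : R) * (((s⁻¹ : Rˣ) : R) * x * (s : R)) * (s : R) = x := by
      intro x
      have h5 : x * ((s : R) * (s : R)) = (s : R) * (s : R) * x := by
        have := hc x; rwa [Units.val_mul] at this
      calc ((s⁻¹ : Rˣ) : R) * (((s⁻¹ : Rˣ) : R) * x * (s : R)) * (s : R)
          = ((s⁻¹ : Rˣ) : R) * ((s⁻¹ : Rˣ) : R) * (x * ((s : R) * (s : R))) := by
            simp only [mul_assoc]
        _ = ((s⁻¹ : Rˣ) : R) * ((s⁻¹ : Rˣ) : R) * ((s : R) * (s : R) * x) := by rw [h5]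
        _ = ((s⁻¹ : Rˣ) : R) * (((s⁻¹ : Rˣ) : R) * (s : R)) * (s : R) * x := by
            simp only [mul_assoc]
        _ = x := by rw [Units.inv_mul, mul_one, Units.inv_mul, one_mul]
    have huinj : Function.Injective
        (fun x : R => x * (m : R) - x * ((s⁻¹ * m * s : Rˣ) : R)) := by
      intro x y hxy
      have h5 : x * (m : R) - x * ((s⁻¹ * m * s : Rˣ) : R)
          = y * (m : R) - y * ((s⁻¹ * m * s : Rˣ) : R) := hxy
      have h6 : (x - y) * (m : R) = (x - y) * ((s⁻¹ * m * s : Rˣ) : R) := by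
        rw [hR.sub_mul', hR.sub_mul']
        calc x * (m : R) - y * (m : R)
            = (x * (m : R) - x * ((s⁻¹ * m * s : Rˣ) : R))
              - (y * (m : R) - y * ((s⁻¹ * m * s : Rˣ) : R))
              + (x * ((s⁻¹ * m * s : Rˣ) : R) - y * ((s⁻¹ * m * s : Rˣ) : R)) := by abel
          _ = x * ((s⁻¹ * m * s : Rˣ) : R) - y * ((s⁻¹ * m * s : Rˣ) : R) := by
            rw [h5]; abel
      by_contra hxy'
      have hd : x - y ≠ 0 := sub_ne_zero.mpr hxy'
      obtain ⟨d, -, hd2⟩ := hR.inv _ hd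
      have h7 : (m : R) = ((s⁻¹ * m * s : Rˣ) : R) := by
        calc (m : R) = d * ((x - y) * (m : R)) := by rw [← mul_assoc, hd2, one_mul]
          _ = d * ((x - y) * ((s⁻¹ * m * s : Rˣ) : R)) := by rw [h6]
          _ = ((s⁻¹ * m * s : Rˣ) : R) := by rw [← mul_assoc, hd2, one_mul]
      apply hne
      have h8 : m = s⁻¹ * m * s := Units.ext h7
      calc s * m = s * (s⁻¹ * m * s) := by rw [← h8]
        _ = m * s := by group
    have hρm : ∀ (y : R) (n : Rˣ), ((s⁻¹ : Rˣ) : R) * (y * (n : R)) * (s : R)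
        = ((s⁻¹ : Rˣ) : R) * y * (s : R) * ((s⁻¹ * n * s : Rˣ) : R) := by
      intro y n
      simp only [Units.val_mul, mul_assoc, Units.mul_inv_cancel_left]
    have hρsub : ∀ a b : R, ((s⁻¹ : Rˣ) : R) * (a - b) * (s : R)
        = ((s⁻¹ : Rˣ) : R) * a * (s : R) - ((s⁻¹ : Rˣ) : R) * b * (s : R) := by
      intro a b
      have := hρa (a - b) b
      rw [sub_add_cancel] at this
      rw [this, add_sub_cancel_right]
    have hm'' : s⁻¹ * (s⁻¹ * m * s) * s = m := by
      have h5 := hs2 m hm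
      calc s⁻¹ * (s⁻¹ * m * s) * s = (s * s)⁻¹ * (m * (s * s)) := by group
        _ = (s * s)⁻¹ * ((s * s) * m) := by rw [h5]
        _ = m := by group
    have hρu : ∀ x : R,
        ((s⁻¹ : Rˣ) : R) * (x * (m : R) - x * ((s⁻¹ * m * s : Rˣ) : R)) * (s : R)
        = -((((s⁻¹ : Rˣ) : R) * x * (s : R)) * (m : R)
            - (((s⁻¹ : Rˣ) : R) * x * (s : R)) * ((s⁻¹ * m * s : Rˣ) : R)) := by
      intro x
      rw [hρsub, hρm, hρm, hm'']
      abel
    obtain ⟨n, hn⟩ := kt_invol_square (by rw [← Nat.card_eq_fintype_card]; exact hoddc)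
      (fun x : R => ((s⁻¹ : Rˣ) : R) * x * (s : R))
      (fun x : R => x * (m : R) - x * ((s⁻¹ * m * s : Rˣ) : R)) hρa hua hρρ huinj hρu
    exact kt_not_square hp hf n (hcard ▸ hn)
  -- `P` commutes with `M`
  have hPM : ∀ i : ℕ, ∀ s ∈ P, s ^ (2 ^ i) ∈ M → ∀ m ∈ M, s * m = m * s := by
    intro i
    induction i with
    | zero =>
      intro s _ hsM m hm
      rw [pow_zero, pow_one] at hsM
      exact hMc s hsM m hm
    | succ i ih =>
      intro s hs hsM m hm
      apply hstep s hs _ m hm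
      apply ih (s * s) (P.mul_mem hs hs)
      rw [← pow_two, ← pow_mul, ← pow_succ']
      exact hsM
  have hPM' : ∀ s ∈ P, ∀ m ∈ M, s * m = m * s := fun s hs => hPM k s hs (hM4 s)
  have hU : ∀ u v : Rˣ, u * v = v * u := by
    intro u v
    obtain ⟨m, hm, s, hs, rfl⟩ := hMP u
    obtain ⟨m', hm', s', hs', rfl⟩ := hMP v
    calc m * s * (m' * s') = m * (s * m') * s' := by group
      _ = m * (m' * s) * s' := by rw [hPM' s hs m' hm']
      _ = (m * m') * (s * s') := by group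
      _ = (m' * m) * (s' * s) := by rw [hMc m hm m' hm', hPc s hs s' hs']
      _ = m' * (m * s') * s := by group
      _ = m' * (s' * m) * s := by rw [hPM' s' hs' m hm]
      _ = m' * s' * (m * s) := by group
  intro x a
  by_cases hx : x = 0
  · rw [hx, hR.zm, hR.mz]
  by_cases ha : a = 0
  · rw [ha, hR.zm, hR.mz]
  obtain ⟨u, rfl⟩ := hR.exists_unit x hx
  obtain ⟨v, rfl⟩ := hR.exists_unit a ha
  rw [← Units.val_mul, ← Units.val_mul, hU]

/-- In a commutative finite near-field of odd order, an involutory multiplicative map `tt` with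
fixed points `±1` satisfying the Kerby–Tits identity is the inversion. -/
theorem kt_inv {R : Type*} [AddCommGroup R] [Monoid R] [Finite R] (hR : IsNF R)
    (hodd : Odd (Nat.card R)) (hcomm : ∀ x a : R, x * a = a * x)
    (tt : R → R) (h0 : ∀ x, x ≠ 0 → tt x ≠ 0) (h1 : tt 1 = 1)
    (h2 : ∀ x a, x ≠ 0 → a ≠ 0 → tt (x * a) = tt x * tt a)
    (h3 : ∀ x, x ≠ 0 → tt (tt x) = x)
    (h4 : ∀ x, x ≠ 0 → tt x = x → x = 1 ∨ x = -1)
    (h5 : ∀ x, x ≠ 0 → x ≠ -1 → tt (1 - tt (x + 1)) = tt x + 1) :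
    ∀ x, x ≠ 0 → tt x * x = 1 := by
  have hld : ∀ a b c : R, a * (b + c) = a * b + a * c := by
    intro a b c
    rw [hcomm a (b + c), hR.rd, hcomm b a, hcomm c a]
  have hn1 : (-1 : R) ≠ 1 := hR.neg_one_ne_one hodd
  have htn : tt (-1) = -1 := kt_tt_neg_one hR hodd tt h1 h2 h3
  have gn : tt (-1 : R) * (-1) = 1 := by rw [htn, hR.neg_one_sq]
  have gmul : ∀ x y : R, x ≠ 0 → y ≠ 0 → tt x * x = 1 → tt y * y = 1 →
      tt (x * y) * (x * y) = 1 := by
    intro x y hx hy gx gy
    rw [h2 x y hx hy]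
    calc tt x * tt y * (x * y) = tt x * (tt y * x) * y := by simp only [mul_assoc]
      _ = tt x * (x * tt y) * y := by rw [hcomm (tt y) x]
      _ = (tt x * x) * (tt y * y) := by simp only [mul_assoc]
      _ = 1 := by rw [gx, gy, mul_one]
  have ginv : ∀ x x' : R, x ≠ 0 → x * x' = 1 → tt x * x = 1 → tt x' * x' = 1 := by
    intro x x' hx hxx' gx
    have hx' : x' ≠ 0 := by
      intro h; rw [h, hR.mz] at hxx'; exact hR.ne hxx'
    have h6 : tt x * tt x' = 1 := by rw [← h2 x x' hx hx', hxx', h1]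
    have h7 : tt x' = x := by
      calc tt x' = (x * tt x) * tt x' := by rw [hcomm x (tt x), gx, one_mul]
        _ = x * (tt x * tt x') := mul_assoc _ _ _
        _ = x := by rw [h6, mul_one]
    rw [h7, hxx']
  have gstep : ∀ x : R, x ≠ 0 → x ≠ -1 → tt x * x = 1 → tt (x + 1) * (x + 1) = 1 := by
    intro x hx hx1 gx
    have hu : x + 1 ≠ 0 := fun h => hx1 (eq_neg_of_add_eq_zero_left h)
    have hv1 : tt (x + 1) ≠ 1 := by
      intro h
      have h6 := h3 _ hu
      rw [h, h1] at h6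
      exact hx (right_eq_add.mp h6)
    have hw : 1 - tt (x + 1) ≠ 0 := sub_ne_zero.mpr (Ne.symm hv1)
    have h6 := h5 x hx hx1
    have h7 : tt x + 1 = tt x * (x + 1) := by rw [hld, gx, mul_one, add_comm]
    have h8 : tt (tt x + 1) = x * tt (x + 1) := by
      rw [h7, h2 _ _ (h0 x hx) hu, h3 x hx]
    have h9 : 1 - tt (x + 1) = x * tt (x + 1) := by
      rw [← h8, ← h6, h3 _ hw]
    have h10 : (x + 1) * tt (x + 1) = 1 := by
      rw [hR.rd, one_mul, ← h9]; abel
    rw [hcomm]; exact h10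
  have gadd : ∀ a b : R, (a = 0 ∨ tt a * a = 1) → (b = 0 ∨ tt b * b = 1) →
      (a + b = 0 ∨ tt (a + b) * (a + b) = 1) := by
    intro a b ha hb
    by_cases ha0 : a = 0
    · rw [ha0, zero_add]; exact hb
    by_cases hb0 : b = 0
    · rw [hb0, add_zero]; exact ha
    have ga : tt a * a = 1 := ha.resolve_left ha0
    have gb : tt b * b = 1 := hb.resolve_left hb0
    obtain ⟨b', hb1, hb2⟩ := hR.inv b hb0
    have hb'0 : b' ≠ 0 := by
      intro h; rw [h, hR.mz] at hb1; exact hR.ne hb1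
    have gb' : tt b' * b' = 1 := ginv b b' hb0 hb1 gb
    have hc0 : a * b' ≠ 0 := hR.mul_ne_zero' ha0 hb'0
    have gc : tt (a * b') * (a * b') = 1 := gmul a b' ha0 hb'0 ga gb'
    have hcb : a * b' * b = a := by rw [mul_assoc, hb2, mul_one]
    by_cases hc1 : a * b' = -1
    · left
      rw [hc1, hR.neg_one_mul'] at hcb
      rw [← hcb, neg_add_cancel]
    · right
      have gs := gstep (a * b') hc0 hc1 gc
      have hs0 : a * b' + 1 ≠ 0 := fun h => hc1 (eq_neg_of_add_eq_zero_left h)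
      have h6 := gmul (a * b' + 1) b hs0 hb0 gs gb
      rw [hR.rd, hcb, one_mul] at h6
      exact h6
  intro x hx
  by_contra hbad
  have hbadv : ∀ y : R, y ≠ 0 → tt y * y ≠ 1 → tt y * y = -1 := by
    intro y hy hyb
    have hty := h0 y hy
    have he0 : tt y * y ≠ 0 := hR.mul_ne_zero' hty hy
    have he : tt (tt y * y) = tt y * y := by
      rw [h2 _ _ hty hy, h3 y hy, hcomm]
    rcases h4 _ he0 he with h | h
    · exact absurd h hyb
    · exact h
  have hy0 : x + 1 ≠ 0 := by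
    intro h
    have h6 : x = -1 := eq_neg_of_add_eq_zero_left h
    rw [h6] at hbad
    exact hbad gn
  have hyb : tt (x + 1) * (x + 1) ≠ 1 := by
    intro h
    have h6 := gadd (x + 1) (-1) (Or.inr h) (Or.inr gn)
    rw [add_neg_cancel_right] at h6
    rcases h6 with h | h
    · exact hx h
    · exact hbad h
  have hey : tt (x + 1) * (x + 1) = -1 := hbadv _ hy0 hyb
  obtain ⟨x', hx1, hx2⟩ := hR.inv x hx
  have hx'0 : x' ≠ 0 := by
    intro h; rw [h, hR.mz] at hx1; exact hR.ne hx1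
  have hex' : tt x' * x' = -1 := by
    apply hbadv x' hx'0
    intro h
    exact hbad (ginv x' x hx'0 hx2 h)
  have hw0 : (x + 1) * x' ≠ 0 := hR.mul_ne_zero' hy0 hx'0
  have gw : tt ((x + 1) * x') * ((x + 1) * x') = 1 := by
    rw [h2 _ _ hy0 hx'0]
    calc tt (x + 1) * tt x' * ((x + 1) * x') = tt (x + 1) * (tt x' * (x + 1)) * x' := by
          simp only [mul_assoc]
      _ = tt (x + 1) * ((x + 1) * tt x') * x' := by rw [hcomm (tt x') (x + 1)]
      _ = (tt (x + 1) * (x + 1)) * (tt x' * x') := by simp only [mul_assoc]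
      _ = 1 := by rw [hey, hex', hR.neg_one_sq]
  have hw : (x + 1) * x' = 1 + x' := by rw [hR.rd, hx1, one_mul]
  rw [hw] at gw
  have h6 := gadd (1 + x') (-1) (Or.inr gw) (Or.inr gn)
  have e : 1 + x' + -1 = x' := by abel
  rw [e] at h6
  rcases h6 with h | h
  · exact hx'0 h
  · rw [hex'] at h
    exact hn1 h

end Cfsg.Agent.H16
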