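import Mathlib
import Cfsg.Agent.H16.Centralizer

set_option autoImplicit false

namespace Cfsg.Agent.H16

open MulAction

variable {α : Type*}

/-- Two distinct minimal normal subgroups are disjoint. -/
theorem disjoint_of_minimal_normal {H : Type*} [Group H] (M L : Subgroup H) [M.Normal] [L.Normal]
    (hMmin : ∀ K : Subgroup H, K.Normal → K ≤ M → K = ⊥ ∨ K = M)
    (hLmin : ∀ K : Subgroup H, K.Normal → K ≤ L → K = ⊥ ∨ K = L)
    (hne : M ≠ L) : Disjoint M L := by
  rw [disjoint_iff]
  rcases hLmin (M ⊓ L) inferInstance inf_le_right with h | h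
  · exact h
  · have hLM : L ≤ M := by rw [← h]; exact inf_le_left
    rcases hMmin L inferInstance hLM with h' | h'
    · rw [h']; simp
    · exact absurd h'.symm hne

theorem isPretransitive_map_subtype (G : Subgroup (Equiv.Perm α)) (M : Subgroup G)
    [h : MulAction.IsPretransitive M α] : MulAction.IsPretransitive (M.map G.subtype) α := by
  refine ⟨fun a b => ?_⟩
  obtain ⟨m, hm⟩ := MulAction.exists_smul_eq M a b
  exact ⟨⟨((m : G) : Equiv.Perm α), ⟨(m : G), m.2, rfl⟩⟩, hm⟩

theorem map_le_centralizer_of_commute (G : Subgroup (Equiv.Perm α)) (M N : Subgroup G)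
    (h : ∀ m ∈ M, ∀ n ∈ N, Commute m n) :
    N.map G.subtype ≤ Subgroup.centralizer ((M.map G.subtype : Subgroup (Equiv.Perm α)) : Set (Equiv.Perm α)) := by
  rintro _ ⟨n, hn, rfl⟩ _ ⟨m, hm, rfl⟩
  have := h m hm n hn
  have h2 := congrArg (G.subtype) this.eq
  simpa using h2

/-- A transitive subgroup of the centraliser of a transitive group is the whole centraliser. -/
theorem centralizer_eq_of_transitive_le (P Q : Subgroup (Equiv.Perm α)) [MulAction.IsPretransitive P α]
    [MulAction.IsPretransitive Q α]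
    (h : Q ≤ Subgroup.centralizer (P : Set (Equiv.Perm α))) :
    Subgroup.centralizer (P : Set (Equiv.Perm α)) = Q := by
  apply le_antisymm _ h
  intro c hc
  by_cases hα : Nonempty α
  · obtain ⟨a⟩ := hα
    obtain ⟨q, hq⟩ := MulAction.exists_smul_eq Q a (c a)
    have : (q : Equiv.Perm α) = c := centralizer_eq_of_apply_eq P (h q.2) hc hq
    rw [← this]; exact q.2
  · have : c = 1 := by
      ext x
      exact absurd ⟨x⟩ hα
    rw [this]; exact Subgroup.one_mem _

/-- A subgroup of `G ≤ Sym(α)` whose image lies in the centraliser of a transitive group is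
semiregular. -/
theorem stabilizer_eq_bot_of_map_le_centralizer (G : Subgroup (Equiv.Perm α)) (M : Subgroup G)
    (P : Subgroup (Equiv.Perm α)) [MulAction.IsPretransitive P α]
    (h : M.map G.subtype ≤ Subgroup.centralizer (P : Set (Equiv.Perm α))) (a : α) :
    MulAction.stabilizer M a = ⊥ := by
  rw [eq_bot_iff]
  intro m hm
  rw [Subgroup.mem_bot]
  have h1 : ((m : G) : Equiv.Perm α) ∈ Subgroup.centralizer (P : Set (Equiv.Perm α)) :=
    h ⟨(m : G), m.2, rfl⟩
  have h2 : ((m : G) : Equiv.Perm α) = 1 := centralizer_semiregular P h1 (a := a) hm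
  apply Subtype.ext
  apply Subtype.ext
  exact h2

theorem le_of_map_subtype_le {H : Type*} [Group H] (G : Subgroup H) (L M : Subgroup G)
    (h : L.map G.subtype ≤ M.map G.subtype) : L ≤ M := by
  intro x hx
  obtain ⟨y, hy, hxy⟩ := h ⟨x, hx, rfl⟩
  have : y = x := Subtype.ext hxy
  rwa [← this]

end Cfsg.Agent.H16
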