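import Cfsg.Agent.H90.NSLam
import Cfsg.Agent.H86.FusGroup

/-!
# S5121-A6: `B₁` is a normal subgroup containing `T`
-/

set_option autoImplicit false

namespace Cfsg.Agent.H16.NS

open Cfsg Cfsg.FusionSystem Cfsg.Agent.H86 Cfsg.Agent.H90.NS

universe u

theorem a6 : A6Stmt.{u} := by
  intro G _ _ p _ S T E hyp hsc hRn hAN
  classical
  obtain ⟨-, hTS, -⟩ := hyp
  have hRT : rSub p T ≤ T := inf_le_left
  have hRS : rSub p T ≤ (S : Subgroup G) := hRT.trans hTS
  -- closure properties of b1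
  have h_one : (1 : G) ∈ b1 p T E := by
    refine ⟨qr_one p T, ?_⟩
    exact Mor.conj E hRT T.one_mem
  have h_mul : ∀ g h : G, g ∈ b1 p T E → h ∈ b1 p T E → g * h ∈ b1 p T E := by
    intro g h hg hh
    refine ⟨qr_mul hRn hg.1 hh.1, ?_⟩
    have h1 := hh.2.comp hg.2 (fun x hx => hRn.conj_mem x hx h)
    refine h1.congr ?_
    intro x _
    simp only [Function.comp]
    group
  have h_pow : ∀ (g : G) (n : ℕ), g ∈ b1 p T E → g ^ n ∈ b1 p T E := by
    intro g n hg
    induction n with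
    | zero => rw [pow_zero]; exact h_one
    | succ n ih => rw [pow_succ]; exact h_mul _ _ ih hg
  have h_inv : ∀ g : G, g ∈ b1 p T E → g⁻¹ ∈ b1 p T E := by
    intro g hg
    rw [inv_eq_pow_card]
    exact h_pow g _ hg
  obtain ⟨B, hB⟩ : ∃ B : Subgroup G, (B : Set G) = b1 p T E :=
    ⟨{ carrier := b1 p T E
       mul_mem' := fun {a b} ha hb => h_mul a b ha hb
       one_mem' := h_one
       inv_mem' := fun {a} ha => h_inv a ha }, rfl⟩
  have hBeq : bSub p T E = B := by
    unfold bSub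
    rw [← hB]
    exact Subgroup.closure_eq B
  have hmem : ∀ g : G, g ∈ bSub p T E ↔ g ∈ b1 p T E := by
    intro g
    rw [hBeq, ← hB]
    rfl
  refine ⟨?_, ?_, ?_⟩
  · rw [hBeq, hB]
  · constructor
    intro g hg x
    rw [hmem] at hg ⊢
    refine ⟨qr_conj hRn hg.1 x, ?_⟩
    -- α : the automorphism of R induced by g
    have himgα : imgS (rSub p T) (fun y => g * y * g⁻¹) = rSub p T :=
      imgS_eq_of_maps hg.2 (fun y hy => hRn.conj_mem y hy g)
    have hα := mkAut_mem hg.2 himgα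
    -- β : the automorphism of R induced by x
    have hβmor : Mor (groupFusionSystem (S : Subgroup G)) (rSub p T) (fun y => x * y * x⁻¹) :=
      mor_groupFusionSystem_iff.2 ⟨hRS, fun y hy => hRS (hRn.conj_mem y hy x), x, fun _ _ => rfl⟩
    have himgβ : imgS (rSub p T) (fun y => x * y * x⁻¹) = rSub p T :=
      imgS_eq_of_maps hβmor (fun y hy => hRn.conj_mem y hy x)
    have hβ := mkAut_mem hβmor himgβ
    have h1 := hAN (rSub p T) hRT _ hα _ hβ
    rw [mem_autGroup_iff hRT] at h1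
    refine h1.congr ?_
    intro y hy
    have hy' : x⁻¹ * y * x ∈ rSub p T := by
      have := hRn.conj_mem y hy x⁻¹
      rwa [inv_inv] at this
    have h2 : autFun (rSub p T) (mkAut hβmor himgβ)⁻¹ y = x⁻¹ * y * x := by
      have h3 : autFun (rSub p T) (mkAut hβmor himgβ) (x⁻¹ * y * x) = y := by
        rw [autFun_mkAut hβmor himgβ hy']
        group
      have h4 := autFun_inv_apply (mkAut hβmor himgβ) hy'
      rw [h3] at h4
      exact h4
    have hy1 : autFun (rSub p T) (mkAut hβmor himgβ)⁻¹ y ∈ rSub p T := autFun_mem _ hy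
    have hy2 : autFun (rSub p T) (mkAut hg.2 himgα)
        (autFun (rSub p T) (mkAut hβmor himgβ)⁻¹ y) ∈ rSub p T := autFun_mem _ hy1
    rw [autFun_mul _ _ hy, autFun_mul _ _ hy1, autFun_mkAut hβmor himgβ hy2,
      autFun_mkAut hg.2 himgα hy1, h2]
    group
  · intro t ht
    rw [hmem]
    exact ⟨qr_of_mem hTS hsc ht, Mor.conj E hRT ht⟩

end Cfsg.Agent.H16.NS
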