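import Mathlib

/-!
# An element of order 19 centralizes a normal subgroup of order dividing 9240 (S4274-ACT)
-/

set_option autoImplicit false
set_option linter.style.haveILetI false

namespace Cfsg.Agent.H16.Ord175560

open scoped Pointwise

theorem prime_dvd_9240 {q : ℕ} (hq : q.Prime) (h : q ∣ 9240) :
    q = 2 ∨ q = 3 ∨ q = 5 ∨ q = 7 ∨ q = 11 := by
  have h1 : (9240 : ℕ) = 2 ^ 3 * 3 * 5 * 7 * 11 := by norm_num
  rw [h1] at h
  rcases hq.dvd_mul.mp h with h | h
  · rcases hq.dvd_mul.mp h with h | h
    · rcases hq.dvd_mul.mp h with h | h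
      · rcases hq.dvd_mul.mp h with h | h
        · left
          exact (Nat.prime_dvd_prime_iff_eq hq Nat.prime_two).mp (hq.dvd_of_dvd_pow h)
        · right; left
          exact (Nat.prime_dvd_prime_iff_eq hq Nat.prime_three).mp h
      · right; right; left
        exact (Nat.prime_dvd_prime_iff_eq hq Nat.prime_five).mp h
    · right; right; right; left
      exact (Nat.prime_dvd_prime_iff_eq hq (by norm_num)).mp h
  · right; right; right; right
    exact (Nat.prime_dvd_prime_iff_eq hq (by norm_num)).mp h

theorem primepow_le {q k : ℕ} (hq : q.Prime) (h : q ^ k ∣ 9240) : q ^ k ≤ 11 := by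
  rcases Nat.eq_zero_or_pos k with rfl | hk
  · simp
  have hq' : q ∣ 9240 := (dvd_pow_self q hk.ne').trans h
  have key : ∀ m : ℕ, ¬ q ^ (m + 1) ∣ 9240 → q ^ k ≤ q ^ m := by
    intro m hm
    apply Nat.pow_le_pow_right hq.pos
    by_contra hlt
    push Not at hlt
    exact hm ((pow_dvd_pow q hlt).trans h)
  rcases prime_dvd_9240 hq hq' with rfl | rfl | rfl | rfl | rfl
  · exact (key 3 (by norm_num)).trans (by norm_num)
  · exact (key 1 (by norm_num)).trans (by norm_num)
  · exact (key 1 (by norm_num)).trans (by norm_num)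
  · exact (key 1 (by norm_num)).trans (by norm_num)
  · exact (key 1 (by norm_num)).trans (by norm_num)

/-- **S4274-ACT**: an element of order 19 centralizes every normal subgroup whose order
divides 9240. -/
theorem act_trivial {G : Type*} [Group G] [Finite G] (N : Subgroup G) [N.Normal]
    (hN : Nat.card N ∣ 9240) (x : G) (hx : orderOf x = 19) : ∀ n ∈ N, x * n = n * x := by
  classical
  haveI : Fact (Nat.Prime 19) := ⟨by norm_num⟩
  obtain ⟨φ, hφ⟩ : ∃ φ : MulAut N, φ = MulAut.conjNormal x := ⟨_, rfl⟩
  have hφapp : ∀ s : N, ((φ s : N) : G) = x * s * x⁻¹ := by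
    intro s
    rw [hφ]
    exact MulAut.conjNormal_apply x s
  have hφ19 : φ ^ 19 = 1 := by
    rw [hφ, ← map_pow, ← hx, pow_orderOf_eq_one, map_one]
  have hK19 : Nat.card (Subgroup.zpowers φ) ∣ 19 := by
    rw [Nat.card_zpowers]
    exact orderOf_dvd_of_pow_eq_one hφ19
  have hK : IsPGroup 19 (Subgroup.zpowers φ) := by
    rcases (Nat.dvd_prime (by norm_num)).mp hK19 with h | h
    · apply IsPGroup.of_card (n := 0)
      rw [h, pow_zero]
    · apply IsPGroup.of_card (n := 1)
      rw [h, pow_one]
  have key : ∀ q : ℕ, q.Prime → q ^ ((Nat.card N).factorization q) ∣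
      Nat.card (N ⊓ Subgroup.centralizer {x} : Subgroup G) := by
    intro q hq
    haveI : Fact q.Prime := ⟨hq⟩
    have hnd : ¬ 19 ∣ Nat.card (Sylow q N) := by
      intro h
      have h1 : Nat.card (Sylow q N) ∣ Nat.card N :=
        (Sylow.card_dvd_index (default : Sylow q N)).trans (Subgroup.index_dvd_card _)
      have : 19 ∣ 9240 := h.trans (h1.trans hN)
      norm_num at this
    obtain ⟨S, hS⟩ := IsPGroup.nonempty_fixed_point_of_prime_not_dvd_card hK (Sylow q N) hnd
    have hSinv : ∀ k : Subgroup.zpowers φ, ∀ s : N, s ∈ S → k • s ∈ S := by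
      intro k s hs
      have h1 : k • S = S := hS k
      have h3 : ((k : MulAut N) • S : Sylow q N) = S := h1
      have h2 : (k : MulAut N) • s ∈ (k : MulAut N) • (S : Subgroup N) :=
        Subgroup.smul_mem_pointwise_smul _ _ _ hs
      rw [← Sylow.pointwise_smul_def, h3] at h2
      exact h2
    have hScard : Nat.card (S : Subgroup N) ≤ 11 := by
      obtain ⟨k, hk⟩ := IsPGroup.iff_card.mp S.isPGroup'
      rw [hk]
      apply primepow_le hq
      rw [← hk]
      exact (Subgroup.card_subgroup_dvd_card _).trans hN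
    have hfix : ∀ s : N, s ∈ S → φ s = s := by
      intro s hs
      have horb : MulAction.orbit (Subgroup.zpowers φ) s ⊆ ((S : Subgroup N) : Set N) := by
        rintro _ ⟨k, rfl⟩
        exact hSinv k s hs
      have h1 : (MulAction.orbit (Subgroup.zpowers φ) s).ncard ∣ 19 := by
        rw [← MulAction.index_stabilizer]
        exact (Subgroup.index_dvd_card (MulAction.stabilizer (Subgroup.zpowers φ) s)).trans hK19
      have h2 : (MulAction.orbit (Subgroup.zpowers φ) s).ncard ≤ 11 :=
        (Set.ncard_le_ncard horb (Set.toFinite _)).trans hScard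
      have h3 : (MulAction.orbit (Subgroup.zpowers φ) s).ncard = 1 := by
        rcases (Nat.dvd_prime (by norm_num)).mp h1 with h | h
        · exact h
        · omega
      obtain ⟨a, ha⟩ := Set.ncard_eq_one.mp h3
      have hs1 : s ∈ MulAction.orbit (Subgroup.zpowers φ) s := MulAction.mem_orbit_self s
      have hs2 : φ s ∈ MulAction.orbit (Subgroup.zpowers φ) s :=
        ⟨⟨φ, Subgroup.mem_zpowers φ⟩, rfl⟩
      rw [ha, Set.mem_singleton_iff] at hs1 hs2
      exact hs2.trans hs1.symm
    have hle : (S : Subgroup N).map N.subtype ≤ N ⊓ Subgroup.centralizer {x} := by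
      rintro _ ⟨s, hs, rfl⟩
      refine ⟨s.2, ?_⟩
      show N.subtype s ∈ Subgroup.centralizer {x}
      rw [Subgroup.mem_centralizer_iff]
      intro h hh
      rw [Set.mem_singleton_iff] at hh
      subst hh
      have h1 := hφapp s
      rw [hfix s hs] at h1
      show h * (s : G) = (s : G) * h
      nth_rewrite 2 [h1]
      group
    have hcard : Nat.card ((S : Subgroup N).map N.subtype) =
        q ^ ((Nat.card N).factorization q) := by
      rw [Subgroup.card_map_of_injective N.subtype_injective]
      exact Sylow.card_eq_multiplicity S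
    rw [← hcard]
    exact Subgroup.card_dvd_of_le hle
  have hdvd : Nat.card N ∣ Nat.card (N ⊓ Subgroup.centralizer {x} : Subgroup G) := by
    rw [← Nat.factorization_prime_le_iff_dvd Nat.card_pos.ne' Nat.card_pos.ne']
    intro q hq
    exact (hq.pow_dvd_iff_le_factorization Nat.card_pos.ne').mp (key q hq)
  have hZ : N ⊓ Subgroup.centralizer {x} = N :=
    Subgroup.eq_of_le_of_card_ge inf_le_left (Nat.le_of_dvd Nat.card_pos hdvd)
  intro n hn
  rw [← hZ] at hn
  exact Subgroup.mem_centralizer_iff.mp hn.2 x rfl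

end Cfsg.Agent.H16.Ord175560
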