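import Mathlib
import Cfsg.Agent.H99.OrtDefs

/-! helper16: piece S5981-GLUE of helper99's project: membership in the similarity group of a
quadratic form in terms of a Gram matrix. -/

set_option autoImplicit false

namespace Cfsg.Agent.H16.Ort

open scoped MatrixGroups
open Cfsg.Agent.H99.Ort

universe u

section
variable {F : Type u} [Field F] {n : ℕ}

theorem glue_dot_conj (s A : Matrix (Fin n) (Fin n) F) (v : Fin n → F) :
    dotProduct (s.mulVec v) (A.mulVec (s.mulVec v))
      = dotProduct v ((s.transpose * A * s).mulVec v) := by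
  rw [← Matrix.mulVec_mulVec, ← Matrix.mulVec_mulVec, Matrix.dotProduct_mulVec v s.transpose,
    Matrix.vecMul_transpose]

theorem glue_mulVec_single (M : Matrix (Fin n) (Fin n) F) (i j : Fin n) :
    dotProduct (Pi.single i (1 : F)) (M.mulVec (Pi.single j 1)) = M i j := by
  classical
  rw [single_dotProduct, one_mul, Matrix.mulVec_single_one]
  rfl

/-- A symmetric matrix whose quadratic form vanishes is zero (characteristic not 2). -/
theorem glue_polar (h2 : (2 : F) ≠ 0) (M : Matrix (Fin n) (Fin n) F) (hM : M.transpose = M)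
    (h : ∀ v : Fin n → F, dotProduct v (M.mulVec v) = 0) : M = 0 := by
  classical
  have hsym : ∀ u w : Fin n → F, dotProduct u (M.mulVec w) = dotProduct w (M.mulVec u) := by
    intro u w
    calc dotProduct u (M.mulVec w) = dotProduct (Matrix.vecMul u M) w :=
          Matrix.dotProduct_mulVec u M w
      _ = dotProduct (M.transpose.mulVec u) w := by rw [Matrix.mulVec_transpose]
      _ = dotProduct w (M.mulVec u) := by rw [hM, dotProduct_comm]
  have hpol : ∀ u w : Fin n → F, dotProduct u (M.mulVec w) = 0 := by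
    intro u w
    have h1 := h (u + w)
    rw [Matrix.mulVec_add, add_dotProduct, dotProduct_add, dotProduct_add, h u, h w,
      hsym w u] at h1
    have h3 : (2 : F) * dotProduct u (M.mulVec w) = 0 := by
      linear_combination h1
    rcases mul_eq_zero.1 h3 with h4 | h4
    · exact absurd h4 h2
    · exact h4
  ext i j
  rw [← glue_mulVec_single M i j, hpol]
  rfl

end

/-- S5981-GLUE 1. -/
theorem simOfMem : StSimOfMem.{u} := by
  classical
  intro F _ _ n h2 Q P A hP hA hQP x g h
  obtain ⟨c, hc⟩ := h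
  obtain ⟨Y, hY⟩ : ∃ Y : Matrix (Fin n) (Fin n) F,
      Y = ((g⁻¹ * x * g : GL (Fin n) F) : Matrix (Fin n) (Fin n) F) := ⟨_, rfl⟩
  rw [← hY] at hc
  have hGY : (g : Matrix (Fin n) (Fin n) F) * Y
      = (x : Matrix (Fin n) (Fin n) F) * (g : Matrix (Fin n) (Fin n) F) := by
    rw [hY, Units.val_mul, Units.val_mul, ← Matrix.mul_assoc, ← Matrix.mul_assoc]
    have : (g : Matrix (Fin n) (Fin n) F) * ((g⁻¹ : GL (Fin n) F) : Matrix (Fin n) (Fin n) F)
        = 1 := by
      rw [← Units.val_mul, mul_inv_cancel, Units.val_one]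
    rw [this, Matrix.one_mul]
  have hPP : P * P⁻¹ = 1 := Matrix.mul_nonsing_inv P hP
  obtain ⟨S, hS⟩ : ∃ S : Matrix (Fin n) (Fin n) F, S = P⁻¹ * Y * P := ⟨_, rfl⟩
  have hPs : P * S = Y * P := by
    rw [hS, ← Matrix.mul_assoc, ← Matrix.mul_assoc, hPP, Matrix.one_mul]
  refine ⟨S, (c : F), c.ne_zero, ?_, ?_⟩
  · rw [Matrix.mul_assoc (g : Matrix (Fin n) (Fin n) F) P S, hPs,
      ← Matrix.mul_assoc (g : Matrix (Fin n) (Fin n) F) Y P, hGY, Matrix.mul_assoc]
  · have key : ∀ v : Fin n → F,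
        dotProduct v ((S.transpose * A * S - (c : F) • A).mulVec v) = 0 := by
      intro v
      rw [Matrix.sub_mulVec, dotProduct_sub, ← glue_dot_conj, ← hQP, Matrix.mulVec_mulVec, hPs,
        ← Matrix.mulVec_mulVec, hc, Matrix.smul_mulVec, dotProduct_smul, ← hQP, smul_eq_mul]
      ring
    have hsymm : (S.transpose * A * S - (c : F) • A).transpose
        = S.transpose * A * S - (c : F) • A := by
      simp only [Matrix.transpose_sub, Matrix.transpose_smul, Matrix.transpose_mul,
        Matrix.transpose_transpose, hA, Matrix.mul_assoc]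
    exact sub_eq_zero.1 (glue_polar h2 _ hsymm key)

/-- S5981-GLUE 2. -/
theorem memOfSim : StMemOfSim.{u} := by
  classical
  intro F _ _ n h2 Q P A hP hQP x g s c hc hx hs
  obtain ⟨Y, hY⟩ : ∃ Y : Matrix (Fin n) (Fin n) F,
      Y = ((g⁻¹ * x * g : GL (Fin n) F) : Matrix (Fin n) (Fin n) F) := ⟨_, rfl⟩
  have hYP : Y * P = P * s := by
    rw [hY, Units.val_mul, Units.val_mul, Matrix.mul_assoc, Matrix.mul_assoc, hx,
      ← Matrix.mul_assoc, ← Matrix.mul_assoc, ← Units.val_mul, inv_mul_cancel, Units.val_one,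
      Matrix.one_mul]
  have hPP : P * P⁻¹ = 1 := Matrix.mul_nonsing_inv P hP
  refine ⟨Units.mk0 c hc, ?_⟩
  intro w
  rw [← hY]
  show Q (Y.mulVec w) = c * Q w
  have hw : w = P.mulVec (P⁻¹.mulVec w) := by
    rw [Matrix.mulVec_mulVec, hPP, Matrix.one_mulVec]
  obtain ⟨v, hv⟩ : ∃ v, v = P⁻¹.mulVec w := ⟨_, rfl⟩
  rw [← hv] at hw
  have h1 : 2 * Q (Y.mulVec w) = 2 * (c * Q w) := by
    rw [hw, Matrix.mulVec_mulVec, hYP, ← Matrix.mulVec_mulVec, hQP, glue_dot_conj, hs,
      Matrix.smul_mulVec, dotProduct_smul, ← hQP, smul_eq_mul]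
    ring
  exact mul_left_cancel₀ h2 h1

example : Cfsg.Agent.H99.Ort.StSimOfMem.{u} := simOfMem
example : Cfsg.Agent.H99.Ort.StMemOfSim.{u} := memOfSim

end Cfsg.Agent.H16.Ort
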