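import Mathlib
import Cfsg.Agent.H99.OrtDefs
import Cfsg.Agent.H3.UniC2
import Cfsg.Agent.H77.SubRANKEXT

/-! helper16: piece S5981-ODDC of helper99's project (orthogonal similarities of prime order `r`
with `ord_r(q)` odd have `rank (x - 1) ≥ 2 ord_r(q)`).  Adapted from helper3's `UniC2`. -/

set_option autoImplicit false

namespace Cfsg.Agent.H16.Ort

open scoped MatrixGroups
open Polynomial Cfsg.Agent.H99.Ort

universe u

theorem oddc_frob {L : Type*} [Field L] {n q : ℕ} (φ : L →+* L) (hφ : ∀ a, φ a = a ^ q)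
    (S : Matrix (Fin n) (Fin n) L) (hSφ : S.map φ = S) (ν : L)
    (h : (S - ν • (1 : Matrix (Fin n) (Fin n) L)).det = 0) :
    (S - (ν ^ q) • (1 : Matrix (Fin n) (Fin n) L)).det = 0 := by
  have hmap : φ.mapMatrix (S - ν • (1 : Matrix (Fin n) (Fin n) L))
      = S - (ν ^ q) • (1 : Matrix (Fin n) (Fin n) L) := by
    have h1 : ∀ i j, φ (S i j) = S i j := by
      intro i j
      have := congrFun (congrFun hSφ i) j
      rwa [Matrix.map_apply] at this
    ext i j
    by_cases hij : i = j
    · simp only [RingHom.mapMatrix_apply, Matrix.map_apply, Matrix.sub_apply, Matrix.smul_apply,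
        Matrix.one_apply, map_sub, smul_eq_mul, if_pos hij, mul_one]
      rw [h1, hφ]
    · simp only [RingHom.mapMatrix_apply, Matrix.map_apply, Matrix.sub_apply, Matrix.smul_apply,
        Matrix.one_apply, map_sub, smul_eq_mul, if_neg hij, mul_zero, map_zero]
      rw [h1]
  rw [← hmap, ← RingHom.map_det, h, map_zero]

theorem oddc_inv {L : Type*} [Field L] {n : ℕ} (S A : Matrix (Fin n) (Fin n) L)
    (hA : IsUnit A.det) (hSu : IsUnit S.det) (hS : S.transpose * A * S = A) (ν : L) (hν : ν ≠ 0)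
    (h : (S - ν • (1 : Matrix (Fin n) (Fin n) L)).det = 0) :
    (S - (ν⁻¹) • (1 : Matrix (Fin n) (Fin n) L)).det = 0 := by
  have hprod : S.transpose * A * (S - (ν⁻¹) • (1 : Matrix (Fin n) (Fin n) L))
      = (-(ν⁻¹)) • ((S - ν • (1 : Matrix (Fin n) (Fin n) L)).transpose * A) := by
    rw [Matrix.mul_sub, hS, Matrix.mul_smul, Matrix.mul_one, Matrix.transpose_sub,
      Matrix.transpose_smul, Matrix.transpose_one, Matrix.sub_mul, Matrix.smul_mul,
      Matrix.one_mul, smul_sub, smul_smul]
    have : -(ν⁻¹) * ν = -1 := by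
      rw [neg_mul, inv_mul_cancel₀ hν]
    rw [this, neg_smul, neg_smul, one_smul]
    abel
  have h2 := congrArg Matrix.det hprod
  rw [Matrix.det_mul, Matrix.det_mul, Matrix.det_smul, Matrix.det_mul, Matrix.det_transpose,
    Matrix.det_transpose, h, zero_mul, mul_zero] at h2
  rcases mul_eq_zero.1 h2 with h3 | h3
  · rcases mul_eq_zero.1 h3 with h4 | h4
    · exact absurd h4 hSu.ne_zero
    · exact absurd h4 hA.ne_zero
  · exact h3

theorem oddc_core {L : Type*} [Field L] [IsAlgClosed L] (n r q c : ℕ) (hr : r.Prime)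
    (hr2 : r ≠ 2) (hrL : (r : L) ≠ 0) (φ : L →+* L) (hφ : ∀ a, φ a = a ^ q)
    (hc : c = orderOf (q : ZMod r)) (hcpos : 0 < c) (hodd : Odd c)
    (S A : Matrix (Fin n) (Fin n) L) (hA : IsUnit A.det) (hSφ : S.map φ = S)
    (hSr : S ^ r = 1) (hS1 : S ≠ 1) (hS : S.transpose * A * S = A) :
    2 * c ≤ (S - 1).rank := by
  classical
  haveI : Fact r.Prime := ⟨hr⟩
  obtain ⟨ν₀, hν1, hνr, hνdet⟩ := Cfsg.Agent.H3.Uni.c2_exists_eig hrL S hSr hS1
  have hν0 : ν₀ ≠ 0 := by
    rintro rfl
    rw [zero_pow hr.ne_zero] at hνr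
    exact zero_ne_one hνr
  have hord : orderOf ν₀ = r := orderOf_eq_prime hνr hν1
  have hSu : IsUnit S.det := by
    have h1 := congrArg Matrix.det hSr
    rw [Matrix.det_pow, Matrix.det_one] at h1
    exact IsUnit.of_pow_eq_one h1 hr.ne_zero
  have hall1 : ∀ k : ℕ, (S - (ν₀ ^ (q ^ k)) • (1 : Matrix (Fin n) (Fin n) L)).det = 0 := by
    intro k
    induction k with
    | zero => simpa using hνdet
    | succ k ih =>
      have := oddc_frob φ hφ S hSφ _ ih
      rw [← pow_mul, ← pow_succ] at this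
      exact this
  have hall2 : ∀ k : ℕ,
      (S - (ν₀ ^ ((r - 1) * q ^ k)) • (1 : Matrix (Fin n) (Fin n) L)).det = 0 := by
    intro k
    have hne : ν₀ ^ (q ^ k) ≠ 0 := pow_ne_zero _ hν0
    have := oddc_inv S A hA hSu hS _ hne (hall1 k)
    have hinv : (ν₀ ^ (q ^ k))⁻¹ = ν₀ ^ ((r - 1) * q ^ k) := by
      apply inv_eq_of_mul_eq_one_right
      rw [← pow_add]
      have e1 : q ^ k + (r - 1) * q ^ k = r * q ^ k := by
        have := hr.one_le
        nth_rewrite 1 [← one_mul (q ^ k)]
        rw [← add_mul]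
        congr 1
        omega
      rw [e1, pow_mul, hνr, one_pow]
    rw [hinv] at this
    exact this
  obtain ⟨u, hu⟩ : ∃ u : ZMod r, u = (q : ZMod r) := ⟨_, rfl⟩
  rw [← hu] at hc
  have huc : u ^ c = 1 := by
    rw [hc]
    exact pow_orderOf_eq_one _
  have huu : IsUnit u := IsUnit.of_pow_eq_one huc hcpos.ne'
  have h2r : (2 : ZMod r) ≠ 0 := by
    intro h
    have h1 : ((2 : ℕ) : ZMod r) = 0 := by exact_mod_cast h
    rw [ZMod.natCast_eq_zero_iff] at h1
    have := (Nat.prime_dvd_prime_iff_eq hr Nat.prime_two).mp h1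
    exact hr2 this
  have hneg : ((r - 1 : ℕ) : ZMod r) = -1 := by
    rw [Nat.cast_sub hr.one_le, ZMod.natCast_self, zero_sub, Nat.cast_one]
  have hfin : IsOfFinOrder ν₀ := isOfFinOrder_iff_pow_eq_one.2 ⟨r, hr.pos, hνr⟩
  have hcast : ∀ a b : ℕ, ν₀ ^ a = ν₀ ^ b → (a : ZMod r) = (b : ZMod r) := by
    intro a b hab
    have := hfin.pow_inj_mod.1 hab
    rw [hord] at this
    exact (ZMod.natCast_eq_natCast_iff' a b r).2 this
  have hinj1 : ∀ i j : ℕ, i < c → j < c → u ^ i = u ^ j → i = j := by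
    intro i j hi hj hij
    have hi' : i ∈ Set.Iio (orderOf u) := by rw [← hc]; exact hi
    have hj' : j ∈ Set.Iio (orderOf u) := by rw [← hc]; exact hj
    exact pow_injOn_Iio_orderOf hi' hj' hij
  have hno : ∀ i j : ℕ, i < c → j < c → u ^ i ≠ -u ^ j := by
    intro i j hi hj hij
    have hsq : (u ^ 2) ^ i = (u ^ 2) ^ j := by
      rw [← pow_mul, ← pow_mul, mul_comm 2 i, mul_comm 2 j, pow_mul, pow_mul, hij, neg_sq]
    have hord2 : orderOf (u ^ 2) = c := by
      rw [hc]
      apply Nat.Coprime.orderOf_pow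
      rw [← hc]
      exact (Nat.coprime_two_right).mpr hodd
    have hi' : i ∈ Set.Iio (orderOf (u ^ 2)) := by rw [hord2]; exact hi
    have hj' : j ∈ Set.Iio (orderOf (u ^ 2)) := by rw [hord2]; exact hj
    have hij' : i = j := pow_injOn_Iio_orderOf hi' hj' hsq
    rw [hij'] at hij
    have h3 : (2 : ZMod r) * u ^ j = 0 := by
      linear_combination hij
    rcases mul_eq_zero.1 h3 with h4 | h4
    · exact h2r h4
    · exact (huu.pow j).ne_zero h4
  obtain ⟨ev, hev⟩ : ∃ ev : Fin c ⊕ Fin c → L, ev = fun t =>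
      Sum.elim (fun k : Fin c => ν₀ ^ (q ^ (k : ℕ)))
        (fun k : Fin c => ν₀ ^ ((r - 1) * q ^ (k : ℕ))) t := ⟨_, rfl⟩
  have hevdet : ∀ t, (S - (ev t) • (1 : Matrix (Fin n) (Fin n) L)).det = 0 := by
    intro t
    rw [hev]
    rcases t with k | k
    · exact hall1 k
    · exact hall2 k
  have hinj : Function.Injective ev := by
    intro a b hab
    rw [hev] at hab
    rcases a with i | i <;> rcases b with j | j
    · simp only [Sum.elim_inl] at hab
      have h1 := hcast _ _ hab
      rw [Nat.cast_pow, Nat.cast_pow, ← hu] at h1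
      rw [Fin.ext (hinj1 _ _ i.2 j.2 h1)]
    · exfalso
      simp only [Sum.elim_inl, Sum.elim_inr] at hab
      have h1 := hcast _ _ hab
      rw [Nat.cast_pow, Nat.cast_mul, Nat.cast_pow, hneg, ← hu, neg_one_mul] at h1
      exact hno _ _ i.2 j.2 h1
    · exfalso
      simp only [Sum.elim_inl, Sum.elim_inr] at hab
      have h1 := hcast _ _ hab
      rw [Nat.cast_pow, Nat.cast_mul, Nat.cast_pow, hneg, ← hu, neg_one_mul] at h1
      exact hno _ _ j.2 i.2 h1.symm
    · simp only [Sum.elim_inr] at hab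
      have h1 := hcast _ _ hab
      rw [Nat.cast_mul, Nat.cast_mul, Nat.cast_pow, Nat.cast_pow, hneg, ← hu, neg_one_mul,
        neg_one_mul, neg_inj] at h1
      rw [Fin.ext (hinj1 _ _ i.2 j.2 h1)]
  have hne1 : ∀ t, ev t ≠ 1 := by
    intro t ht
    rw [hev] at ht
    rcases t with k | k
    · simp only [Sum.elim_inl] at ht
      have h1 := hcast (q ^ (k : ℕ)) 0 (by rw [ht, pow_zero])
      rw [Nat.cast_pow, Nat.cast_zero, ← hu] at h1
      exact (huu.pow _).ne_zero h1
    · simp only [Sum.elim_inr] at ht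
      have h1 := hcast ((r - 1) * q ^ (k : ℕ)) 0 (by rw [ht, pow_zero])
      rw [Nat.cast_mul, Nat.cast_pow, Nat.cast_zero, hneg, ← hu, neg_one_mul, neg_eq_zero] at h1
      exact (huu.pow _).ne_zero h1
  have hex : ∀ t, ∃ v : Fin n → L, v ≠ 0 ∧ S.mulVec v = (ev t) • v :=
    fun t => Cfsg.Agent.H3.Uni.c2_eig_of_det S _ (hevdet t)
  choose v hv0 hv using hex
  have hli : LinearIndependent L v := by
    apply Module.End.eigenvectors_linearIndependent' (Matrix.toLin' S) ev hinj v
    intro t
    refine ⟨?_, hv0 t⟩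
    rw [Module.End.mem_eigenspace_iff, Matrix.toLin'_apply]
    exact hv t
  have hspan : Submodule.span L (Set.range v) ≤ LinearMap.range (S - 1).mulVecLin := by
    rw [Submodule.span_le]
    rintro _ ⟨t, rfl⟩
    refine ⟨(ev t - 1)⁻¹ • v t, ?_⟩
    have h1 : ev t • v t - v t = (ev t - 1) • v t := by
      rw [sub_smul, one_smul]
    rw [Matrix.mulVecLin_apply, Matrix.mulVec_smul, Matrix.sub_mulVec, Matrix.one_mulVec, hv t,
      h1, smul_smul, inv_mul_cancel₀ (sub_ne_zero.2 (hne1 t)), one_smul]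
  have hcard := finrank_span_eq_card hli
  rw [Fintype.card_sum, Fintype.card_fin] at hcard
  have h2c : 2 * c = c + c := by ring
  rw [h2c, ← hcard]
  exact Submodule.finrank_mono hspan

/-- S5981-ODDC. -/
theorem oddC : StOddC.{u} := by
  classical
  intro F _ _ n r hr hr2 hrF hc hodd x A hA hxr hx1 hconj
  obtain ⟨P, s, c₀, hP, hc₀, h, hs⟩ := hconj
  haveI : Fact r.Prime := ⟨hr⟩
  have hn : n ≠ 0 := by
    rintro rfl
    exact hx1 (Subsingleton.elim _ _)
  obtain ⟨i₀⟩ : Nonempty (Fin n) := ⟨⟨0, Nat.pos_of_ne_zero hn⟩⟩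
  have hpow : ∀ k : ℕ, x ^ k * P = P * s ^ k := by
    intro k
    induction k with
    | zero => simp
    | succ k ih =>
      rw [pow_succ, Matrix.mul_assoc, h, ← Matrix.mul_assoc, ih, Matrix.mul_assoc, ← pow_succ]
  have hPinv : P⁻¹ * P = 1 := Matrix.nonsing_inv_mul P hP
  have hsr : s ^ r = 1 := by
    have h1 := hpow r
    rw [hxr, Matrix.one_mul] at h1
    have h2 : P⁻¹ * P = P⁻¹ * (P * s ^ r) := congrArg (fun M => P⁻¹ * M) h1
    rw [hPinv, ← Matrix.mul_assoc, hPinv, Matrix.one_mul] at h2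
    exact h2.symm
  have hs1 : s ≠ 1 := by
    rintro rfl
    rw [Matrix.mul_one] at h
    apply hx1
    have h2 : x * P * P⁻¹ = P * P⁻¹ := congrArg (fun M => M * P⁻¹) h
    rw [Matrix.mul_assoc, Matrix.mul_nonsing_inv P hP, Matrix.mul_one] at h2
    exact h2
  have hrank : (x - 1).rank = (s - 1).rank := by
    have h1 : (x - 1) * P = P * (s - 1) := by
      rw [Matrix.sub_mul, Matrix.mul_sub, h, Matrix.one_mul, Matrix.mul_one]
    rw [← Matrix.rank_mul_eq_left_of_isUnit_det P (x - 1) hP, h1,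
      Matrix.rank_mul_eq_right_of_isUnit_det P (s - 1) hP]
  have hck : ∀ k : ℕ, (s ^ k).transpose * A * s ^ k = c₀ ^ k • A := by
    intro k
    induction k with
    | zero => simp
    | succ k ih =>
      have e : (s ^ (k + 1)).transpose * A * s ^ (k + 1)
          = s.transpose * ((s ^ k).transpose * A * s ^ k) * s := by
        rw [pow_succ, Matrix.transpose_mul]
        simp only [Matrix.mul_assoc]
      rw [e, ih, Matrix.mul_smul, Matrix.smul_mul, hs, smul_smul, ← pow_succ]
  have hA0 : A ≠ 0 := by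
    rintro rfl
    haveI : Nonempty (Fin n) := ⟨i₀⟩
    rw [Matrix.det_zero] at hA
    exact not_isUnit_zero hA
  have hcr : c₀ ^ r = 1 := by
    have h1 := hck r
    rw [hsr, Matrix.transpose_one, Matrix.one_mul, Matrix.mul_one] at h1
    have h2 : (c₀ ^ r - 1) • A = 0 := by
      rw [sub_smul, one_smul, ← h1, sub_self]
    rcases smul_eq_zero.1 h2 with h3 | h3
    · exact sub_eq_zero.1 h3
    · exact absurd h3 hA0
  have hc1 : c₀ = 1 := by
    by_contra hne
    have ho : orderOf c₀ = r := orderOf_eq_prime hcr hne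
    have h1 : c₀ ^ (Fintype.card F - 1) = 1 := FiniteField.pow_card_sub_one_eq_one c₀ hc₀
    have h2 : r ∣ Fintype.card F - 1 := by rw [← ho]; exact orderOf_dvd_of_pow_eq_one h1
    have hq1 : 1 ≤ Fintype.card F := Fintype.card_pos
    have h3 : ((Fintype.card F : ℕ) : ZMod r) = 1 := by
      have : ((Fintype.card F - 1 : ℕ) : ZMod r) = 0 := (ZMod.natCast_eq_zero_iff _ _).2 h2
      rw [Nat.cast_sub hq1, Nat.cast_one, sub_eq_zero] at this
      exact this
    rw [h3, orderOf_one] at hc
    omega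
  rw [hc1, one_smul] at hs
  obtain ⟨p, hchar⟩ := CharP.exists F
  obtain ⟨k, hp, hqk⟩ := FiniteField.card F p
  have hι : Function.Injective (algebraMap F (AlgebraicClosure F)) :=
    (algebraMap F (AlgebraicClosure F)).injective
  haveI : CharP (AlgebraicClosure F) p := charP_of_injective_algebraMap hι p
  haveI : Fact p.Prime := ⟨hp⟩
  haveI : ExpChar (AlgebraicClosure F) p := ExpChar.prime hp
  have hφ : ∀ a : AlgebraicClosure F,
      iterateFrobenius (AlgebraicClosure F) p (k : ℕ) a = a ^ Fintype.card F :=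
    fun a => by rw [hqk]; exact iterateFrobenius_def p (k : ℕ) a
  have hrL : (r : AlgebraicClosure F) ≠ 0 := by
    intro h0
    apply hrF
    apply hι
    rw [map_natCast, map_zero]; exact h0
  have hmapS : (s.map (algebraMap F (AlgebraicClosure F))) ^ r = 1 := by
    have : s.map (algebraMap F (AlgebraicClosure F))
        = (algebraMap F (AlgebraicClosure F)).mapMatrix s := rfl
    rw [this, ← map_pow, hsr, map_one]
  have hmapS1 : s.map (algebraMap F (AlgebraicClosure F)) ≠ 1 := by
    intro h1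
    apply hs1
    have h2 : s.map (algebraMap F (AlgebraicClosure F))
        = (1 : Matrix (Fin n) (Fin n) F).map (algebraMap F (AlgebraicClosure F)) := by
      rw [h1, Matrix.map_one _ (map_zero _) (map_one _)]
    exact Matrix.map_injective hι h2
  have hmapA : IsUnit (A.map (algebraMap F (AlgebraicClosure F))).det := by
    have h1 : (A.map (algebraMap F (AlgebraicClosure F))).det
        = algebraMap F (AlgebraicClosure F) A.det := by
      rw [RingHom.map_det]
      rfl
    rw [h1]
    exact hA.map _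
  have hmapfix : (s.map (algebraMap F (AlgebraicClosure F))).map
      (iterateFrobenius (AlgebraicClosure F) p (k : ℕ)) = s.map (algebraMap F (AlgebraicClosure F)) := by
    ext i j
    rw [Matrix.map_apply, Matrix.map_apply, hφ, ← map_pow, FiniteField.pow_card]
  have hmapU : (s.map (algebraMap F (AlgebraicClosure F))).transpose
      * A.map (algebraMap F (AlgebraicClosure F)) * s.map (algebraMap F (AlgebraicClosure F))
      = A.map (algebraMap F (AlgebraicClosure F)) := by
    rw [← Matrix.transpose_map, ← Matrix.map_mul, ← Matrix.map_mul, hs]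
  have hcpos : 0 < orderOf (Fintype.card F : ZMod r) := by omega
  have hcore := oddc_core n r (Fintype.card F) (orderOf (Fintype.card F : ZMod r)) hr hr2 hrL
    (iterateFrobenius (AlgebraicClosure F) p (k : ℕ)) hφ rfl hcpos hodd
    (s.map (algebraMap F (AlgebraicClosure F))) (A.map (algebraMap F (AlgebraicClosure F)))
    hmapA hmapfix hmapS hmapS1 hmapU
  have hrk : (s.map (algebraMap F (AlgebraicClosure F)) - 1).rank = (s - 1).rank := by
    have : s.map (algebraMap F (AlgebraicClosure F)) - 1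
        = (s - 1).map (algebraMap F (AlgebraicClosure F)) := by
      ext i j
      simp only [Matrix.map_apply, Matrix.sub_apply, Matrix.one_apply, map_sub]
      split_ifs <;> simp
    rw [this]; exact Cfsg.Agent.H77.Sub.rank_map_field _ (s - 1)
  rw [hrank, ← hrk]
  exact hcore

example : Cfsg.Agent.H99.Ort.StOddC.{u} := oddC

end Cfsg.Agent.H16.Ort
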