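import Cfsg.Agent.H46.OutDefs
import Cfsg.Agent.H98.StbDiag

/-!
# S2124-DIAGN (helper16, for helper46): if `A * Ai = N` for the Cartan matrix `A`, then `H` realises every
family of scalars that are `N`-th powers on the fundamental root subgroups.
-/

set_option autoImplicit false

namespace Cfsg.Agent.H16.OutE

open Cfsg.Lie Cfsg.Agent.H23 Cfsg.Agent.H23.Stb Cfsg.Agent.H46.OutE Cfsg.Agent.H98.Stb

universe u

/-- **S2124-DIAGN**. -/
theorem diagN : Cfsg.Agent.H46.OutE.StDiagN.{u} := by
  intro D F _ z η hP N Ai hA1 _ hneg c hc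
  classical
  have hS := hP.sem
  have hT := hP.tab
  choose! d hd0 hdN using hc
  let du : Fin D.rank → Fˣ := fun k => Units.mk0 (d k) (hd0 k k.2)
  let A : Fin D.rank → Fin D.rank → ℤ := fun i j => z (D.simple j) (D.simple i)
  let tu : Fin D.rank → Fˣ := powHom Ai du
  have htu : ∀ i : Fin D.rank, powHom A tu i = du i ^ N := by
    intro i
    show powHom A (powHom Ai du) i = du i ^ N
    have hcg : ∀ i j : Fin D.rank, mulZ A Ai i j = diagZ (fun _ => N) i j := by
      intro i j
      rw [hA1 i j]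
      simp [idZ, diagZ]
    rw [powHom_comp, powHom_congr _ _ hcg, powHom_diagZ]
  let L : List (ℕ × F) := (List.finRange D.rank).map fun j : Fin D.rank => (D.simple j, ((tu j : Fˣ) : F))
  have hL : ∀ p ∈ L, p.1 < D.nroots ∧ p.2 ≠ 0 := by
    intro p hp
    obtain ⟨j, -, rfl⟩ := List.mem_map.mp hp
    exact ⟨hT.simple_lt j j.2, (tu j).ne_zero⟩
  have key : ∀ s : ℕ, (L.map fun p => p.2 ^ z p.1 s).prod =
      ((∏ j, tu j ^ z (D.simple j) s : Fˣ) : F) := by
    intro s
    rw [Units.coe_prod, Fin.prod_univ_def]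
    simp only [L, List.map_map]
    apply congrArg List.prod
    apply List.map_congr_left
    intro j _
    simp only [Function.comp_apply, Units.val_zpow_eq_zpow_val]
  refine ⟨(L.map fun p => hU hS p.1 p.2).prod, ?_, ?_⟩
  · apply Subgroup.list_prod_mem
    intro g hg
    obtain ⟨p, hp, rfl⟩ := List.mem_map.mp hg
    exact hU_mem_diag hS p.1 (hL p hp).1 p.2 (hL p hp).2
  · intro i hi t
    have h1 : (∏ j, tu j ^ z (D.simple j) (D.simple i) : Fˣ) = du ⟨i, hi⟩ ^ N := htu ⟨i, hi⟩
    have h1v : ((du ⟨i, hi⟩ ^ N : Fˣ) : F) = c i := by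
      rw [Units.val_pow_eq_pow_val]
      exact hdN i hi
    constructor
    · rw [hList_conj hS L hL _ (hT.simple_lt i hi), key, h1, h1v]
    · rw [hList_conj hS L hL _ (hT.neg_lt _ (hT.simple_lt i hi)), key]
      have h2 : (∏ j, tu j ^ z (D.simple j) (D.neg (D.simple i)) : Fˣ) = (du ⟨i, hi⟩ ^ N)⁻¹ := by
        rw [← h1, ← Finset.prod_inv_distrib]
        apply Finset.prod_congr rfl
        intro j _
        rw [hneg i hi j j.2, zpow_neg]
      rw [h2, Units.val_inv_eq_inv_val, h1v]

end Cfsg.Agent.H16.OutE
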