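import Mathlib
import Cfsg.Agent.Lib.Helper96.MField

/-!
# S2414 P-FIELD: the finite-field data for the plus-type orthogonal groups (from `field_M`)
-/

set_option autoImplicit false

namespace Cfsg.Agent.H16.MP

open Matrix

theorem field_P {F : Type*} [Field F] [Fintype F] (k : ℕ) (hk : 3 ≤ k) :
    ∃ B B' G G' : Matrix (Fin k) (Fin k) F, B * B' = 1 ∧ B' * B = 1 ∧ G * G' = 1 ∧ G' * G = 1 ∧
      G * B = Bᵀ * G ∧ ((2 : F) ≠ 0 → ¬ IsSquare B.det) ∧
      (∀ X : AddSubgroup (Fin k → F), (∀ v ∈ X, (B ^ 2) *ᵥ v ∈ X) → ∀ x ∈ X, x ≠ 0 → X = ⊤) ∧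
      (∀ v : Fin k → F, (B ^ 2) *ᵥ v = v → v = 0) ∧
      (∀ M : Matrix (Fin k) (Fin k) F, (∀ y : Fin k → F, y ⬝ᵥ M *ᵥ y = 0) →
        B * M + M * Bᵀ = 0 → M = 0) ∧
      (∀ v : Fin k → F, v ≠ 0 → ∀ t : F, B *ᵥ v ≠ t • v) := by
  classical
  obtain ⟨B, B', G, G', hBB', hB'B, hGG', hG'G, hGB, hdet, -, hcl, hTfix, htrans⟩ :=
    Cfsg.Agent.Lib.Helper96.M.field_M (F := F) k hk
  obtain ⟨q, hq⟩ : ∃ q : ℕ, q = Fintype.card F := ⟨_, rfl⟩
  rw [← hq] at hcl hTfix
  obtain ⟨T, hT⟩ : ∃ T : Matrix (Fin k) (Fin k) F, T = B ^ (2 * (q + 1)) := ⟨_, rfl⟩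
  rw [← hT] at hcl hTfix
  have hTpow : ∀ i : ℕ, T ^ i = (B ^ 2) ^ ((q + 1) * i) := by
    intro i
    rw [hT, ← pow_mul, ← pow_mul, mul_assoc]
  have hclos : ∀ (Pr : Matrix (Fin k) (Fin k) F → Prop), Pr 0 →
      (∀ X Y, Pr X → Pr Y → Pr (X + Y)) → (∀ X, Pr X → Pr (-X)) → (∀ i : ℕ, Pr (T ^ i)) →
      Pr B := by
    intro Pr h0 hadd hneg hTi
    refine AddSubgroup.closure_induction (p := fun X _ => Pr X) ?_ h0 ?_ ?_ hcl
    · rintro x ⟨i, rfl⟩
      exact hTi i
    · intro x y _ _ hx hy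
      exact hadd x y hx hy
    · intro x _ hx
      exact hneg x hx
  refine ⟨B, B', G, G', hBB', hB'B, hGG', hG'G, hGB, hdet, ?_, ?_, ?_, ?_⟩
  · intro X hX x hx hx0
    have h1 : ∀ n : ℕ, ∀ v ∈ X, ((B ^ 2) ^ n) *ᵥ v ∈ X := by
      intro n
      induction n with
      | zero =>
        intro v hv
        simpa using hv
      | succ n ih =>
        intro v hv
        rw [pow_succ, ← Matrix.mulVec_mulVec]
        exact ih _ (hX v hv)
    have h3 : ∀ v ∈ X, B *ᵥ v ∈ X := by
      apply hclos (fun M => ∀ v ∈ X, M *ᵥ v ∈ X)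
      · intro v _
        rw [Matrix.zero_mulVec]
        exact X.zero_mem
      · intro M N hM hN v hv
        rw [Matrix.add_mulVec]
        exact X.add_mem (hM v hv) (hN v hv)
      · intro M hM v hv
        rw [Matrix.neg_mulVec]
        exact X.neg_mem (hM v hv)
      · intro i v hv
        rw [hTpow]
        exact h1 _ v hv
    have h4 : ∀ i : ℕ, ∀ v ∈ X, (B ^ i) *ᵥ v ∈ X := by
      intro i
      induction i with
      | zero =>
        intro v hv
        simpa using hv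
      | succ i ih =>
        intro v hv
        rw [pow_succ, ← Matrix.mulVec_mulVec]
        exact ih _ (h3 v hv)
    apply top_unique
    intro w _
    by_cases hw : w = 0
    · rw [hw]
      exact X.zero_mem
    · obtain ⟨i, rfl⟩ := htrans x w hx0 hw
      exact h4 i x hx
  · intro v hv
    apply hTfix
    have h1 : ∀ n : ℕ, ((B ^ 2) ^ n) *ᵥ v = v := by
      intro n
      induction n with
      | zero => simp
      | succ n ih => rw [pow_succ, ← Matrix.mulVec_mulVec, hv, ih]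
    have h2 := hTpow 1
    rw [pow_one, mul_one] at h2
    rw [h2]
    exact h1 _
  · intro M halt hBM
    have hBM' : B * M = -(M * Bᵀ) := eq_neg_of_add_eq_zero_left hBM
    have hB2 : B ^ 2 * M = M * Bᵀ ^ 2 := by
      rw [pow_two, pow_two, Matrix.mul_assoc, hBM', Matrix.mul_neg, ← Matrix.mul_assoc, hBM',
        Matrix.neg_mul, neg_neg, Matrix.mul_assoc]
    have hB2n : ∀ n : ℕ, (B ^ 2) ^ n * M = M * (Bᵀ ^ 2) ^ n := by
      intro n
      induction n with
      | zero => simp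
      | succ n ih =>
        rw [pow_succ (B ^ 2) n, pow_succ (Bᵀ ^ 2) n, Matrix.mul_assoc, hB2, ← Matrix.mul_assoc, ih,
          Matrix.mul_assoc]
    have ha : B * M = M * Bᵀ := by
      apply hclos (fun X => X * M = M * Xᵀ)
      · simp
      · intro X Y hX hY
        rw [Matrix.add_mul, hX, hY, Matrix.transpose_add, Matrix.mul_add]
      · intro X hX
        rw [Matrix.neg_mul, hX, Matrix.transpose_neg, Matrix.mul_neg]
      · intro i
        rw [hTpow, hB2n, Matrix.transpose_pow, Matrix.transpose_pow]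
    have hb : ∀ i : ℕ, B ^ i * M = M * Bᵀ ^ i := by
      intro i
      induction i with
      | zero => simp
      | succ i ih =>
        rw [pow_succ, pow_succ, Matrix.mul_assoc, ha, ← Matrix.mul_assoc, ih, Matrix.mul_assoc]
    have hdot : ∀ (i : ℕ) (N : Matrix (Fin k) (Fin k) F) (y : Fin k → F),
        y ⬝ᵥ (B ^ i * N * Bᵀ ^ i) *ᵥ y = (Bᵀ ^ i *ᵥ y) ⬝ᵥ N *ᵥ (Bᵀ ^ i *ᵥ y) := by
      intro i N y
      rw [← Matrix.mulVec_mulVec, ← Matrix.mulVec_mulVec, Matrix.dotProduct_mulVec,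
        ← Matrix.mulVec_transpose, Matrix.transpose_pow]
    have heven : ∀ (i : ℕ) (y : Fin k → F), y ⬝ᵥ (M * Bᵀ ^ (2 * i)) *ᵥ y = 0 := by
      intro i y
      have h1 : M * Bᵀ ^ (2 * i) = B ^ i * M * Bᵀ ^ i := by
        rw [hb, Matrix.mul_assoc, ← pow_add, two_mul]
      rw [h1, hdot]
      exact halt _
    have halt' : ∀ y : Fin k → F, y ⬝ᵥ (M * Bᵀ) *ᵥ y = 0 := by
      apply hclos (fun X => ∀ y : Fin k → F, y ⬝ᵥ (M * Xᵀ) *ᵥ y = 0)
      · intro y
        simp
      · intro X Y hX hY y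
        rw [Matrix.transpose_add, Matrix.mul_add, Matrix.add_mulVec, dotProduct_add, hX y, hY y,
          add_zero]
      · intro X hX y
        rw [Matrix.transpose_neg, Matrix.mul_neg, Matrix.neg_mulVec, dotProduct_neg, hX y,
          neg_zero]
      · intro i y
        rw [hTpow, Matrix.transpose_pow, Matrix.transpose_pow, ← pow_mul]
        exact heven _ y
    have hodd : ∀ (i : ℕ) (y : Fin k → F), y ⬝ᵥ (M * Bᵀ ^ (2 * i + 1)) *ᵥ y = 0 := by
      intro i y
      have h1 : M * Bᵀ ^ (2 * i + 1) = B ^ i * (M * Bᵀ) * Bᵀ ^ i := by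
        calc M * Bᵀ ^ (2 * i + 1) = M * (Bᵀ ^ i * Bᵀ * Bᵀ ^ i) := by
              rw [← pow_succ, ← pow_add]
              congr 2
              omega
          _ = (M * Bᵀ ^ i) * Bᵀ * Bᵀ ^ i := by simp only [Matrix.mul_assoc]
          _ = (B ^ i * M) * Bᵀ * Bᵀ ^ i := by rw [hb]
          _ = B ^ i * (M * Bᵀ) * Bᵀ ^ i := by simp only [Matrix.mul_assoc]
      rw [h1, hdot]
      exact halt' _
    have hall : ∀ (j : ℕ) (y : Fin k → F), y ⬝ᵥ (M * Bᵀ ^ j) *ᵥ y = 0 := by
      intro j y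
      rcases Nat.even_or_odd' j with ⟨i, rfl | rfl⟩
      · exact heven i y
      · exact hodd i y
    have hBt1 : Bᵀ = G * B * G' := by
      rw [hGB, Matrix.mul_assoc, hGG', Matrix.mul_one]
    have hBt : ∀ j : ℕ, Bᵀ ^ j = G * B ^ j * G' := by
      intro j
      induction j with
      | zero => simp [hGG']
      | succ j ih =>
        rw [pow_succ Bᵀ j, ih, pow_succ B j]
        calc G * B ^ j * G' * Bᵀ = G * B ^ j * G' * (G * B * G') := by rw [← hBt1]
          _ = G * B ^ j * (G' * G) * B * G' := by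
              simp only [Matrix.mul_assoc]
          _ = G * (B ^ j * B) * G' := by
              rw [hG'G, Matrix.mul_one]
              simp only [Matrix.mul_assoc]
    have htr : ∀ y v : Fin k → F, y ≠ 0 → v ≠ 0 → ∃ j : ℕ, v = Bᵀ ^ j *ᵥ y := by
      intro y v hy hv
      have hGinj : ∀ w : Fin k → F, G' *ᵥ w = 0 → w = 0 := by
        intro w hw
        have h1 : G *ᵥ (G' *ᵥ w) = w := by
          rw [Matrix.mulVec_mulVec, hGG', Matrix.one_mulVec]
        rw [← h1, hw, Matrix.mulVec_zero]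
      obtain ⟨j, hj⟩ := htrans (G' *ᵥ y) (G' *ᵥ v) (fun h => hy (hGinj y h))
        (fun h => hv (hGinj v h))
      refine ⟨j, ?_⟩
      have h1 : G *ᵥ (G' *ᵥ v) = v := by
        rw [Matrix.mulVec_mulVec, hGG', Matrix.one_mulVec]
      rw [← h1, hj, hBt, Matrix.mulVec_mulVec, Matrix.mulVec_mulVec]
    have hzero : ∀ y v : Fin k → F, y ⬝ᵥ M *ᵥ v = 0 := by
      intro y v
      by_cases hy : y = 0
      · rw [hy, zero_dotProduct]
      by_cases hv : v = 0
      · rw [hv, Matrix.mulVec_zero, dotProduct_zero]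
      obtain ⟨j, rfl⟩ := htr y v hy hv
      rw [Matrix.mulVec_mulVec]
      exact hall j y
    ext i j
    have h1 := hzero (Pi.single i 1) (Pi.single j 1)
    simpa using h1
  · intro v hv t hBv
    have hpow : ∀ i : ℕ, (B ^ i) *ᵥ v = t ^ i • v := by
      intro i
      induction i with
      | zero => simp
      | succ i ih =>
        rw [pow_succ, ← Matrix.mulVec_mulVec, hBv, Matrix.mulVec_smul, ih, smul_smul, pow_succ,
          mul_comm]
    have hmult : ∀ w : Fin k → F, w ≠ 0 → ∃ c : F, w = c • v := by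
      intro w hw
      obtain ⟨i, rfl⟩ := htrans v w hv hw
      exact ⟨t ^ i, hpow i⟩
    obtain ⟨i0, hi0⟩ : ∃ i0 : Fin k, i0 = ⟨0, by omega⟩ := ⟨_, rfl⟩
    obtain ⟨i1, hi1⟩ : ∃ i1 : Fin k, i1 = ⟨1, by omega⟩ := ⟨_, rfl⟩
    have hne : i0 ≠ i1 := by
      rw [hi0, hi1]
      intro h
      have := congrArg Fin.val h
      simp at this
    obtain ⟨c0, hc0⟩ := hmult (Pi.single i0 1) (by
      intro h
      have := congrFun h i0
      simp at this)
    obtain ⟨c1, hc1⟩ := hmult (Pi.single i1 1) (by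
      intro h
      have := congrFun h i1
      simp at this)
    have h00 := congrFun hc0 i0
    have h10 := congrFun hc1 i0
    have h11 := congrFun hc1 i1
    rw [Pi.single_eq_same, Pi.smul_apply, smul_eq_mul] at h00 h11
    rw [Pi.single_eq_of_ne hne, Pi.smul_apply, smul_eq_mul] at h10
    have hv0 : v i0 ≠ 0 := by
      intro h
      rw [h, mul_zero] at h00
      exact one_ne_zero h00
    have hc10 : c1 = 0 := by
      rcases mul_eq_zero.mp h10.symm with h | h
      · exact h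
      · exact absurd h hv0
    rw [hc10, zero_mul] at h11
    exact one_ne_zero h11

end Cfsg.Agent.H16.MP
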