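import Mathlib

/-!
# helper16: S5984 pieces IDXG and IDXB (Mathlib only)
-/

set_option autoImplicit false

namespace Cfsg.Agent.H16.Pair

theorem card_mul_relIndex_of_le {G : Type*} [Group G] (H K : Subgroup G) (h : H ≤ K) :
    Nat.card H * H.relIndex K = Nat.card K := by
  rw [← Subgroup.card_mul_index (H.subgroupOf K)]
  congr 1
  exact (Nat.card_congr (Subgroup.subgroupOfEquivOfLe h).toEquiv).symm

/-- **S5984, piece IDXG.** -/
theorem relIndex_mul_card_dvd {G : Type*} [Group G] [Finite G] (S U N K : Subgroup G)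
    [N.Normal] (hKU : K ≤ U) (hKS : K ≤ S) :
    S.relIndex (U ⊓ N) * Nat.card K ∣ Nat.card U := by
  have hnorm : S ⊓ U ≤ Subgroup.normalizer ((U ⊓ N : Subgroup G) : Set G) := by
    intro a ha
    have haU : a ∈ U := (Subgroup.mem_inf.mp ha).2
    rw [Subgroup.mem_normalizer_iff]
    intro g
    constructor
    · intro hg
      obtain ⟨hgU, hgN⟩ := Subgroup.mem_inf.mp hg
      exact Subgroup.mem_inf.mpr ⟨U.mul_mem (U.mul_mem haU hgU) (U.inv_mem haU),
        (inferInstance : N.Normal).conj_mem g hgN a⟩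
    · intro hg
      obtain ⟨hgU, hgN⟩ := Subgroup.mem_inf.mp hg
      have e : g = a⁻¹ * (a * g * a⁻¹) * a⁻¹⁻¹ := by group
      rw [e]
      exact Subgroup.mem_inf.mpr ⟨U.mul_mem (U.mul_mem (U.inv_mem haU) hgU)
        (U.inv_mem (U.inv_mem haU)), (inferInstance : N.Normal).conj_mem _ hgN a⁻¹⟩
  have e1 : (U ⊓ N).relIndex (S ⊓ U ⊔ U ⊓ N) = (U ⊓ N).relIndex (S ⊓ U) := by
    let _ := Subgroup.normal_subgroupOf_of_le_normalizer hnorm
    let _ := Subgroup.normal_subgroupOf_sup_of_le_normalizer hnorm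
    exact Nat.card_congr
      (QuotientGroup.quotientInfEquivProdNormalizerQuotient (S ⊓ U) (U ⊓ N) hnorm).toEquiv.symm
  have e2 := card_mul_relIndex_of_le (U ⊓ N) (S ⊓ U ⊔ U ⊓ N) le_sup_right
  have e3 := card_mul_relIndex_of_le ((S ⊓ U) ⊓ (U ⊓ N)) (S ⊓ U) inf_le_left
  rw [Subgroup.inf_relIndex_left] at e3
  have e4 := card_mul_relIndex_of_le ((S ⊓ U) ⊓ (U ⊓ N)) (U ⊓ N) inf_le_right
  rw [Subgroup.inf_relIndex_right] at e4
  have e5 : (S ⊓ U).relIndex (U ⊓ N) = S.relIndex (U ⊓ N) := by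
    rw [← Subgroup.inf_relIndex_right (S ⊓ U) (U ⊓ N), ← Subgroup.inf_relIndex_right S (U ⊓ N)]
    congr 1
    ext x
    simp only [Subgroup.mem_inf]
    tauto
  rw [e5] at e4
  -- `|A ⊔ L| = |A| * ρ`
  have e6 : Nat.card (S ⊓ U ⊔ U ⊓ N : Subgroup G) =
      Nat.card (S ⊓ U : Subgroup G) * S.relIndex (U ⊓ N) := by
    rw [← e2, e1, ← e4, ← e3]
    ring
  have h1 : Nat.card K ∣ Nat.card (S ⊓ U : Subgroup G) :=
    Subgroup.card_dvd_of_le (le_inf hKS hKU)
  have h2 : Nat.card (S ⊓ U ⊔ U ⊓ N : Subgroup G) ∣ Nat.card U :=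
    Subgroup.card_dvd_of_le (sup_le inf_le_right inf_le_left)
  refine dvd_trans ?_ h2
  rw [e6, mul_comm]
  exact Nat.mul_dvd_mul h1 (dvd_refl _)

theorem prod_range_two_mul (q m : ℕ) :
    ∏ i ∈ Finset.range (2 * m), (if Even i then q ^ (i + 1) + 1 else q ^ (i + 1) - 1) =
      (∏ k ∈ Finset.range m, (q ^ (2 * k + 1) + 1)) *
        ∏ k ∈ Finset.range m, ((q ^ 2) ^ (k + 1) - 1) := by
  induction m with
  | zero => simp
  | succ m ih =>
    have e : 2 * (m + 1) = 2 * m + 1 + 1 := by ring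
    rw [e, Finset.prod_range_succ, Finset.prod_range_succ, ih, Finset.prod_range_succ,
      Finset.prod_range_succ]
    have h1 : Even (2 * m) := even_two_mul m
    have h2 : ¬ Even (2 * m + 1) := by
      rw [Nat.not_even_iff_odd]
      exact odd_two_mul_add_one m
    rw [if_pos h1, if_neg h2]
    have h3 : (q ^ 2) ^ (m + 1) = q ^ (2 * m + 1 + 1) := by
      rw [← pow_mul, e]
    rw [h3]
    ring

theorem prod_fin_eq (q m : ℕ) :
    ∏ i : Fin m, ((q ^ 2) ^ m - (q ^ 2) ^ (i : ℕ)) =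
      (∏ i ∈ Finset.range m, (q ^ 2) ^ i) * ∏ k ∈ Finset.range m, ((q ^ 2) ^ (k + 1) - 1) := by
  rw [Fin.prod_univ_eq_prod_range (fun i => (q ^ 2) ^ m - (q ^ 2) ^ i) m,
    ← Finset.prod_range_reflect (fun k => (q ^ 2) ^ (k + 1) - 1) m, ← Finset.prod_mul_distrib]
  apply Finset.prod_congr rfl
  intro i hi
  rw [Finset.mem_range] at hi
  have e : m - 1 - i + 1 = m - i := by omega
  rw [e, Nat.mul_sub, mul_one, ← pow_add]
  congr 2
  omega

/-- **S5984, piece IDXB.** -/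
theorem odd_order_of_dvd (q m r : ℕ) (hq : 2 ≤ q) (hr : r.Prime) (hr2 : r ≠ 2) (hrq : ¬ r ∣ q)
    (h : r * ∏ i : Fin m, ((q ^ 2) ^ m - (q ^ 2) ^ (i : ℕ))
      ∣ q ^ ((2 * m) * (2 * m - 1) / 2) *
        ∏ i ∈ Finset.range (2 * m), (if Even i then q ^ (i + 1) + 1 else q ^ (i + 1) - 1)) :
    Odd (orderOf (-(q : ZMod r))) ∧ orderOf (-(q : ZMod r)) ≤ 2 * m := by
  generalize (2 * m) * (2 * m - 1) / 2 = a at h
  rw [prod_range_two_mul, prod_fin_eq] at h
  have hpos : 0 < ∏ k ∈ Finset.range m, ((q ^ 2) ^ (k + 1) - 1) := by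
    apply Finset.prod_pos
    intro k _
    have h1 : 1 < (q ^ 2) ^ (k + 1) := Nat.one_lt_pow (by omega) (Nat.one_lt_pow (by omega) (by omega))
    omega
  have h1 : r * (∏ i ∈ Finset.range m, (q ^ 2) ^ i) ∣
      q ^ a * ∏ k ∈ Finset.range m, (q ^ (2 * k + 1) + 1) := by
    apply Nat.dvd_of_mul_dvd_mul_right hpos
    rw [mul_assoc, mul_assoc]
    exact h
  have h2 : r ∣ q ^ a * ∏ k ∈ Finset.range m, (q ^ (2 * k + 1) + 1) :=
    dvd_trans (dvd_mul_right r _) h1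
  have h3 : r ∣ ∏ k ∈ Finset.range m, (q ^ (2 * k + 1) + 1) := by
    rcases (Nat.Prime.dvd_mul hr).mp h2 with h4 | h4
    · exact absurd (hr.dvd_of_dvd_pow h4) hrq
    · exact h4
  obtain ⟨k, hk, hkd⟩ := (Prime.dvd_finsetProd_iff (Nat.prime_iff.mp hr) _).mp h3
  rw [Finset.mem_range] at hk
  have h4 : ((q : ZMod r)) ^ (2 * k + 1) + 1 = 0 := by
    have := (ZMod.natCast_eq_zero_iff (q ^ (2 * k + 1) + 1) r).mpr hkd
    push_cast at this
    exact this
  have h5 : (-(q : ZMod r)) ^ (2 * k + 1) = 1 := by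
    rw [(odd_two_mul_add_one k).neg_pow]
    linear_combination (-1 : ZMod r) * h4
  have h6 := orderOf_dvd_of_pow_eq_one h5
  refine ⟨Odd.of_dvd_nat (odd_two_mul_add_one k) h6, ?_⟩
  have := Nat.le_of_dvd (by omega) h6
  omega

end Cfsg.Agent.H16.Pair
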