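import Mathlib
import Cfsg.Agent.H17.PmDefs

/-!
# S2140-EXIST: a subgroup of `PSL_n(q)` of index `(q^n - 1)/(q - 1)`
-/

set_option autoImplicit false

namespace Cfsg.Agent.H16.Pm

open Cfsg Cfsg.Geo Cfsg.Agent.H17.Mn Cfsg.Agent.H17.Pm
open scoped MatrixGroups Matrix LinearAlgebra.Projectivization

variable {ι : Type} [Fintype ι] [DecidableEq ι] {F : Type*} [Field F]

theorem psl_exists_index [Fintype F] (n : ℕ) (hn : 3 ≤ n) :
    ∃ K : Subgroup (Matrix.ProjectiveSpecialLinearGroup (Fin n) F),
      K.index = (Fintype.card F ^ n - 1) / (Fintype.card F - 1) := by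
  classical
  have hv : (fun _ : Fin n => (1 : F)) ≠ 0 := by
    intro h
    have h1 := congrFun h ⟨0, by omega⟩
    simp at h1
  refine ⟨MulAction.stabilizer (Matrix.ProjectiveSpecialLinearGroup (Fin n) F)
    (Projectivization.mk F (fun _ : Fin n => (1 : F)) hv), ?_⟩
  haveI : MulAction.IsPretransitive (Matrix.ProjectiveSpecialLinearGroup (Fin n) F)
      (ℙ F (Fin n → F)) := MulAction.IsPreprimitive.toIsPretransitive
  rw [MulAction.index_stabilizer_of_transitive, Projectivization.card'']
  congr 1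
  · rw [Nat.card_eq_fintype_card, Fintype.card_fun, Fintype.card_fin]
  · rw [Nat.card_eq_fintype_card]

end Cfsg.Agent.H16.Pm
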