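import Mathlib
import Cfsg.Agent.H17.PmDefs
import Cfsg.Agent.H54.PmFisher

/-!
# S2140-INVIDX: a subgroup with a proper non-zero invariant subspace has index at least the
number of projective points
-/

set_option autoImplicit false

namespace Cfsg.Agent.H16.Pm

open Cfsg Cfsg.Geo Cfsg.Agent.H17.Mn Cfsg.Agent.H17.Pm
open scoped MatrixGroups Matrix LinearAlgebra.Projectivization

variable {ι : Type} [Fintype ι] [DecidableEq ι] {F : Type*} [Field F]

theorem index_of_invariant [Fintype F] (hn : 3 ≤ Fintype.card ι) (H : Subgroup (GL ι F))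
    (C : Submodule F (ι → F)) (hC0 : C ≠ ⊥) (hC1 : C ≠ ⊤)
    (hinv : ∀ h ∈ H, ∀ v ∈ C, (h : Matrix ι ι F) *ᵥ v ∈ C) :
    (Fintype.card F ^ Fintype.card ι - 1) / (Fintype.card F - 1) ≤
      H.relIndex (specialLinear ι F) := by
  classical
  have h2 : ∀ a b c d : ℙ F (ι → F), a ≠ b → c ≠ d →
      ∃ g : Matrix.SpecialLinearGroup ι F, g • a = c ∧ g • b = d := by
    intro a b c d hab hcd
    have h3 : MulAction.IsMultiplyPretransitive (Matrix.SpecialLinearGroup ι F)
        (ℙ F (ι → F)) 2 := inferInstance
    rw [MulAction.is_two_pretransitive_iff] at h3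
    exact h3 hab hcd
  have hrange : (Matrix.SpecialLinearGroup.toGL :
      Matrix.SpecialLinearGroup ι F →* GL ι F).range = specialLinear ι F := by
    ext g
    rw [Cfsg.Agent.H95.mem_specialLinear_iff, MonoidHom.mem_range]
    constructor
    · rintro ⟨s, rfl⟩
      exact s.2
    · intro hg
      refine ⟨⟨(g : Matrix ι ι F), hg⟩, ?_⟩
      apply Units.ext
      rfl
  have hS1 : ({p : ℙ F (ι → F) | p.submodule ≤ C} : Set (ℙ F (ι → F))).Nonempty := by
    obtain ⟨v, hv, hv0⟩ := (Submodule.ne_bot_iff C).mp hC0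
    refine ⟨Projectivization.mk F v hv0, ?_⟩
    rw [Set.mem_setOf_eq, Projectivization.submodule_mk, Submodule.span_singleton_le_iff_mem]
    exact hv
  have hS2 : ({p : ℙ F (ι → F) | p.submodule ≤ C} : Set (ℙ F (ι → F))) ≠ Set.univ := by
    intro heq
    apply hC1
    rw [eq_top_iff]
    intro v _
    by_cases hv0 : v = 0
    · rw [hv0]
      exact C.zero_mem
    · have h3 : Projectivization.mk F v hv0 ∈
          ({p : ℙ F (ι → F) | p.submodule ≤ C} : Set (ℙ F (ι → F))) := by
        rw [heq]
        exact Set.mem_univ _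
      rw [Set.mem_setOf_eq, Projectivization.submodule_mk,
        Submodule.span_singleton_le_iff_mem] at h3
      exact h3
  have hinv' : ∀ h ∈ H.comap (Matrix.SpecialLinearGroup.toGL :
      Matrix.SpecialLinearGroup ι F →* GL ι F),
      ∀ p ∈ ({p : ℙ F (ι → F) | p.submodule ≤ C} : Set (ℙ F (ι → F))),
      h • p ∈ ({p : ℙ F (ι → F) | p.submodule ≤ C} : Set (ℙ F (ι → F))) := by
    intro h hh p hp
    induction p using Projectivization.ind with
    | _ v hv =>
      rw [Set.mem_setOf_eq, Projectivization.submodule_mk,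
        Submodule.span_singleton_le_iff_mem] at hp
      rw [Set.mem_setOf_eq, Projectivization.matrixSpecialLinearGroup_smul_def,
        Projectivization.smul_mk, Projectivization.submodule_mk,
        Submodule.span_singleton_le_iff_mem]
      have h3 := hinv _ (Subgroup.mem_comap.mp hh) v hp
      exact h3
  have h4 := Cfsg.Agent.H54.Pm.fisher_index h2
    (H.comap (Matrix.SpecialLinearGroup.toGL : Matrix.SpecialLinearGroup ι F →* GL ι F))
    _ hS1 hS2 hinv'
  rw [Subgroup.index_comap, hrange, Projectivization.card''] at h4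
  have h5 : Nat.card (ι → F) = Fintype.card F ^ Fintype.card ι := by
    rw [Nat.card_eq_fintype_card, Fintype.card_fun]
  rw [h5, Nat.card_eq_fintype_card] at h4
  exact h4

end Cfsg.Agent.H16.Pm
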