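import Mathlib
import Cfsg.Agent.H17.PmDefs

/-!
# S2140-XFER: from subgroups of `GL_n` not containing `SL_n` to proper subgroups of `PSL_n`
-/

set_option autoImplicit false

namespace Cfsg.Agent.H16.Pm

open Cfsg Cfsg.Geo Cfsg.Agent.H17.Mn Cfsg.Agent.H17.Pm
open scoped MatrixGroups Matrix

variable {ι : Type} [Fintype ι] [DecidableEq ι] {F : Type*} [Field F]

theorem psl_transfer [Fintype F] (n N : ℕ)
    (h : ∀ H : Subgroup (GL (Fin n) F), ¬ specialLinear (Fin n) F ≤ H →
      N ≤ H.relIndex (specialLinear (Fin n) F))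
    (K : Subgroup (Matrix.ProjectiveSpecialLinearGroup (Fin n) F)) (hK : K ≠ ⊤) :
    N ≤ K.index := by
  classical
  have hsurj : Function.Surjective
      (QuotientGroup.mk' (Subgroup.center (Matrix.SpecialLinearGroup (Fin n) F))) :=
    QuotientGroup.mk'_surjective _
  obtain ⟨K', hK'⟩ : ∃ K' : Subgroup (Matrix.SpecialLinearGroup (Fin n) F),
      K' = K.comap (QuotientGroup.mk' (Subgroup.center (Matrix.SpecialLinearGroup (Fin n) F))) :=
    ⟨_, rfl⟩
  have hidx : K'.index = K.index := by
    rw [hK']
    exact Subgroup.index_comap_of_surjective K hsurj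
  have hK'top : K' ≠ ⊤ := by
    intro htop
    apply hK
    rw [eq_top_iff]
    intro x _
    obtain ⟨y, rfl⟩ := hsurj x
    have h1 : y ∈ K' := by
      rw [htop]
      exact Subgroup.mem_top y
    rw [hK'] at h1
    exact h1
  have hinj : Function.Injective
      (Matrix.SpecialLinearGroup.toGL : Matrix.SpecialLinearGroup (Fin n) F →* GL (Fin n) F) := by
    intro a b hab
    apply Subtype.ext
    have h1 := congrArg (fun g : GL (Fin n) F => (g : Matrix (Fin n) (Fin n) F)) hab
    exact h1
  have hSL : specialLinear (Fin n) F = (⊤ : Subgroup (Matrix.SpecialLinearGroup (Fin n) F)).map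
      Matrix.SpecialLinearGroup.toGL := by
    ext g
    rw [Cfsg.Agent.H95.mem_specialLinear_iff, Subgroup.mem_map]
    constructor
    · intro hg
      refine ⟨⟨(g : Matrix (Fin n) (Fin n) F), hg⟩, Subgroup.mem_top _, ?_⟩
      apply Units.ext
      rfl
    · rintro ⟨s, -, rfl⟩
      exact s.2
  have hnot : ¬ specialLinear (Fin n) F ≤ K'.map Matrix.SpecialLinearGroup.toGL := by
    intro hle
    rw [hSL, Subgroup.map_le_map_iff_of_injective hinj] at hle
    exact hK'top (top_le_iff.mp hle)
  have h2 := h _ hnot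
  rw [hSL, Subgroup.relIndex_map_map_of_injective _ _ hinj, Subgroup.relIndex_top_right, hidx] at h2
  exact h2

end Cfsg.Agent.H16.Pm
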