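import Mathlib
import Cfsg.Agent.S0682
import Cfsg.Agent.H60.Sharp3Core
import Cfsg.Agent.H60.Sharp3Main
import Cfsg.Agent.H16.KTComm

/-!
# Sharply 3-transitive groups of degree `p^f + 1`, `p` odd, `f` odd (helper16)

`sharp3_core_odd`: a sharply 3-transitive permutation group of `OnePoint T`, `|T| = p^f` with
`p` an odd prime and `f` odd, is the Möbius group of a field structure on `T`.

The set-up (near-field from the sharply 2-transitive point stabiliser, the involution `t`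
swapping `0, ∞`) follows helper60's `H60/Sharp3Core`; the new input is `kt_comm`/`kt_inv`.
-/

set_option autoImplicit false

namespace Cfsg.Agent.H16

open OnePoint
open Cfsg.Agent.H60 (extP extP_infty extP_coe extP_injective extP_one extHom
  exists_extP_of_fix_infty mobGroup mob_eq)

/-- commutative additive group structure of a near-field with commutative addition. -/
@[reducible] def nfAddCommGroup (T : Type*) [Cfsg.NearField T] (h : ∀ x y : T, x + y = y + x) :
    AddCommGroup T :=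
  { (inferInstance : AddGroup T) with add_comm := h }

section NF
variable {T : Type*} [Fintype T] [DecidableEq T]

/-- The near-field stage of `sharp3_core_odd`. -/
theorem core_nf_odd [nf : Cfsg.NearField T] (G : Subgroup (Equiv.Perm (OnePoint T)))
    (h3 : ∀ a b c a' b' c' : OnePoint T, a ≠ b → a ≠ c → b ≠ c → a' ≠ b' → a' ≠ c' → b' ≠ c' →
      ∃ g ∈ G, g a = a' ∧ g b = b' ∧ g c = c')
    (hs : ∀ g ∈ G, ∀ a b c : OnePoint T, a ≠ b → a ≠ c → b ≠ c → g a = a → g b = b → g c = c →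
      g = 1)
    {p f : ℕ} (hp : p.Prime) (hp2 : p ≠ 2) (hf : Odd f) (hcard : Fintype.card T = p ^ f)
    (hH : ∀ σ : Equiv.Perm T, extP σ ∈ G ↔ ∃ a b : T, a ≠ 0 ∧ ∀ x : T, σ x = x * a + b) :
    ∃ (_ : Field T), G = mobGroup T := by
  classical
  have h01 : (0 : T) ≠ 1 := Cfsg.NearField.zero_ne_one
  have hzm : ∀ a : T, (0 : T) * a = 0 := Cfsg.Agent.H60.nf_zero_mul
  have hmz : ∀ a : T, a * 0 = 0 := Cfsg.NearField.mul_zero
  have hrd : ∀ a b c : T, (a + b) * c = a * c + b * c := Cfsg.NearField.right_distrib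
  have hinv : ∀ a : T, a ≠ 0 → ∃ b : T, a * b = 1 ∧ b * a = 1 := Cfsg.NearField.exists_inv
  -- (P1) affine maps
  have P1 : ∀ a b : T, a ≠ 0 → ∃ σ : Equiv.Perm T, extP σ ∈ G ∧ ∀ x : T, σ x = x * a + b := by
    intro a b ha
    obtain ⟨a', h1, h2⟩ := hinv a ha
    let σ : Equiv.Perm T :=
      { toFun := fun x => x * a + b
        invFun := fun y => (y - b) * a'
        left_inv := fun x => by
          show (x * a + b - b) * a' = x
          rw [add_sub_cancel_right, mul_assoc, h1, mul_one]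
        right_inv := fun y => by
          show (y - b) * a' * a + b = y
          rw [mul_assoc, h2, mul_one, sub_add_cancel] }
    exact ⟨σ, (hH σ).mpr ⟨a, b, ha, fun x => rfl⟩, fun x => rfl⟩
  -- (P2) elements fixing `∞` are affine
  have P2 : ∀ g ∈ G, g ∞ = ∞ →
      ∃ a b : T, a ≠ 0 ∧ ∀ x : T, g (x : OnePoint T) = ((x * a + b : T) : OnePoint T) := by
    intro g hg hgi
    obtain ⟨σ, rfl⟩ := exists_extP_of_fix_infty g hgi
    obtain ⟨a, b, ha, hab⟩ := (hH σ).mp hg
    exact ⟨a, b, ha, fun x => by rw [extP_coe, hab]⟩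
  -- the element `t`
  have hi0 : (∞ : OnePoint T) ≠ ((0 : T) : OnePoint T) := OnePoint.infty_ne_coe _
  have hi1 : (∞ : OnePoint T) ≠ ((1 : T) : OnePoint T) := OnePoint.infty_ne_coe _
  have h01' : ((0 : T) : OnePoint T) ≠ ((1 : T) : OnePoint T) :=
    fun h => h01 (OnePoint.coe_injective h)
  obtain ⟨t, htG, ht1, ht2, ht3⟩ :=
    h3 ∞ (0 : T) (1 : T) (0 : T) ∞ (1 : T) hi0 hi1 h01' hi0.symm h01' hi1
  have htt : t * t = 1 := by
    apply hs (t * t) (G.mul_mem htG htG) ∞ (0 : T) (1 : T) hi0 hi1 h01'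
    · show t (t ∞) = ∞; rw [ht1, ht2]
    · show t (t _) = _; rw [ht2, ht1]
    · show t (t _) = _; rw [ht3, ht3]
  have htt' : ∀ q, t (t q) = q := fun q => by
    have := congrArg (fun σ : Equiv.Perm (OnePoint T) => σ q) htt
    exact this
  -- `t` on nonzero points
  have ht4 : ∀ x : T, x ≠ 0 → ∃ y : T, y ≠ 0 ∧ t (x : OnePoint T) = (y : OnePoint T) := by
    intro x hx
    cases h : t (x : OnePoint T) with
    | infty =>
      exfalso
      rw [← ht2] at h
      exact hx (OnePoint.coe_injective (t.injective h))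
    | coe y =>
      refine ⟨y, ?_, rfl⟩
      rintro rfl
      rw [← ht1] at h
      exact OnePoint.coe_ne_infty x (t.injective h)
  -- the multiplications `M_a`
  have hM : ∀ a : T, a ≠ 0 → ∃ M ∈ G, M ∞ = ∞ ∧
      ∀ x : T, M (x : OnePoint T) = ((x * a : T) : OnePoint T) := by
    intro a ha
    obtain ⟨σ, hσG, hσ⟩ := P1 a 0 ha
    refine ⟨extP σ, hσG, extP_infty σ, fun x => ?_⟩
    rw [extP_coe, hσ, add_zero]
  -- additive structure
  obtain ⟨p', j, hp', hj, hcard', hacomm, hexp'⟩ := Cfsg.Agent.S0682.result (F := T)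
  have hpp : p' = p := by
    have h1 : p' ∣ p ^ f := by
      rw [← hcard, ← Nat.card_eq_fintype_card, hcard']
      exact dvd_pow_self p' (by omega)
    exact (Nat.prime_dvd_prime_iff_eq hp' hp).mp (hp'.dvd_of_dvd_pow h1)
  rw [hpp] at hexp'
  have hR : @IsNF T (nfAddCommGroup T hacomm) _ :=
    @IsNF.mk T (nfAddCommGroup T hacomm) _ hrd hmz h01 hinv
  have hoddc : Odd (Nat.card T) := by
    rw [Nat.card_eq_fintype_card, hcard]
    exact (hp.odd_of_ne_two hp2).pow
  have hn0 : (-1 : T) ≠ 0 := @IsNF.neg_one_ne_zero T (nfAddCommGroup T hacomm) _ hR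
  have hn1 : (-1 : T) ≠ 1 := @IsNF.neg_one_ne_one T (nfAddCommGroup T hacomm) _ hR _ hoddc
  have hnm : ∀ x : T, (-1 : T) * x = -x := @IsNF.neg_one_mul' T (nfAddCommGroup T hacomm) _ hR
  have hmn : ∀ x : T, x * (-1 : T) = -x :=
    @IsNF.mul_neg_one T (nfAddCommGroup T hacomm) _ hR _ hoddc
  -- the function `tt`
  let tt : T → T := fun x => (t (x : OnePoint T)).elim 0 id
  have htt_eq : ∀ x y : T, t (x : OnePoint T) = (y : OnePoint T) → tt x = y := by
    intro x y h
    show (t (x : OnePoint T)).elim 0 id = y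
    rw [h]; rfl
  have htt_spec : ∀ x : T, x ≠ 0 →
      t (x : OnePoint T) = ((tt x : T) : OnePoint T) ∧ tt x ≠ 0 := by
    intro x hx
    obtain ⟨y, hy0, hy⟩ := ht4 x hx
    rw [htt_eq x y hy]
    exact ⟨hy, hy0⟩
  have k0 : ∀ x : T, x ≠ 0 → tt x ≠ 0 := fun x hx => (htt_spec x hx).2
  have k1 : tt 1 = 1 := htt_eq 1 1 ht3
  have k3 : ∀ x : T, x ≠ 0 → tt (tt x) = x := by
    intro x hx
    apply htt_eq
    rw [← (htt_spec x hx).1, htt']
  have k2 : ∀ x a : T, x ≠ 0 → a ≠ 0 → tt (x * a) = tt x * tt a := by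
    intro x a hx ha
    obtain ⟨Ma, hMaG, hMai, hMa⟩ := hM a ha
    have hgG : t * Ma * t ∈ G := G.mul_mem (G.mul_mem htG hMaG) htG
    have hgi : (t * Ma * t) ∞ = ∞ := by
      show t (Ma (t ∞)) = ∞
      rw [ht1, hMa, hzm, ht2]
    obtain ⟨a', b', -, hab⟩ := P2 _ hgG hgi
    have e0 : (t * Ma * t) ((0 : T) : OnePoint T) = ((0 : T) : OnePoint T) := by
      show t (Ma (t _)) = _
      rw [ht2, hMai, ht1]
    have hb' : b' = 0 := by
      have := hab 0
      rw [e0, hzm, zero_add] at this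
      exact (OnePoint.coe_injective this).symm
    have e1 : (t * Ma * t) ((1 : T) : OnePoint T) = ((tt a : T) : OnePoint T) := by
      show t (Ma (t _)) = _
      rw [ht3, hMa, one_mul, (htt_spec a ha).1]
    have ha' : a' = tt a := by
      have := hab 1
      rw [e1, one_mul, hb', add_zero] at this
      exact (OnePoint.coe_injective this).symm
    have hxa : x * a ≠ 0 := by
      intro h
      obtain ⟨a'', ha1, -⟩ := hinv a ha
      have h' : x = x * a * a'' := by rw [mul_assoc, ha1, mul_one]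
      rw [h, hzm] at h'
      exact hx h'
    have e2 : (t * Ma * t) ((tt x : T) : OnePoint T) = ((tt (x * a) : T) : OnePoint T) := by
      show t (Ma (t _)) = _
      rw [← (htt_spec x hx).1, htt', hMa, (htt_spec (x * a) hxa).1]
    have := hab (tt x)
    rw [e2, hb', add_zero, ha'] at this
    exact OnePoint.coe_injective this
  have ktn : tt (-1) = -1 :=
    @kt_tt_neg_one T (nfAddCommGroup T hacomm) _ _ hR hoddc tt k1 k2 k3
  have k4 : ∀ x : T, x ≠ 0 → tt x = x → x = 1 ∨ x = -1 := by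
    intro x hx hfx
    by_contra hcon
    rw [not_or] at hcon
    have e1 : t ((1 : T) : OnePoint T) = ((1 : T) : OnePoint T) := ht3
    have e2 : t ((-1 : T) : OnePoint T) = ((-1 : T) : OnePoint T) := by
      rw [(htt_spec (-1) hn0).1, ktn]
    have e3 : t (x : OnePoint T) = (x : OnePoint T) := by
      rw [(htt_spec x hx).1, hfx]
    have ht1' : t = 1 := hs t htG ((1 : T) : OnePoint T) ((-1 : T) : OnePoint T) (x : OnePoint T)
      (fun h => hn1 (OnePoint.coe_injective h).symm)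
      (fun h => hcon.1 (OnePoint.coe_injective h).symm)
      (fun h => hcon.2 (OnePoint.coe_injective h).symm) e1 e2 e3
    rw [ht1'] at ht1
    exact hi0 ht1
  -- commutativity
  have hcomm : ∀ x a : T, x * a = a * x :=
    @kt_comm T (nfAddCommGroup T hacomm) _ _ hR p f hp hp2 hf hcard hexp' tt k1 k2 k3 k4
  -- the Kerby–Tits identity
  have ktneg : ∀ y : T, y ≠ 0 → tt (-y) = -tt y := by
    intro y hy
    rw [← hnm y, k2 (-1) y hn0 hy, ktn, hnm]
  obtain ⟨Mi, hMiG, hMii, hMi⟩ := hM (-1) hn0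
  obtain ⟨σ, hσG, hσ⟩ := P1 1 1 h01.symm
  have hτ : ∀ x : T, extP σ (x : OnePoint T) = ((x + 1 : T) : OnePoint T) := by
    intro x; rw [extP_coe, hσ, mul_one]
  have hgG : t * Mi * extP σ ∈ G := G.mul_mem (G.mul_mem htG hMiG) hσG
  have hg_inf : (t * Mi * extP σ) ∞ = ((0 : T) : OnePoint T) := by
    show t (Mi (extP σ ∞)) = _
    rw [extP_infty, hMii, ht1]
  have hg_fin : ∀ x : T, x + 1 ≠ 0 →
      (t * Mi * extP σ) (x : OnePoint T) = ((-tt (x + 1) : T) : OnePoint T) := by
    intro x hx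
    show t (Mi (extP σ (x : OnePoint T))) = _
    rw [hτ, hMi, hmn, (htt_spec (-(x + 1)) (neg_ne_zero.mpr hx)).1, ktneg _ hx]
  have hg_m1 : (t * Mi * extP σ) ((-1 : T) : OnePoint T) = ∞ := by
    show t (Mi (extP σ _)) = _
    rw [hτ, neg_add_cancel, hMi, hzm, ht2]
  have hg_0 : (t * Mi * extP σ) ((0 : T) : OnePoint T) = ((-1 : T) : OnePoint T) := by
    have := hg_fin 0 (by rw [zero_add]; exact h01.symm)
    rw [zero_add, k1] at this
    exact this
  have hggg : (t * Mi * extP σ) * (t * Mi * extP σ) * (t * Mi * extP σ) = 1 := by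
    apply hs _ (G.mul_mem (G.mul_mem hgG hgG) hgG) ∞ ((0 : T) : OnePoint T)
      ((-1 : T) : OnePoint T) hi0 (OnePoint.infty_ne_coe _)
      (fun h => hn0 (OnePoint.coe_injective h).symm)
    · show (t * Mi * extP σ) ((t * Mi * extP σ) ((t * Mi * extP σ) ∞)) = ∞
      rw [hg_inf, hg_0, hg_m1]
    · show (t * Mi * extP σ) ((t * Mi * extP σ) ((t * Mi * extP σ) _)) = _
      rw [hg_0, hg_m1, hg_inf]
    · show (t * Mi * extP σ) ((t * Mi * extP σ) ((t * Mi * extP σ) _)) = _
      rw [hg_m1, hg_inf, hg_0]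
  have hggg' : ∀ q, (t * Mi * extP σ) ((t * Mi * extP σ) ((t * Mi * extP σ) q)) = q :=
    fun q => by
      have := congrArg (fun ρ : Equiv.Perm (OnePoint T) => ρ q) hggg
      exact this
  have k5 : ∀ x : T, x ≠ 0 → x ≠ -1 → tt (1 - tt (x + 1)) = tt x + 1 := by
    intro x hx hx1
    have hu : x + 1 ≠ 0 := fun h => hx1 (eq_neg_of_add_eq_zero_left h)
    have hv1 : tt (x + 1) ≠ 1 := by
      intro h
      have h6 := k3 _ hu
      rw [h, k1] at h6
      exact hx (right_eq_add.mp h6)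
    have e1 : (t * Mi * extP σ) (x : OnePoint T) = ((-tt (x + 1) : T) : OnePoint T) :=
      hg_fin x hu
    have hy1 : -tt (x + 1) + 1 ≠ 0 := by
      intro h
      exact hv1 (neg_injective (eq_neg_of_add_eq_zero_left h))
    have e2 : (t * Mi * extP σ) ((-tt (x + 1) : T) : OnePoint T)
        = ((-tt (-tt (x + 1) + 1) : T) : OnePoint T) := hg_fin _ hy1
    have e3 : (t * Mi * extP σ) ((-tt (-tt (x + 1) + 1) : T) : OnePoint T)
        = (x : OnePoint T) := by
      rw [← e2, ← e1]; exact hggg' _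
    have hz : -tt (-tt (x + 1) + 1) + 1 ≠ 0 := by
      intro hz
      have h6 : -tt (-tt (x + 1) + 1) = -1 := eq_neg_of_add_eq_zero_left hz
      rw [h6, hg_m1] at e3
      exact OnePoint.infty_ne_coe _ e3
    have e4 := hg_fin _ hz
    rw [e3] at e4
    have e5 : x = -tt (-tt (-tt (x + 1) + 1) + 1) := OnePoint.coe_injective e4
    have e6 : tt (-tt (-tt (x + 1) + 1) + 1) = -x := neg_eq_iff_eq_neg.mp e5.symm
    have e7 : -tt (-tt (x + 1) + 1) + 1 = -tt x := by
      rw [← k3 _ hz, e6, ktneg x hx]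
    have e8 : -tt (-tt (x + 1) + 1) = -tt x + -1 := eq_add_neg_of_add_eq e7
    have e9 : tt (-tt (x + 1) + 1) = tt x + 1 := by
      have h6 := congrArg Neg.neg e8
      rw [neg_neg, neg_add_rev, neg_neg, neg_neg] at h6
      rw [h6]
      exact hacomm 1 (tt x)
    have e10 : (1 : T) - tt (x + 1) = -tt (x + 1) + 1 := by rw [sub_eq_add_neg, hacomm]
    rw [e10]
    exact e9
  have hinvT : ∀ x : T, x ≠ 0 → tt x * x = 1 :=
    @kt_inv T (nfAddCommGroup T hacomm) _ _ hR hoddc hcomm tt k0 k1 k2 k3 k4 k5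
  have hld : ∀ a b c : T, a * (b + c) = a * b + a * c := by
    intro a b c
    rw [hcomm a (b + c), hrd, hcomm b a, hcomm c a]
  -- the three inputs of `mob_eq`
  have P1' : ∀ a b : T, a ≠ 0 → ∃ σ ∈ G, σ ∞ = ∞ ∧
      ∀ x : T, σ (x : OnePoint T) = ((a * x + b : T) : OnePoint T) := by
    intro a b ha
    obtain ⟨σ, hσG, hσ⟩ := P1 a b ha
    exact ⟨extP σ, hσG, extP_infty σ, fun x => by rw [extP_coe, hσ, hcomm]⟩
  have P2' : ∀ g ∈ G, g ∞ = ∞ →
      ∃ a b : T, a ≠ 0 ∧ ∀ x : T, g (x : OnePoint T) = ((a * x + b : T) : OnePoint T) := by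
    intro g hg hgi
    obtain ⟨a, b, ha, hab⟩ := P2 g hg hgi
    exact ⟨a, b, ha, fun x => by rw [hab, hcomm]⟩
  have P3' : ∀ x y : T, x * y = 1 → t (x : OnePoint T) = (y : OnePoint T) := by
    intro x y hxy
    have hx : x ≠ 0 := by
      rintro rfl
      rw [hzm] at hxy
      exact h01 hxy
    have e := hinvT x hx
    have hzy : tt x = y := by
      calc tt x = tt x * (x * y) := by rw [hxy, mul_one]
        _ = y := by rw [← mul_assoc, e, one_mul]
    rw [(htt_spec x hx).1, hzy]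
  -- the field
  let cr : CommRing T :=
    CommRing.ofMinimalAxioms add_assoc zero_add neg_add_cancel mul_assoc hcomm one_mul hld
  have hisf : IsField T :=
    ⟨⟨0, 1, h01⟩, hcomm, fun {a} ha => by
      obtain ⟨b, hb, -⟩ := hinv a ha
      exact ⟨b, hb⟩⟩
  let F : Field T := hisf.toField
  exact ⟨F, mob_eq G P1' P2' ⟨t, htG, ht1, ht2, fun x hx => P3' x x⁻¹ (mul_inv_cancel₀ hx)⟩⟩

/-- A sharply 3-transitive permutation group of `OnePoint T`, with `|T| = p^f`, `p` an odd
prime and `f` odd, is the Möbius group of a field structure on `T`. -/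
theorem sharp3_core_odd (G : Subgroup (Equiv.Perm (OnePoint T)))
    (h3 : ∀ a b c a' b' c' : OnePoint T, a ≠ b → a ≠ c → b ≠ c → a' ≠ b' → a' ≠ c' → b' ≠ c' →
      ∃ g ∈ G, g a = a' ∧ g b = b' ∧ g c = c')
    (hs : ∀ g ∈ G, ∀ a b c : OnePoint T, a ≠ b → a ≠ c → b ≠ c → g a = a → g b = b → g c = c →
      g = 1)
    {p f : ℕ} (hp : p.Prime) (hp2 : p ≠ 2) (hf : Odd f) (hcard : Fintype.card T = p ^ f) :
    ∃ (_ : Field T), G = mobGroup T := by
  classical
  have h2 : 2 ≤ Fintype.card T := by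
    rw [hcard]
    obtain ⟨k, hk⟩ := hf
    have h1 : p ^ 1 ≤ p ^ f := Nat.pow_le_pow_right hp.pos (by omega)
    rw [pow_one] at h1
    have := hp.two_le
    omega
  let H : Subgroup (Equiv.Perm T) := G.comap (extHom T)
  have hHmem : ∀ σ : Equiv.Perm T, σ ∈ H ↔ extP σ ∈ G := fun σ => Iff.rfl
  have hsharp2 : ∀ σ : Equiv.Perm T, σ ∈ H → ∀ a b : T, a ≠ b → σ a = a → σ b = b → σ = 1 := by
    intro σ hσ a b hab ha hb
    apply extP_injective
    rw [extP_one]
    apply hs (extP σ) hσ ∞ (a : T) (b : T) (OnePoint.infty_ne_coe _) (OnePoint.infty_ne_coe _)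
      (fun h => hab (OnePoint.coe_injective h)) (extP_infty σ)
    · rw [extP_coe, ha]
    · rw [extP_coe, hb]
  have h2t : MulAction.IsMultiplyPretransitive H T 2 := by
    rw [MulAction.is_two_pretransitive_iff]
    intro a b c d hab hcd
    obtain ⟨g, hgG, hg1, hg2, hg3⟩ := h3 ∞ (a : T) (b : T) ∞ (c : T) (d : T)
      (OnePoint.infty_ne_coe _) (OnePoint.infty_ne_coe _)
      (fun h => hab (OnePoint.coe_injective h)) (OnePoint.infty_ne_coe _)
      (OnePoint.infty_ne_coe _) (fun h => hcd (OnePoint.coe_injective h))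
    obtain ⟨σ, rfl⟩ := exists_extP_of_fix_infty g hg1
    refine ⟨⟨σ, hgG⟩, ?_, ?_⟩
    · show σ a = c
      rw [extP_coe] at hg2
      exact OnePoint.coe_injective hg2
    · show σ b = d
      rw [extP_coe] at hg3
      exact OnePoint.coe_injective hg3
  have hsharp : ∀ x : Fin 2 ↪ T, MulAction.stabilizer H x = ⊥ := by
    intro x
    rw [eq_bot_iff]
    intro g hg
    rw [MulAction.mem_stabilizer_iff] at hg
    have h0 : (g : Equiv.Perm T) (x 0) = x 0 := by
      have := congrArg (fun y : Fin 2 ↪ T => y 0) hg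
      exact this
    have h1 : (g : Equiv.Perm T) (x 1) = x 1 := by
      have := congrArg (fun y : Fin 2 ↪ T => y 1) hg
      exact this
    have hne : x 0 ≠ x 1 := fun h => by
      have := x.injective h
      exact absurd this (by decide)
    rw [Subgroup.mem_bot]
    exact Subtype.ext (hsharp2 g.1 g.2 _ _ hne h0 h1)
  obtain ⟨nf, hnf⟩ := Cfsg.Agent.S0683.result H hsharp h2
  exact @core_nf_odd T _ _ nf G h3 hs p f hp hp2 hf hcard (fun σ => (hHmem σ).symm.trans (hnf σ))

end NF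

open Cfsg.Agent.H60 (card_onePoint nonempty_mobGroup_mulEquiv_pgl) in
/-- A group acting sharply 3-transitively on a finite set of size `p^f + 1`, `p` an odd prime
and `f` odd, is `PGL(2, F)` for a field structure on `Fin (p^f)`. -/
theorem sharp3_abstract_odd {G : Type*} [Group G] {Ω : Type*} [Fintype Ω] [MulAction G Ω]
    (h3 : ∀ a b c a' b' c' : Ω, a ≠ b → a ≠ c → b ≠ c → a' ≠ b' → a' ≠ c' → b' ≠ c' →
      ∃ g : G, g • a = a' ∧ g • b = b' ∧ g • c = c')
    (hs : ∀ (g : G) (a b c : Ω), a ≠ b → a ≠ c → b ≠ c → g • a = a → g • b = b → g • c = c →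
      g = 1)
    {p f : ℕ} (hp : p.Prime) (hp2 : p ≠ 2) (hf : Odd f)
    (hcard : Fintype.card Ω = p ^ f + 1) :
    ∃ (_ : Field (Fin (p ^ f))),
      Nonempty (G ≃* Matrix.ProjGenLinGroup (Fin 2) (Fin (p ^ f))) := by
  classical
  have hq2 : 2 ≤ p ^ f := by
    obtain ⟨k, hk⟩ := hf
    have h1 : p ^ 1 ≤ p ^ f := Nat.pow_le_pow_right hp.pos (by omega)
    rw [pow_one] at h1
    have := hp.two_le
    omega
  have hc : Fintype.card Ω = Fintype.card (OnePoint (Fin (p ^ f))) := by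
    rw [card_onePoint, Fintype.card_fin, hcard]
  let e : Ω ≃ OnePoint (Fin (p ^ f)) := Fintype.equivOfCardEq hc
  let φ : G →* Equiv.Perm (OnePoint (Fin (p ^ f))) :=
    (e.permCongrHom : Equiv.Perm Ω →* Equiv.Perm (OnePoint (Fin (p ^ f)))).comp
      (MulAction.toPermHom G Ω)
  have hφ : ∀ (g : G) (q : OnePoint (Fin (p ^ f))), φ g q = e (g • e.symm q) := fun g q => rfl
  let z0 : Fin (p ^ f) := ⟨0, by omega⟩
  let z1 : Fin (p ^ f) := ⟨1, by omega⟩
  have h01 : z0 ≠ z1 := by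
    intro h
    have := congrArg Fin.val h
    simp [z0, z1] at this
  have hφinj : Function.Injective φ := by
    rw [injective_iff_map_eq_one]
    intro g hg
    have hfix : ∀ q : OnePoint (Fin (p ^ f)), g • e.symm q = e.symm q := by
      intro q
      have h1 : φ g q = q := by rw [hg]; rfl
      rw [hφ] at h1
      exact (Equiv.eq_symm_apply e).mpr h1
    exact hs g (e.symm ∞) (e.symm (z0 : OnePoint (Fin (p ^ f))))
      (e.symm (z1 : OnePoint (Fin (p ^ f))))
      (e.symm.injective.ne (OnePoint.infty_ne_coe _)) (e.symm.injective.ne (OnePoint.infty_ne_coe _))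
      (e.symm.injective.ne (fun h => h01 (OnePoint.coe_injective h))) (hfix _) (hfix _) (hfix _)
  have h3₀ : ∀ a b c a' b' c' : OnePoint (Fin (p ^ f)), a ≠ b → a ≠ c → b ≠ c → a' ≠ b' →
      a' ≠ c' → b' ≠ c' → ∃ σ ∈ φ.range, σ a = a' ∧ σ b = b' ∧ σ c = c' := by
    intro a b c a' b' c' hab hac hbc hab' hac' hbc'
    obtain ⟨g, hg1, hg2, hg3⟩ := h3 (e.symm a) (e.symm b) (e.symm c) (e.symm a') (e.symm b')
      (e.symm c') (e.symm.injective.ne hab) (e.symm.injective.ne hac) (e.symm.injective.ne hbc)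
      (e.symm.injective.ne hab') (e.symm.injective.ne hac') (e.symm.injective.ne hbc')
    refine ⟨φ g, ⟨g, rfl⟩, ?_, ?_, ?_⟩
    · rw [hφ, hg1, Equiv.apply_symm_apply]
    · rw [hφ, hg2, Equiv.apply_symm_apply]
    · rw [hφ, hg3, Equiv.apply_symm_apply]
  have hs₀ : ∀ σ ∈ φ.range, ∀ a b c : OnePoint (Fin (p ^ f)), a ≠ b → a ≠ c → b ≠ c →
      σ a = a → σ b = b → σ c = c → σ = 1 := by
    rintro _ ⟨g, rfl⟩ a b c hab hac hbc ha hb hc
    rw [hφ] at ha hb hc
    have hg : g = 1 := hs g (e.symm a) (e.symm b) (e.symm c) (e.symm.injective.ne hab)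
      (e.symm.injective.ne hac) (e.symm.injective.ne hbc) ((Equiv.eq_symm_apply e).mpr ha)
      ((Equiv.eq_symm_apply e).mpr hb) ((Equiv.eq_symm_apply e).mpr hc)
    rw [hg, map_one]
  obtain ⟨F, hF⟩ := sharp3_core_odd φ.range h3₀ hs₀ hp hp2 hf (Fintype.card_fin _)
  refine ⟨F, ?_⟩
  obtain ⟨ψ⟩ := nonempty_mobGroup_mulEquiv_pgl (K := Fin (p ^ f))
  exact ⟨(MonoidHom.ofInjective hφinj).trans ((MulEquiv.subgroupCongr hF).trans ψ)⟩

end Cfsg.Agent.H16
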