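import Mathlib
import Cfsg.Agent.H91.SMDefs

/-!
# S2086-ARITH: field elements used by the torus arguments
-/

set_option autoImplicit false

namespace Cfsg.Agent.H16.SM

open Cfsg.Agent.H91.SM

universe u

theorem arith : ArithStmt.{u} := by
  intro K _ _
  classical
  obtain ⟨g, hg⟩ := IsCyclic.exists_generator (α := Kˣ)
  have hog : orderOf g = Fintype.card K - 1 := by
    rw [orderOf_eq_card_of_forall_mem_zpowers hg, Nat.card_eq_fintype_card, Fintype.card_units]
  have hq : 2 ≤ Fintype.card K := Fintype.one_lt_card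
  refine ⟨?_, ?_, ?_⟩
  · intro h2 h4
    refine ⟨(g : K), g.ne_zero, ?_⟩
    intro h
    have h1 : g ^ 3 = 1 := by
      apply Units.ext
      rw [Units.val_pow_eq_pow_val, h, Units.val_one]
    have h3 := orderOf_dvd_of_pow_eq_one h1
    rw [hog] at h3
    rcases (Nat.dvd_prime Nat.prime_three).mp h3 with h5 | h5
    · omega
    · omega
  · intro h4
    refine ⟨(g : K), g.ne_zero, ?_⟩
    intro h
    have h1 : g ^ 2 = 1 := by
      apply Units.ext
      rw [Units.val_pow_eq_pow_val, h, Units.val_one]
    have h3 := orderOf_dvd_of_pow_eq_one h1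
    rw [hog] at h3
    have h5 := Nat.le_of_dvd (by norm_num) h3
    omega
  · intro h3 h2
    haveI : Fact (Nat.Prime 2) := ⟨Nat.prime_two⟩
    have h1 : addOrderOf (1 : K) = 2 := by
      apply addOrderOf_eq_prime
      · rw [nsmul_eq_mul, mul_one]
        exact_mod_cast h2
      · exact one_ne_zero
    have h4 : addOrderOf (1 : K) ∣ Fintype.card K := addOrderOf_dvd_card
    rw [h1, h3] at h4
    omega

end Cfsg.Agent.H16.SM
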