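import Mathlib
import Cfsg.Prelude.Def_Characters
import Cfsg.Agent.H4.Chars
import Cfsg.Agent.H4.Integral
import Cfsg.Agent.H4.EquivChar
import Cfsg.Agent.H16.PermChar

/-!
# Representations over a subfield of `ℂ`: base change, characters, Maschke induction
-/

set_option autoImplicit false
set_option linter.unusedSectionVars false

namespace Cfsg.Agent.H16

open Cfsg Cfsg.Agent.H4 Module Representation
open scoped ComplexConjugate

universe u v w

section BaseChange

variable {K : Type w} [Field K] (φ : K →+* ℂ) {G : Type u} [Group G]

/-- Base change of endomorphisms of `Fin N → K` along `φ`. -/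
noncomputable def bcEnd (N : ℕ) : Module.End K (Fin N → K) →+* Module.End ℂ (Fin N → ℂ) :=
  ((Matrix.toLinAlgEquiv' (R := ℂ) (n := Fin N)).toRingEquiv.toRingHom).comp
    ((φ.mapMatrix).comp ((LinearMap.toMatrixAlgEquiv' (R := K) (n := Fin N)).toRingEquiv.toRingHom))

theorem toMatrix'_bcEnd (N : ℕ) (A : Module.End K (Fin N → K)) :
    LinearMap.toMatrix' (bcEnd φ N A) = (LinearMap.toMatrix' A).map φ := by
  change LinearMap.toMatrix' (Matrix.toLin' ((LinearMap.toMatrix' A).map φ)) = _
  rw [LinearMap.toMatrix'_toLin']

theorem bcEnd_injective (N : ℕ) : Function.Injective (bcEnd φ N) := by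
  intro A B h
  have h1 := congrArg LinearMap.toMatrix' h
  rw [toMatrix'_bcEnd, toMatrix'_bcEnd] at h1
  have h2 : LinearMap.toMatrix' A = LinearMap.toMatrix' B :=
    Matrix.map_injective φ.injective h1
  exact LinearMap.toMatrix'.injective h2

theorem trace_bcEnd (N : ℕ) (A : Module.End K (Fin N → K)) :
    LinearMap.trace ℂ _ (bcEnd φ N A) = φ (LinearMap.trace K _ A) := by
  rw [LinearMap.trace_eq_matrix_trace ℂ (Pi.basisFun ℂ (Fin N)),
    LinearMap.trace_eq_matrix_trace K (Pi.basisFun K (Fin N)),
    LinearMap.toMatrix_eq_toMatrix', LinearMap.toMatrix_eq_toMatrix', toMatrix'_bcEnd,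
    AddMonoidHom.map_trace]

theorem bcEnd_smul (N : ℕ) (c : K) (A : Module.End K (Fin N → K)) :
    bcEnd φ N (c • A) = φ c • bcEnd φ N A := by
  apply LinearMap.toMatrix'.injective
  rw [toMatrix'_bcEnd, map_smul, map_smul, toMatrix'_bcEnd]
  ext i j
  simp

/-- Base change of a representation on `Fin N → K` along `φ`. -/
noncomputable def bc {N : ℕ} (τ : Representation K G (Fin N → K)) :
    Representation ℂ G (Fin N → ℂ) :=
  ((bcEnd φ N : _ →* _)).comp τ

theorem bc_apply {N : ℕ} (τ : Representation K G (Fin N → K)) (g : G) :
    bc φ τ g = bcEnd φ N (τ g) := rfl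

theorem bc_character {N : ℕ} (τ : Representation K G (Fin N → K)) (g : G) :
    (bc φ τ).character g = φ (τ.character g) :=
  trace_bcEnd φ N (τ g)

theorem toMatrix'_bc {N : ℕ} (τ : Representation K G (Fin N → K)) (g : G) (i j : Fin N) :
    LinearMap.toMatrix' (bc φ τ g) i j = φ (LinearMap.toMatrix' (τ g) i j) := by
  rw [bc_apply, toMatrix'_bcEnd]
  rfl

/-- The complexified character of a representation over `K`. -/
noncomputable def cch {V : Type v} [AddCommGroup V] [Module K V] [FiniteDimensional K V]
    (τ : Representation K G V) : G → ℂ :=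
  fun g => φ (τ.character g)

theorem cch_apply {V : Type v} [AddCommGroup V] [Module K V] [FiniteDimensional K V]
    (τ : Representation K G V) (g : G) : cch φ τ g = φ (τ.character g) := rfl

theorem cch_bc {N : ℕ} (τ : Representation K G (Fin N → K)) :
    cch φ τ = (bc φ τ).character :=
  funext fun g => (bc_character φ τ g).symm

theorem cch_equiv {V : Type v} [AddCommGroup V] [Module K V] [FiniteDimensional K V]
    {W : Type*} [AddCommGroup W] [Module K W] [FiniteDimensional K W]
    {τ : Representation K G V} {σ : Representation K G W} (e : τ.Equiv σ) :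
    cch φ τ = cch φ σ := by
  ext g
  simp only [cch, Representation.char_iso e]

theorem cch_prod {V : Type v} [AddCommGroup V] [Module K V] [FiniteDimensional K V]
    {W : Type*} [AddCommGroup W] [Module K W] [FiniteDimensional K W]
    (τ : Representation K G V) (σ : Representation K G W) :
    cch φ (τ.prod σ) = cch φ τ + cch φ σ := by
  ext g
  simp only [cch, character_prod, Pi.add_apply, map_add]

theorem cch_of_isCompl {V : Type v} [AddCommGroup V] [Module K V] [FiniteDimensional K V]
    (τ : Representation K G V) (U W : Subrepresentation τ) (h : IsCompl U W) :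
    cch φ τ = cch φ U.toRepresentation + cch φ W.toRepresentation := by
  ext g
  simp only [cch, character_of_isCompl τ U W h, Pi.add_apply, map_add]

theorem cch_one {V : Type v} [AddCommGroup V] [Module K V] [FiniteDimensional K V]
    (τ : Representation K G V) : cch φ τ 1 = (finrank K V : ℂ) := by
  simp [cch]

/-- Every finite-dimensional representation is equivalent to one on a coordinate space. -/
theorem exists_fin_rep {V : Type v} [AddCommGroup V] [Module K V] [FiniteDimensional K V]
    (τ : Representation K G V) :
    ∃ (N : ℕ) (σ : Representation K G (Fin N → K)), Nonempty (τ.Equiv σ) :=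
  ⟨finrank K V, transport τ (Module.finBasis K V).equivFun,
    ⟨transportEquiv τ (Module.finBasis K V).equivFun⟩⟩

theorem isCharacter_cch {V : Type v} [AddCommGroup V] [Module K V] [FiniteDimensional K V]
    (τ : Representation K G V) : IsCharacter G (cch φ τ) := by
  obtain ⟨N, σ, ⟨e⟩⟩ := exists_fin_rep τ
  exact ⟨N, bc φ σ, by rw [← cch_bc, cch_equiv φ e]⟩

theorem cch_inv [Finite G] {V : Type v} [AddCommGroup V] [Module K V] [FiniteDimensional K V]
    (τ : Representation K G V) (g : G) : cch φ τ g⁻¹ = conj (cch φ τ g) := by
  obtain ⟨n, ρ, hρ⟩ := isCharacter_cch φ τ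
  rw [← hρ]
  exact character_inv ρ g

/-- The inner product of complexified characters is the dimension of the space of intertwining
maps. -/
theorem classInner_cch [Fintype G] {V : Type v} [AddCommGroup V] [Module K V]
    [FiniteDimensional K V] {W : Type*} [AddCommGroup W] [Module K W] [FiniteDimensional K W]
    (τ : Representation K G V) (σ : Representation K G W) :
    classInner (cch φ σ) (cch φ τ) = (finrank K (IntertwiningMap τ σ) : ℂ) := by
  have : CharZero K := RingHom.charZero φ
  have : Invertible (Nat.card G : K) :=
    invertibleOfNonzero (by exact_mod_cast (Nat.card_pos (α := G)).ne')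
  have h := Representation.card_inv_mul_sum_char_mul_char_eq_finrank τ σ
  have h2 := congrArg φ h
  rw [map_mul, map_inv₀, map_natCast, map_sum, map_natCast] at h2
  rw [← h2, classInner]
  congr 1
  refine Finset.sum_congr rfl fun g _ => ?_
  rw [map_mul, ← cch_inv φ τ g]
  rfl

include φ in
theorem neZero_card_of_ringHom (G : Type*) [Group G] [Finite G] : NeZero (Nat.card G : K) := by
  have : CharZero K := RingHom.charZero φ
  exact ⟨by exact_mod_cast (Nat.card_pos (α := G)).ne'⟩

/-- Maschke induction for representations over `K`. -/
theorem rep_inductionK [Finite G] [NeZero (Nat.card G : K)]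
    (P : ∀ (V : Type v) [AddCommGroup V] [Module K V] [FiniteDimensional K V],
      Representation K G V → Prop)
    (h0 : ∀ (V : Type v) [AddCommGroup V] [Module K V] [FiniteDimensional K V]
      (ρ : Representation K G V), Subsingleton V → P V ρ)
    (hstep : ∀ (V : Type v) [AddCommGroup V] [Module K V] [FiniteDimensional K V]
      (ρ : Representation K G V) (U W : Subrepresentation ρ), IsCompl U W →
      U.toRepresentation.IsIrreducible → P W.toSubmodule W.toRepresentation → P V ρ) :
    ∀ (V : Type v) [AddCommGroup V] [Module K V] [FiniteDimensional K V]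
      (ρ : Representation K G V), P V ρ := by
  intro V _ _ _ ρ
  induction hn : finrank K V using Nat.strong_induction_on generalizing V with
  | _ n ih =>
    rcases Nat.eq_zero_or_pos n with h | h
    · exact h0 V ρ (Module.finrank_zero_iff.mp (hn.trans h))
    · have : Nontrivial V := Module.finrank_pos_iff.mp (hn ▸ h)
      obtain ⟨U, hU⟩ := exists_irreducible_subrep ρ
      obtain ⟨W, hW⟩ := exists_isCompl U
      have hsum := finrank_of_isCompl ρ U W hW
      have hUpos : 0 < finrank K U.toSubmodule := by
        have := ((isIrreducible_iff _).mp hU).1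
        exact Module.finrank_pos
      refine hstep V ρ U W hW hU (ih (finrank K W.toSubmodule) (by omega) _ _ rfl)

end BaseChange

end Cfsg.Agent.H16
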