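import Mathlib
import Cfsg.Prelude.Def_Characters
import Cfsg.Agent.H4.Chars
import Cfsg.Agent.H4.Integral
import Cfsg.Agent.H4.EquivChar
import Cfsg.Agent.H16.PermChar
import Cfsg.Agent.H16.SplitBase

/-!
# Schur index argument: a difference of two `K`-characters which is irreducible is a `K`-character
-/

set_option autoImplicit false
set_option linter.unusedSectionVars false

namespace Cfsg.Agent.H16

open Cfsg Cfsg.Agent.H4 Module Representation
open scoped ComplexConjugate

universe u v w

section Schur

variable {K : Type w} [Field K] (φ : K →+* ℂ) {G : Type u} [Group G]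

/-- An irreducible `K`-representation whose complexified character contains the irreducible
character `χ` (with values in `K`) has complexified character a multiple of `χ`. -/
theorem cch_eq_smul_of_irreducible [Fintype G] {N : ℕ} (τ : Representation K G (Fin N → K))
    (hτ : τ.IsIrreducible) (χ : IrrCharacter G) (hk : ∀ g, χ.1 g ∈ Set.range φ)
    (hne : classInner (cch φ τ) χ.1 ≠ 0) :
    cch φ τ = classInner (cch φ τ) χ.1 • χ.1 := by
  classical
  have hcard : (Nat.card G : ℂ) ≠ 0 := by exact_mod_cast (Nat.card_pos (α := G)).ne'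
  have hk' : ∀ g, conj (χ.1 g) ∈ Set.range φ := by
    intro g
    obtain ⟨n, ρ, hρ, hρχ⟩ := χ.2
    have := character_inv ρ g
    rw [hρχ] at this
    rw [← this]; exact hk g⁻¹
  choose k hkφ using hk'
  let E : Module.End K (Fin N → K) := ∑ g : G, k g • τ g
  have hE : bcEnd φ N E = wSum (fun g => conj (χ.1 g)) (bc φ τ) := by
    simp only [E, map_sum, bcEnd_smul, hkφ, wSum, bc_apply]
  have hcl : IsClassFunction G (fun g => conj (χ.1 g)) := by
    intro g h
    have := irr_isClassFunction χ g h
    simp only [this]
  have hcomm : ∀ h : G, E ∘ₗ τ h = τ h ∘ₗ E := by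
    intro h
    apply bcEnd_injective φ N
    have := wSum_comm hcl (bc φ τ) h
    change bcEnd φ N (E * τ h) = bcEnd φ N (τ h * E)
    rw [map_mul, map_mul, hE]
    exact this
  have hker := ((isIrreducible_iff τ).mp hτ).2 (LinearMap.ker E) (by
    intro g v hv
    rw [LinearMap.mem_ker] at hv ⊢
    have := congrArg (fun T : Module.End K (Fin N → K) => T v) (hcomm g)
    simp only [LinearMap.comp_apply] at this
    rw [this, hv, map_zero])
  have htr : LinearMap.trace ℂ _ (wSum (fun g => conj (χ.1 g)) (bc φ τ)) =
      (Nat.card G : ℂ) * classInner (cch φ τ) χ.1 := by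
    rw [trace_wSum, classInner, ← mul_assoc, mul_inv_cancel₀ hcard, one_mul]
    refine Finset.sum_congr rfl fun g _ => ?_
    rw [← cch_bc, mul_comm]
  have hinj : Function.Injective (wSum (fun g => conj (χ.1 g)) (bc φ τ)) := by
    rcases hker with h | h
    · have hunit : IsUnit E := (LinearMap.isUnit_iff_ker_eq_bot E).mpr h
      have := hunit.map (bcEnd φ N)
      rw [hE] at this
      exact ((Module.End.isUnit_iff _).mp this).injective
    · exfalso
      have hE0 : E = 0 := LinearMap.ker_eq_top.mp h
      rw [hE0, map_zero] at hE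
      rw [← hE, map_zero] at htr
      exact mul_ne_zero hcard hne htr.symm
  obtain ⟨m, hm⟩ := character_decomp (bc φ τ)
  rw [← cch_bc] at hm
  have hin : ∀ ξ : IrrCharacter G, classInner (cch φ τ) ξ.1 = m ξ := by
    intro ξ
    rw [hm]; exact classInner_finsum_irr _ ξ
  have hmξ : ∀ ξ : IrrCharacter G, ξ ≠ χ → m ξ = 0 := by
    intro ξ hξ
    by_contra hmne
    obtain ⟨n, ρ, hρ, hρξ⟩ := ξ.2
    have := hρ
    have hne' : classInner (bc φ τ).character ρ.character ≠ 0 := by
      rw [← cch_bc, hρξ, hin]; exact_mod_cast hmne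
    obtain ⟨f, hf⟩ := exists_intertwining_ne_zero ρ (bc φ τ) hne'
    have h1 := wSum_comp_intertwining (fun g => conj (χ.1 g)) ρ (bc φ τ) f.toLinearMap
      f.isIntertwining'
    have h2 : wSum (fun g => conj (χ.1 g)) ρ = 0 := by
      rw [wSum_eq_smul_id hcl ρ]
      have h3 : ∑ g : G, conj (χ.1 g) * ρ.character g = 0 := by
        have h4 := irr_inner_ne hξ
        rw [classInner] at h4
        have h5 := (mul_eq_zero.mp h4).resolve_left (inv_ne_zero hcard)
        rw [← h5, hρξ]
        exact Finset.sum_congr rfl fun g _ => mul_comm _ _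
      rw [h3, zero_div, zero_smul]
    rw [h2, LinearMap.comp_zero] at h1
    apply hf
    apply IntertwiningMap.ext
    rw [IntertwiningMap.zero_toLinearMap]
    apply LinearMap.ext
    intro v
    have h6 := congrArg (fun T : (Fin n → ℂ) →ₗ[ℂ] (Fin N → ℂ) => T v) h1
    simp only [LinearMap.comp_apply, LinearMap.zero_apply] at h6
    exact hinj (by rw [h6, LinearMap.zero_apply, map_zero])
  rw [hin]
  conv_lhs => rw [hm]
  rw [finsum_eq_single _ χ (fun ξ hξ => by rw [hmξ ξ hξ]; simp)]

/-- A `K`-representation whose complexified character contains `χ` has an irreducible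
`K`-constituent with the same property. -/
theorem exists_irreducible_constituent [Fintype G] (χ : G → ℂ) :
    ∀ (V : Type v) [AddCommGroup V] [Module K V] [FiniteDimensional K V]
      (τ : Representation K G V), classInner (cch φ τ) χ ≠ 0 →
      ∃ (N : ℕ) (σ : Representation K G (Fin N → K)),
        σ.IsIrreducible ∧ classInner (cch φ σ) χ ≠ 0 := by
  have := neZero_card_of_ringHom φ G
  refine rep_inductionK (K := K) (G := G) (fun V _ _ _ τ => classInner (cch φ τ) χ ≠ 0 →
    ∃ (N : ℕ) (σ : Representation K G (Fin N → K)),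
      σ.IsIrreducible ∧ classInner (cch φ σ) χ ≠ 0) ?_ ?_
  · intro V _ _ _ τ hV h
    exfalso; apply h
    have : cch φ τ = 0 := by
      ext g
      have : τ g = 0 := by ext v; exact Subsingleton.elim _ _
      simp [cch, Representation.character, this]
    rw [this, classInner_zero_left]
  · intro V _ _ _ τ U W hUW hU ih h
    rw [cch_of_isCompl φ τ U W hUW, classInner_add_left] at h
    by_cases hU0 : classInner (cch φ U.toRepresentation) χ = 0
    · rw [hU0, zero_add] at h
      exact ih h
    · obtain ⟨N, σ, ⟨e⟩⟩ := exists_fin_rep U.toRepresentation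
      exact ⟨N, σ, isIrreducible_of_equiv e hU, by rwa [← cch_equiv φ e]⟩

/-- If an irreducible `K`-representation has complexified character `m₀ • χ`, then the
multiplicity of `χ` in any `K`-representation is divisible by `m₀`. -/
theorem dvd_classInner_of_irreducible [Fintype G] {N : ℕ} (σ : Representation K G (Fin N → K))
    (hσ : σ.IsIrreducible) (χ : IrrCharacter G) (m₀ : ℕ) (hσχ : cch φ σ = (m₀ : ℂ) • χ.1) :
    ∀ (V : Type v) [AddCommGroup V] [Module K V] [FiniteDimensional K V]
      (τ : Representation K G V),
      ∃ c : ℕ, classInner (cch φ τ) χ.1 = ((m₀ * c : ℕ) : ℂ) := by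
  intro V _ _ _ τ
  induction hn : finrank K V using Nat.strong_induction_on generalizing V with
  | _ n ih =>
    obtain ⟨a, ha⟩ := classInner_isCharacter_nat (isCharacter_cch φ τ)
      (isCharacter_of_isIrrCharacter χ.2)
    rcases Nat.eq_zero_or_pos a with h0 | hpos
    · exact ⟨0, by rw [ha, h0]; simp⟩
    · have hF := classInner_cch φ σ τ
      rw [hσχ, classInner_smul_right, ha] at hF
      by_cases hm0 : m₀ = 0
      · exact ⟨0, by
          exfalso
          have h1 := congrFun hσχ 1
          rw [cch_one, hm0] at h1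
          simp only [Nat.cast_zero, zero_smul, Pi.zero_apply, Nat.cast_eq_zero] at h1
          have hnt := ((isIrreducible_iff σ).mp hσ).1
          have : 0 < finrank K (Fin N → K) := Module.finrank_pos
          omega⟩
      have hpos' : 0 < finrank K (IntertwiningMap σ τ) := by
        apply Nat.pos_of_ne_zero
        intro h
        rw [h] at hF
        simp only [map_natCast, Nat.cast_zero, mul_eq_zero, Nat.cast_eq_zero] at hF
        omega
      obtain ⟨f, hf⟩ : ∃ f : IntertwiningMap σ τ, f ≠ 0 :=
        Module.finrank_pos_iff_exists_ne_zero.mp hpos'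
      have hinj : Function.Injective f := by
        have hker := ((isIrreducible_iff σ).mp hσ).2 (LinearMap.ker f.toLinearMap) (by
          intro g v hv
          rw [LinearMap.mem_ker] at hv ⊢
          rw [show f.toLinearMap (σ g v) = τ g (f.toLinearMap v) from
            IntertwiningMap.isIntertwining σ τ f g v, hv, map_zero])
        rcases hker with h | h
        · exact LinearMap.ker_eq_bot.mp h
        · exfalso; apply hf
          have h0 : f.toLinearMap = 0 := LinearMap.ker_eq_top.mp h
          apply IntertwiningMap.ext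
          rw [IntertwiningMap.zero_toLinearMap]
          exact h0
      let e := equivRangeOfInjective f hinj
      have := neZero_card_of_ringHom φ G
      obtain ⟨W, hW⟩ := exists_isCompl f.range
      have hch := cch_of_isCompl φ τ f.range W hW
      have hfin := finrank_of_isCompl τ f.range W hW
      have hr : finrank K f.range.toSubmodule = N := by
        rw [← e.toLinearEquiv.finrank_eq]; simp
      have hNpos : 0 < N := by
        have hnt := ((isIrreducible_iff σ).mp hσ).1
        have : 0 < finrank K (Fin N → K) := Module.finrank_pos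
        simpa using this
      obtain ⟨c, hc⟩ := ih (finrank K W.toSubmodule) (by omega) W.toSubmodule W.toRepresentation rfl
      refine ⟨c + 1, ?_⟩
      rw [hch, classInner_add_left, ← cch_equiv φ e, hσχ, classInner_smul_left, irr_inner_self,
        hc]
      push_cast; ring

/-- **Schur index one**: if the irreducible character `χ` is a difference of two complexified
characters of `K`-representations, then it is itself such a character. -/
theorem exists_rep_of_diff [Fintype G] (χ : IrrCharacter G) {N₁ N₂ : ℕ}
    (τ₁ : Representation K G (Fin N₁ → K)) (τ₂ : Representation K G (Fin N₂ → K))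
    (h : cch φ τ₁ = cch φ τ₂ + χ.1) :
    ∃ (N : ℕ) (τ : Representation K G (Fin N → K)), cch φ τ = χ.1 := by
  have hk : ∀ g, χ.1 g ∈ Set.range φ := by
    intro g
    refine ⟨τ₁.character g - τ₂.character g, ?_⟩
    have := congrFun h g
    simp only [cch, Pi.add_apply] at this
    rw [map_sub, this]; ring
  obtain ⟨a, ha⟩ := classInner_isCharacter_nat (isCharacter_cch φ τ₂)
    (isCharacter_of_isIrrCharacter χ.2)
  have h1 : classInner (cch φ τ₁) χ.1 = ((a + 1 : ℕ) : ℂ) := by
    rw [h, classInner_add_left, ha, irr_inner_self]; push_cast; ring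
  obtain ⟨N, σ, hσ, hσne⟩ := exists_irreducible_constituent φ χ.1 _ τ₁
    (by rw [h1]; exact_mod_cast Nat.succ_ne_zero a)
  obtain ⟨m₀, hm₀⟩ := classInner_isCharacter_nat (isCharacter_cch φ σ)
    (isCharacter_of_isIrrCharacter χ.2)
  have hσχ := cch_eq_smul_of_irreducible φ σ hσ χ hk hσne
  rw [hm₀] at hσχ
  obtain ⟨c₁, hc₁⟩ := dvd_classInner_of_irreducible φ σ hσ χ m₀ hσχ _ τ₁
  obtain ⟨c₂, hc₂⟩ := dvd_classInner_of_irreducible φ σ hσ χ m₀ hσχ _ τ₂
  rw [h1] at hc₁; rw [ha] at hc₂
  have e1 : a + 1 = m₀ * c₁ := by exact_mod_cast hc₁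
  have e2 : a = m₀ * c₂ := by exact_mod_cast hc₂
  have hm1 : m₀ = 1 := by
    have d1 : m₀ ∣ a + 1 := ⟨c₁, e1⟩
    have d2 : m₀ ∣ a := ⟨c₂, e2⟩
    exact Nat.dvd_one.mp ((Nat.dvd_add_right d2).mp d1)
  subst hm1
  exact ⟨N, σ, by rw [hσχ]; simp⟩

end Schur

end Cfsg.Agent.H16
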