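import Mathlib
import Cfsg.Prelude.Def_Characters
import Cfsg.Agent.H4.Chars
import Cfsg.Agent.H4.Integral
import Cfsg.Agent.H4.EquivChar
import Cfsg.Agent.H4.Brauer
import Cfsg.Agent.H16.PermChar
import Cfsg.Agent.H16.SplitBase
import Cfsg.Agent.H16.SplitSchur

/-!
# Monomial representations over `K` and Brauer's splitting field theorem (abstract form)
-/

set_option autoImplicit false
set_option linter.unusedSectionVars false

namespace Cfsg.Agent.H16

open Cfsg Cfsg.Agent.H4 Module Representation
open scoped ComplexConjugate

universe u v w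

section Monomial

variable {K : Type w} [Field K] (φ : K →+* ℂ) {G : Type u} [Group G]

/-- Left regular representation on functions. -/
def lreg (K : Type w) [Field K] (G : Type u) [Group G] : Representation K G (G → K) where
  toFun g :=
    { toFun := fun f x => f (g⁻¹ * x)
      map_add' := fun _ _ => rfl
      map_smul' := fun _ _ => rfl }
  map_one' := by
    apply LinearMap.ext; intro f; funext x
    simp
  map_mul' g h := by
    apply LinearMap.ext; intro f; funext x
    simp [mul_assoc]

theorem lreg_apply (g : G) (f : G → K) (x : G) : lreg K G g f x = f (g⁻¹ * x) := rfl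

/-- Right translation operator. -/
def rtr (K : Type w) [Field K] {G : Type u} [Group G] (e : G) : Module.End K (G → K) where
  toFun f x := f (x * e)
  map_add' _ _ := rfl
  map_smul' _ _ := rfl

theorem rtr_apply (e : G) (f : G → K) (x : G) : rtr K e f x = f (x * e) := rfl

theorem rtr_mul (a b : G) : rtr K a * rtr K b = rtr K (a * b) := by
  apply LinearMap.ext; intro f; funext x
  simp [rtr_apply, mul_assoc, Module.End.mul_apply]

theorem lreg_rtr_comm (g e : G) : lreg K G g * rtr K e = rtr K e * lreg K G g := by
  apply LinearMap.ext; intro f; funext x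
  simp [lreg_apply, rtr_apply, mul_assoc, Module.End.mul_apply]

theorem trace_lreg_rtr [Fintype G] [DecidableEq G] (g e : G) :
    LinearMap.trace K _ (lreg K G g * rtr K e) =
      ∑ x : G, if x⁻¹ * g * x = e then (1 : K) else 0 := by
  rw [LinearMap.trace_eq_matrix_trace K (Pi.basisFun K G), LinearMap.toMatrix_eq_toMatrix',
    Matrix.trace]
  simp only [Matrix.diag_apply, LinearMap.toMatrix'_apply]
  refine Finset.sum_congr rfl fun x _ => ?_
  change (Pi.single x (1 : K) : G → K) (g⁻¹ * x * e) = _
  rw [Pi.single_apply]
  have : g⁻¹ * x * e = x ↔ x⁻¹ * g * x = e := by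
    constructor
    · intro h
      have : e = (g⁻¹ * x)⁻¹ * x := by rw [eq_inv_mul_iff_mul_eq]; exact h
      rw [this]; group
    · intro h
      rw [← h]; group
  simp only [this]

/-- The projection onto the induced module. -/
noncomputable def indProj [Fintype G] (E : Subgroup G) [Fintype E] (μ : E →* K) :
    Module.End K (G → K) :=
  (Nat.card E : K)⁻¹ • ∑ e : E, μ e • rtr K (e : G)

theorem trace_lreg_indProj [Fintype G] [DecidableEq G] (E : Subgroup G) [Fintype E] (μ : E →* K)
    (g : G) :
    LinearMap.trace K _ (lreg K G g * indProj E μ) =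
      (Nat.card E : K)⁻¹ * ∑ e : E, μ e * ∑ x : G, if x⁻¹ * g * x = (e : G) then (1 : K) else 0 := by
  simp only [indProj, mul_smul_comm, Finset.mul_sum, map_smul, map_sum, smul_eq_mul,
    trace_lreg_rtr]

theorem phi_trace_indProj [Fintype G] (E : Subgroup G) [Fintype E] (μ : E →* K) (g : G) :
    φ (LinearMap.trace K _ (lreg K G g * indProj E μ)) = indFun E (fun e => φ (μ e)) g := by
  classical
  rw [trace_lreg_indProj, indFun_apply, map_mul, map_inv₀, map_natCast, map_sum]
  congr 1
  simp only [map_mul, map_sum, apply_ite φ, map_one, map_zero, Finset.mul_sum, mul_ite, mul_one,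
    mul_zero]
  rw [Finset.sum_comm]
  refine Finset.sum_congr rfl fun x _ => ?_
  by_cases hx : x⁻¹ * g * x ∈ E
  · rw [extendByZero_of_mem E _ hx]
    rw [Finset.sum_eq_single ⟨x⁻¹ * g * x, hx⟩]
    · simp
    · intro e _ hne
      rw [if_neg]
      intro h; apply hne; exact Subtype.ext h.symm
    · intro h; exact absurd (Finset.mem_univ _) h
  · rw [extendByZero_of_not_mem E _ hx]
    apply Finset.sum_eq_zero
    intro e _
    rw [if_neg]
    intro h; apply hx; rw [h]; exact e.2

theorem indProj_comm [Fintype G] (E : Subgroup G) [Fintype E] (μ : E →* K) (g : G) :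
    lreg K G g * indProj E μ = indProj E μ * lreg K G g := by
  simp only [indProj, mul_smul_comm, smul_mul_assoc, Finset.mul_sum,
    Finset.sum_mul, lreg_rtr_comm]

theorem indProj_idem [Fintype G] (E : Subgroup G) [Fintype E] (μ : E →* K)
    (hE : (Nat.card E : K) ≠ 0) : indProj E μ * indProj E μ = indProj E μ := by
  have h1 : (∑ e : E, μ e • rtr K (e : G)) * (∑ e : E, μ e • rtr K (e : G)) =
      (Nat.card E : K) • ∑ e : E, μ e • rtr K (e : G) := by
    rw [Finset.sum_mul]
    have : ∀ e : E, (μ e • rtr K (e : G)) * (∑ e' : E, μ e' • rtr K (e' : G)) =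
        ∑ e' : E, μ e' • rtr K (e' : G) := by
      intro e
      rw [Finset.mul_sum]
      rw [← Equiv.sum_comp (Equiv.mulLeft e) (fun e'' => μ e'' • rtr K (e'' : G))]
      refine Finset.sum_congr rfl fun e' _ => ?_
      rw [smul_mul_assoc, mul_smul_comm, rtr_mul, smul_smul]
      simp [map_mul, mul_comm]
    simp only [this, Finset.sum_const, Finset.card_univ, Nat.card_eq_fintype_card]
    rw [Nat.cast_smul_eq_nsmul]
  simp only [indProj, mul_smul_comm, smul_mul_assoc, h1, smul_smul]
  congr 1
  field_simp

/-- The induced module as a subrepresentation of the regular representation. -/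
noncomputable def indSub [Fintype G] (E : Subgroup G) [Fintype E] (μ : E →* K) :
    Subrepresentation (lreg K G) where
  toSubmodule := LinearMap.range (indProj E μ)
  apply_mem_toSubmodule := by
    rintro g _ ⟨f, rfl⟩
    refine ⟨lreg K G g f, ?_⟩
    have := congrArg (fun T : Module.End K (G → K) => T f) (indProj_comm E μ g)
    simp only [Module.End.mul_apply] at this
    exact this.symm

theorem indSub_character [Fintype G] (E : Subgroup G) [Fintype E] (μ : E →* K)
    (hE : (Nat.card E : K) ≠ 0) (g : G) :
    (indSub E μ).toRepresentation.character g =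
      LinearMap.trace K _ (lreg K G g * indProj E μ) := by
  have hf : ∀ f, (lreg K G g * indProj E μ) f ∈ LinearMap.range (indProj E μ) := by
    intro f
    rw [indProj_comm]; exact ⟨_, rfl⟩
  rw [← LinearMap.trace_restrict_eq_of_forall_mem (LinearMap.range (indProj E μ)) _ hf]
  unfold Representation.character
  congr 1
  apply LinearMap.ext
  rintro ⟨y, z, rfl⟩
  apply Subtype.ext
  change lreg K G g (indProj E μ z) = lreg K G g (indProj E μ (indProj E μ z))
  have := congrArg (fun T : Module.End K (G → K) => T z) (indProj_idem E μ hE)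
  simp only [Module.End.mul_apply] at this
  rw [this]

/-- The character induced from a linear `K`-character of a subgroup is the complexified character
of a `K`-representation. -/
theorem exists_rep_indFun [Fintype G] (E : Subgroup G) (μ : E →* K) :
    ∃ (N : ℕ) (τ : Representation K G (Fin N → K)), cch φ τ = indFun E (fun e => φ (μ e)) := by
  classical
  have : Fintype E := Fintype.ofFinite E
  have hE : (Nat.card E : K) ≠ 0 := (neZero_card_of_ringHom φ E).ne
  obtain ⟨N, σ, ⟨e⟩⟩ := exists_fin_rep (indSub E μ).toRepresentation
  refine ⟨N, σ, ?_⟩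
  rw [← cch_equiv φ e]
  ext g
  rw [cch_apply, indSub_character E μ hE g, phi_trace_indProj]

end Monomial

end Cfsg.Agent.H16
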