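import Mathlib
import Cfsg.Prelude.Def_Characters
import Cfsg.Agent.H4.Chars
import Cfsg.Agent.H4.Integral
import Cfsg.Agent.H4.EquivChar
import Cfsg.Agent.H4.Brauer
import Cfsg.Agent.H16.PermChar
import Cfsg.Agent.H16.SplitBase
import Cfsg.Agent.H16.SplitSchur
import Cfsg.Agent.H16.SplitMon

/-!
# Brauer's splitting field theorem, abstract form

If `φ : K →+* ℂ` is a field embedding whose range contains all `exp(G)`-th roots of unity, then
every complex character of `G` is the complexified character of a `K`-representation.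
-/

set_option autoImplicit false
set_option linter.unusedSectionVars false

namespace Cfsg.Agent.H16

open Cfsg Cfsg.Agent.H4 Module Representation
open scoped ComplexConjugate

universe u v w

section Main

variable {K : Type w} [Field K] (φ : K →+* ℂ) {G : Type u} [Group G]

/-- `χ` is the complexified character of a representation over `K`. -/
def IsKChar (φ : K →+* ℂ) (G : Type u) [Group G] (χ : G → ℂ) : Prop :=
  ∃ (N : ℕ) (τ : Representation K G (Fin N → K)), cch φ τ = χ

theorem isKChar_of_rep {V : Type v} [AddCommGroup V] [Module K V] [FiniteDimensional K V]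
    (τ : Representation K G V) : IsKChar φ G (cch φ τ) := by
  obtain ⟨N, σ, ⟨e⟩⟩ := exists_fin_rep τ
  exact ⟨N, σ, (cch_equiv φ e).symm⟩

theorem IsKChar.zero : IsKChar φ G 0 := by
  refine ⟨0, 1, ?_⟩
  ext g
  have : (1 : Representation K G (Fin 0 → K)) g = 0 := by
    apply LinearMap.ext; intro v; exact Subsingleton.elim _ _
  simp [cch, Representation.character, this]

theorem IsKChar.add {χ ψ : G → ℂ} (hχ : IsKChar φ G χ) (hψ : IsKChar φ G ψ) :
    IsKChar φ G (χ + ψ) := by
  obtain ⟨N, τ, rfl⟩ := hχ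
  obtain ⟨M, σ, rfl⟩ := hψ
  rw [← cch_prod]
  exact isKChar_of_rep φ _

theorem IsKChar.nsmul {χ : G → ℂ} (hχ : IsKChar φ G χ) (n : ℕ) : IsKChar φ G (n • χ) := by
  induction n with
  | zero => rw [zero_smul]; exact IsKChar.zero φ
  | succ n ih => rw [succ_nsmul]; exact IsKChar.add φ ih hχ

theorem IsKChar.sum {ι : Type*} (s : Finset ι) (f : ι → G → ℂ)
    (hf : ∀ i ∈ s, IsKChar φ G (f i)) : IsKChar φ G (∑ i ∈ s, f i) := by
  classical
  induction s using Finset.induction_on with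
  | empty => rw [Finset.sum_empty]; exact IsKChar.zero φ
  | insert a s ha ih =>
    rw [Finset.sum_insert ha]
    exact IsKChar.add φ (hf a (Finset.mem_insert_self a s))
      (ih fun i hi => hf i (Finset.mem_insert_of_mem hi))

/-- `f` is a difference of two `K`-characters. -/
def IsKDiff (φ : K →+* ℂ) (G : Type u) [Group G] (f : G → ℂ) : Prop :=
  ∃ ψ₁ ψ₂ : G → ℂ, IsKChar φ G ψ₁ ∧ IsKChar φ G ψ₂ ∧ f + ψ₂ = ψ₁

theorem IsKDiff.zero : IsKDiff φ G 0 :=
  ⟨0, 0, IsKChar.zero φ, IsKChar.zero φ, by simp⟩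

theorem IsKDiff.add {f h : G → ℂ} (hf : IsKDiff φ G f) (hh : IsKDiff φ G h) :
    IsKDiff φ G (f + h) := by
  obtain ⟨a₁, a₂, ha₁, ha₂, ha⟩ := hf
  obtain ⟨b₁, b₂, hb₁, hb₂, hb⟩ := hh
  exact ⟨a₁ + b₁, a₂ + b₂, IsKChar.add φ ha₁ hb₁, IsKChar.add φ ha₂ hb₂, by
    rw [← ha, ← hb]; abel⟩

theorem IsKDiff.zsmul_of_isKChar {χ : G → ℂ} (hχ : IsKChar φ G χ) (n : ℤ) :
    IsKDiff φ G ((n : ℂ) • χ) := by
  rcases Int.eq_nat_or_neg n with ⟨k, rfl | rfl⟩
  · refine ⟨k • χ, 0, IsKChar.nsmul φ hχ k, IsKChar.zero φ, ?_⟩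
    rw [add_zero, Int.cast_natCast, Nat.cast_smul_eq_nsmul]
  · refine ⟨0, k • χ, IsKChar.zero φ, IsKChar.nsmul φ hχ k, ?_⟩
    rw [Int.cast_neg, Int.cast_natCast, neg_smul, Nat.cast_smul_eq_nsmul]
    abel

theorem isKDiff_list_sum (l : List (G → ℂ)) (h : ∀ f ∈ l, IsKDiff φ G f) :
    IsKDiff φ G l.sum := by
  induction l with
  | nil => exact IsKDiff.zero φ
  | cons a l ih =>
    rw [List.sum_cons]
    exact IsKDiff.add φ (h a List.mem_cons_self) (ih fun f hf => h f (List.mem_cons_of_mem a hf))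

/-- Every irreducible character is a `K`-character, if `K` contains the `exp(G)`-th roots of
unity. -/
theorem isKChar_of_irr [Finite G]
    (hK : ∀ z : ℂ, z ^ Monoid.exponent G = 1 → z ∈ Set.range φ) (χ : IrrCharacter G) :
    IsKChar φ G χ.1 := by
  have := Fintype.ofFinite G
  obtain ⟨l, -, hl⟩ := brauer_induction χ.1 (isCharacter_of_isIrrCharacter χ.2)
  have hd : IsKDiff φ G χ.1 := by
    rw [hl]
    apply isKDiff_list_sum
    intro f hf
    rw [List.mem_map] at hf
    obtain ⟨t, -, rfl⟩ := hf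
    apply IsKDiff.zsmul_of_isKChar
    have hr : ∀ e : t.1, ((t.2.1 e : ℂˣ) : ℂ) ∈ Set.range φ := by
      intro e
      apply hK
      rw [← Units.val_pow_eq_pow_val, ← map_pow]
      have : e ^ Monoid.exponent G = 1 := by
        apply Subtype.ext
        simp [Monoid.pow_exponent_eq_one]
      rw [this, map_one]; rfl
    choose k hk using hr
    let μ : t.1 →* K :=
      { toFun := k
        map_one' := φ.injective (by rw [hk, map_one, map_one]; rfl)
        map_mul' := fun a b => φ.injective (by rw [hk, map_mul, map_mul, hk, hk]; rfl) }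
    obtain ⟨N, τ, hτ⟩ := exists_rep_indFun φ t.1 μ
    refine ⟨N, τ, ?_⟩
    rw [hτ]
    congr 1
    funext e
    exact hk e
  obtain ⟨ψ₁, ψ₂, ⟨N₁, τ₁, rfl⟩, ⟨N₂, τ₂, rfl⟩, h⟩ := hd
  exact exists_rep_of_diff φ χ τ₁ τ₂ (by rw [← h, add_comm])

/-- **Brauer's splitting field theorem**, abstract form. -/
theorem isKChar_of_isCharacter [Finite G]
    (hK : ∀ z : ℂ, z ^ Monoid.exponent G = 1 → z ∈ Set.range φ) (χ : G → ℂ)
    (hχ : IsCharacter G χ) : IsKChar φ G χ := by
  obtain ⟨m, rfl⟩ := isCharacter_iff.mp hχ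
  rw [finsum_irr_eq_sum]
  apply IsKChar.sum
  intro ξ _
  rw [Nat.cast_smul_eq_nsmul]
  exact IsKChar.nsmul φ (isKChar_of_irr φ hK ξ) _

/-- Concrete form: a representation on `Fin n → ℂ` is equivalent to the base change of a
`K`-representation. -/
theorem exists_bc_equiv [Finite G]
    (hK : ∀ z : ℂ, z ^ Monoid.exponent G = 1 → z ∈ Set.range φ) (n : ℕ)
    (ρ : Representation ℂ G (Fin n → ℂ)) :
    ∃ τ : Representation K G (Fin n → K), Nonempty (ρ.Equiv (bc φ τ)) := by
  obtain ⟨N, τ, hτ⟩ := isKChar_of_isCharacter φ hK ρ.character ⟨n, ρ, rfl⟩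
  have hN : N = n := by
    have h1 := congrFun hτ 1
    rw [cch_one, Representation.char_one] at h1
    simp only [Module.finrank_fintype_fun_eq_card, Fintype.card_fin] at h1
    exact_mod_cast h1
  subst hN
  exact ⟨τ, equiv_of_character_eq ρ (bc φ τ) (by rw [← cch_bc, hτ])⟩

end Main

end Cfsg.Agent.H16
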