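import Mathlib
import Cfsg.Agent.H42.SpnDefs

/-!
# helper16: S5956 pieces SPN-MODEVEN / MODPAIR / MODSUM -- common lemmas

The shift on `Fin e → F`, its kernels, and the pairing `∑ c a * x a * y (rev a)`.
-/

set_option autoImplicit false

namespace Cfsg.Agent.H16.Spn

open Module

section Prod

variable {F : Type*} [Field F] {V₁ V₂ : Type*} [AddCommGroup V₁] [Module F V₁]
  [AddCommGroup V₂] [Module F V₂]

theorem prodMap_pow_aux (f : Module.End F V₁) (g : Module.End F V₂) (e : ℕ) :
    (f.prodMap g) ^ e = (f ^ e).prodMap (g ^ e) := by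
  induction e with
  | zero => rw [pow_zero, pow_zero, pow_zero]; exact LinearMap.prodMap_one.symm
  | succ e ih => rw [pow_succ, ih, pow_succ, pow_succ, LinearMap.prodMap_mul]

theorem finrank_ker_prodMap [FiniteDimensional F V₁] [FiniteDimensional F V₂]
    (f : Module.End F V₁) (g : Module.End F V₂) :
    finrank F (LinearMap.ker (f.prodMap g)) =
      finrank F (LinearMap.ker f) + finrank F (LinearMap.ker g) := by
  rw [LinearMap.ker_prodMap, ← Module.finrank_prod]
  exact LinearEquiv.finrank_eq
    { toFun := fun x => (⟨x.1.1, x.2.1⟩, ⟨x.1.2, x.2.2⟩)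
      invFun := fun y => ⟨(y.1.1, y.2.1), ⟨y.1.2, y.2.2⟩⟩
      map_add' := fun _ _ => rfl
      map_smul' := fun _ _ => rfl
      left_inv := fun _ => rfl
      right_inv := fun _ => rfl }

theorem finrank_ker_prodMap_pow [FiniteDimensional F V₁] [FiniteDimensional F V₂]
    (f : Module.End F V₁) (g : Module.End F V₂) (e : ℕ) :
    finrank F (LinearMap.ker ((f.prodMap g) ^ e)) =
      finrank F (LinearMap.ker (f ^ e)) + finrank F (LinearMap.ker (g ^ e)) := by
  rw [prodMap_pow_aux, finrank_ker_prodMap]

end Prod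

section Shift

variable (F : Type*) [Field F] (e : ℕ)

/-- The down-shift `(sh x) a = x (a + 1)` on `Fin e → F`. -/
def sh : Module.End F (Fin e → F) where
  toFun x a := if h : a.val + 1 < e then x ⟨a.val + 1, h⟩ else 0
  map_add' x y := by
    funext a
    simp only [Pi.add_apply]
    split_ifs <;> simp
  map_smul' c x := by
    funext a
    simp only [Pi.smul_apply, RingHom.id_apply, smul_eq_mul]
    split_ifs <;> simp

variable {F e}

theorem sh_apply (x : Fin e → F) (a : Fin e) :
    sh F e x a = if h : a.val + 1 < e then x ⟨a.val + 1, h⟩ else 0 := rfl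

theorem sh_pow_eq_zero_iff (j : ℕ) (x : Fin e → F) :
    (sh F e ^ j) x = 0 ↔ ∀ b : Fin e, j ≤ b.val → x b = 0 := by
  induction j generalizing x with
  | zero =>
    simp only [pow_zero, Module.End.one_apply, Nat.zero_le, forall_const]
    exact funext_iff
  | succ j ih =>
    rw [pow_succ, Module.End.mul_apply, ih]
    constructor
    · intro h c hc
      have hb : c.val - 1 < e := by omega
      have := h ⟨c.val - 1, hb⟩ (by simp only; omega)
      rw [sh_apply, dif_pos (by simp only; omega)] at this
      rw [← this]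
      congr 1
      apply Fin.ext
      simp only
      omega
    · intro h b hb
      rw [sh_apply]
      split_ifs with h1
      · exact h _ (by simp only; omega)
      · rfl

theorem finrank_ker_sh_pow (j : ℕ) : finrank F (LinearMap.ker (sh F e ^ j)) = min j e := by
  classical
  have hker : LinearMap.ker (sh F e ^ j) =
      ⨅ i ∈ ({b : Fin e | j ≤ b.val} : Set (Fin e)),
        LinearMap.ker (LinearMap.proj i : (Fin e → F) →ₗ[F] F) := by
    ext x
    simp only [LinearMap.mem_ker, sh_pow_eq_zero_iff, Submodule.mem_iInf, Set.mem_ofPred_eq,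
      LinearMap.proj_apply]
  rw [hker]
  have e1 := LinearMap.iInfKerProjEquiv F (fun _ : Fin e => F) (I := {b : Fin e | b.val < j})
    (J := {b : Fin e | j ≤ b.val})
    (by
      rw [Set.disjoint_left]
      intro a ha hb
      simp only [Set.mem_ofPred_eq] at ha hb
      omega)
    (by
      intro a _
      simp only [Set.mem_union, Set.mem_ofPred_eq]
      omega)
  rw [e1.finrank_eq, Module.finrank_fintype_fun_eq_card, Fintype.card_subtype]
  simp only [Set.mem_ofPred_eq]
  rw [Fin.card_filter_val_lt, min_comm]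

/-- The pairing `∑ c a * x a * y (rev a)`. -/
def pr (c : Fin e → F) : (Fin e → F) →ₗ[F] (Fin e → F) →ₗ[F] F :=
  LinearMap.mk₂ F (fun x y => ∑ a, c a * x a * y (Fin.rev a))
    (by intro x x' y; simp only [Pi.add_apply, mul_add, add_mul, Finset.sum_add_distrib])
    (by
      intro k x y
      simp only [Pi.smul_apply, smul_eq_mul, Finset.mul_sum]
      exact Finset.sum_congr rfl (fun a _ => by ring))
    (by intro x y y'; simp only [Pi.add_apply, mul_add, Finset.sum_add_distrib])
    (by
      intro k x y
      simp only [Pi.smul_apply, smul_eq_mul, Finset.mul_sum]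
      exact Finset.sum_congr rfl (fun a _ => by ring))

theorem pr_apply (c : Fin e → F) (x y : Fin e → F) :
    pr c x y = ∑ a, c a * x a * y (Fin.rev a) := rfl

theorem pr_nondeg (c : Fin e → F) (hc : ∀ a, c a ≠ 0) (x : Fin e → F)
    (h : ∀ y, pr c x y = 0) : x = 0 := by
  classical
  funext a
  have h1 := h (Pi.single (Fin.rev a) 1)
  rw [pr_apply, Finset.sum_eq_single a] at h1
  · simpa [hc a] using h1
  · intro b _ hb
    rw [Pi.single_apply, if_neg (fun h => hb (Fin.rev_injective h)), mul_zero]
  · intro h; exact absurd (Finset.mem_univ a) h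

theorem pr_symm (c : Fin e → F) (hc : ∀ a, c (Fin.rev a) = c a) (x y : Fin e → F) :
    pr c x y = pr c y x := by
  rw [pr_apply, pr_apply, ← Equiv.sum_comp Fin.revPerm]
  refine Finset.sum_congr rfl (fun a _ => ?_)
  simp only [Fin.revPerm_apply, Fin.rev_rev, hc]
  ring

theorem pr_sh {n : ℕ} (c : Fin (n + 1) → F) (s : F)
    (hc : ∀ i : Fin n, c i.succ = s * c i.castSucc) (x y : Fin (n + 1) → F) :
    pr c x (sh F (n + 1) y) = s * pr c (sh F (n + 1) x) y := by
  rw [pr_apply, pr_apply, Fin.sum_univ_succ,
    Fin.sum_univ_castSucc (f := fun a => c a * sh F (n + 1) x a * y (Fin.rev a))]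
  have h1 : sh F (n + 1) y (Fin.rev 0) = 0 := by
    rw [sh_apply, dif_neg]; simp
  have h2 : sh F (n + 1) x (Fin.last n) = 0 := by
    rw [sh_apply, dif_neg]; simp
  have h3 : ∀ i : Fin n, sh F (n + 1) y (Fin.rev i.succ) = y (Fin.succ (Fin.rev i)) := by
    intro i
    have hlt : (Fin.rev i).castSucc.val + 1 < n + 1 := by
      rw [Fin.val_castSucc]; exact Nat.succ_lt_succ (Fin.rev i).isLt
    rw [Fin.rev_succ, sh_apply, dif_pos hlt]
    congr 1
  have h4 : ∀ i : Fin n, sh F (n + 1) x i.castSucc = x i.succ := by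
    intro i
    have hlt : i.castSucc.val + 1 < n + 1 := by
      rw [Fin.val_castSucc]; exact Nat.succ_lt_succ i.isLt
    rw [sh_apply, dif_pos hlt]
    congr 1
  simp only [h1, h2, h3, h4, mul_zero, zero_mul, zero_add, add_zero, Fin.rev_castSucc, hc]
  rw [Finset.mul_sum]
  exact Finset.sum_congr rfl (fun i _ => by ring)

end Shift

end Cfsg.Agent.H16.Spn
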