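import Mathlib
import Cfsg.Agent.H42.SpnDefs
import Cfsg.Agent.H16.SpnModBase

/-!
# helper16: S5956 piece SPN-MODEVEN -- one Jordan block of even size
-/

set_option autoImplicit false

namespace Cfsg.Agent.H16.Spn

open Cfsg.Agent.H42.Spn Module

universe u

/-- **SPN-MODEVEN.** -/
theorem modEven : StModEven.{u} := by
  intro F _ e he he0
  obtain ⟨n, rfl⟩ : ∃ n, e = n + 1 := ⟨e - 1, by omega⟩
  have hc0 : ∀ a : Fin (n + 1), ((-1 : F) ^ a.val) ≠ 0 := fun a =>
    pow_ne_zero _ (neg_ne_zero.mpr one_ne_zero)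
  refine ⟨Fin (n + 1) → F, inferInstance, inferInstance, inferInstance,
    pr (fun a : Fin (n + 1) => (-1 : F) ^ a.val), sh F (n + 1), ?_, ?_, ?_, ?_, ?_⟩
  · intro x
    rw [pr_apply]
    refine Finset.sum_involution (fun a _ => Fin.rev a) ?_ ?_ (fun a _ => Finset.mem_univ _)
      (fun a _ => Fin.rev_rev a)
    · intro a _
      have h1 : ((-1 : F) ^ (Fin.rev a).val) = -((-1 : F) ^ a.val) := by
        have h2 : (Fin.rev a).val + a.val = n := by
          rw [Fin.val_rev]; omega
        have hn : Odd n := by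
          obtain ⟨k, hk⟩ := he
          exact ⟨k - 1, by omega⟩
        have h3 : ((-1 : F) ^ (Fin.rev a).val) * ((-1 : F) ^ a.val) = -1 := by
          rw [← pow_add, h2, hn.neg_one_pow]
        have h4 : ((-1 : F) ^ a.val) * ((-1 : F) ^ a.val) = 1 := by
          rw [← pow_add, ← two_mul, pow_mul]; simp
        calc ((-1 : F) ^ (Fin.rev a).val)
            = ((-1 : F) ^ (Fin.rev a).val) * (((-1 : F) ^ a.val) * ((-1 : F) ^ a.val)) := by
              rw [h4, mul_one]
          _ = -((-1 : F) ^ a.val) := by rw [← mul_assoc, h3]; ring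
      rw [Fin.rev_rev, h1]
      ring
    · intro a _ _ h
      have h2 : (Fin.rev a).val = a.val := congrArg Fin.val h
      rw [Fin.val_rev] at h2
      obtain ⟨k, hk⟩ := he
      omega
  · exact pr_nondeg _ hc0
  · intro x y
    have h := pr_sh (fun a : Fin (n + 1) => (-1 : F) ^ a.val) (-1)
      (by intro i; simp only [Fin.val_succ, Fin.val_castSucc, pow_succ]; ring) x y
    rw [h]
    ring
  · exact Module.finrank_fin_fun F
  · intro j
    rw [finrank_ker_sh_pow, Multiset.map_singleton, Multiset.sum_singleton]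

end Cfsg.Agent.H16.Spn
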