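import Mathlib
import Cfsg.Agent.H42.SpnDefs
import Cfsg.Agent.H16.SpnModBase

/-!
# helper16: S5956 piece SPN-MODPAIR -- two Jordan blocks of the same size
-/

set_option autoImplicit false

namespace Cfsg.Agent.H16.Spn

open Cfsg.Agent.H42.Spn Module

universe u

/-- **SPN-MODPAIR.** -/
theorem modPair : StModPair.{u} := by
  intro F _ e he0
  obtain ⟨n, rfl⟩ : ∃ n, e = n + 1 := ⟨e - 1, by omega⟩
  let W := Fin (n + 1) → F
  let P : W →ₗ[F] W →ₗ[F] F := pr (fun _ : Fin (n + 1) => (1 : F))
  have hP1 : ∀ x y : W, P x y = P y x := pr_symm _ (fun _ => rfl)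
  have hP2 : ∀ x : W, (∀ y, P x y = 0) → x = 0 := pr_nondeg _ (fun _ => one_ne_zero)
  have hP3 : ∀ x y : W, P x (sh F (n + 1) y) = P (sh F (n + 1) x) y := by
    intro x y
    have h := pr_sh (fun _ : Fin (n + 1) => (1 : F)) 1 (by intro i; ring) x y
    rw [one_mul] at h
    exact h
  let B : (W × W) →ₗ[F] (W × W) →ₗ[F] F :=
    P.compl₁₂ (LinearMap.fst F W W) (LinearMap.snd F W W) -
      P.compl₁₂ (LinearMap.snd F W W) (LinearMap.fst F W W)
  have hB : ∀ x y, B x y = P x.1 y.2 - P x.2 y.1 := fun x y => rfl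
  refine ⟨W × W, inferInstance, inferInstance, inferInstance, B,
    (sh F (n + 1)).prodMap (-sh F (n + 1)), ?_, ?_, ?_, ?_, ?_⟩
  · intro x
    rw [hB, hP1 x.1 x.2, sub_self]
  · intro x hx
    apply Prod.ext
    · apply hP2
      intro y
      have := hx (0, y)
      rw [hB] at this
      simpa using this
    · apply hP2
      intro y
      have := hx (y, 0)
      rw [hB] at this
      simpa using this
  · intro x y
    rw [hB, hB]
    simp only [LinearMap.prodMap_apply, LinearMap.neg_apply, map_neg, hP3]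
    ring
  · rw [Module.finrank_prod]
    have : Module.finrank F W = n + 1 := Module.finrank_fin_fun F
    rw [this]
    ring
  · intro j
    have hneg : LinearMap.ker ((-sh F (n + 1)) ^ j) = LinearMap.ker (sh F (n + 1) ^ j) := by
      have h0 : (-sh F (n + 1)) ^ j = sh F (n + 1) ^ j ∨
          (-sh F (n + 1)) ^ j = -(sh F (n + 1) ^ j) := by
        rcases Nat.even_or_odd j with h | h
        · left; exact h.neg_pow (sh F (n + 1))
        · right; exact h.neg_pow (sh F (n + 1))
      rcases h0 with h | h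
      · rw [h]
      · rw [h]; exact LinearMap.ker_neg _
    rw [finrank_ker_prodMap_pow, hneg, finrank_ker_sh_pow, Multiset.insert_eq_cons,
      Multiset.map_cons, Multiset.map_singleton, Multiset.sum_cons, Multiset.sum_singleton]

end Cfsg.Agent.H16.Spn
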