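import Mathlib
import Cfsg.Agent.H42.SpnDefs
import Cfsg.Agent.H16.SpnModBase

/-!
# helper16: S5956 piece SPN-MODSUM -- orthogonal sums of models
-/

set_option autoImplicit false

namespace Cfsg.Agent.H16.Spn

open Cfsg.Agent.H42.Spn Module

universe u

/-- **SPN-MODSUM.** -/
theorem modSum : StModSum.{u} := by
  intro F _ n₁ n₂ μ₁ μ₂ h₁ h₂
  obtain ⟨V₁, _, _, _, B₁, N₁, ha₁, hd₁, hs₁, hn₁, hk₁⟩ := h₁
  obtain ⟨V₂, _, _, _, B₂, N₂, ha₂, hd₂, hs₂, hn₂, hk₂⟩ := h₂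
  let B : (V₁ × V₂) →ₗ[F] (V₁ × V₂) →ₗ[F] F :=
    B₁.compl₁₂ (LinearMap.fst F V₁ V₂) (LinearMap.fst F V₁ V₂) +
      B₂.compl₁₂ (LinearMap.snd F V₁ V₂) (LinearMap.snd F V₁ V₂)
  have hB : ∀ x y, B x y = B₁ x.1 y.1 + B₂ x.2 y.2 := fun x y => rfl
  refine ⟨V₁ × V₂, inferInstance, inferInstance, inferInstance, B, N₁.prodMap N₂,
    ?_, ?_, ?_, ?_, ?_⟩
  · intro x
    rw [hB, ha₁, ha₂, add_zero]
  · intro x hx
    apply Prod.ext
    · apply hd₁
      intro y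
      have := hx (y, 0)
      rw [hB] at this
      simpa using this
    · apply hd₂
      intro y
      have := hx (0, y)
      rw [hB] at this
      simpa using this
  · intro x y
    rw [hB, hB]
    simp only [LinearMap.prodMap_apply]
    rw [hs₁, hs₂]
    ring
  · rw [Module.finrank_prod, hn₁, hn₂]
  · intro e
    rw [finrank_ker_prodMap_pow, hk₁, hk₂, Multiset.map_add, Multiset.sum_add]

end Cfsg.Agent.H16.Spn
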