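import Mathlib
import Cfsg.Agent.H45.Semisimple

/-!
# S5965-CENT: the determinant is onto on the centraliser of an element of order prime to `p`
-/

set_option autoImplicit false

open scoped MatrixGroups

namespace Cfsg.Agent.H16.Sub

variable {F : Type*} [Field F] [Fintype F]

theorem exists_commuting_det (n r : ℕ) (hn : 0 < n) (hr : r.Prime) (hrF : (r : F) ≠ 0)
    (y : Matrix (Fin n) (Fin n) F) (hy : y ^ r = 1) (d : F) (hd : d ≠ 0) :
    ∃ h : Matrix (Fin n) (Fin n) F, h.det = d ∧ h * y = y * h := by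
  classical
  obtain ⟨p, hp⟩ := CharP.exists F
  haveI := hp
  haveI : Nonempty (Fin n) := ⟨⟨0, hn⟩⟩
  haveI : Nontrivial (Fin n → F) := inferInstance
  have hT : (Matrix.toLin' y) ^ r = 1 := by
    have h1 := congrArg (Matrix.toLinAlgEquiv' (R := F) (n := Fin n)) hy
    rw [map_pow, map_one] at h1
    exact h1
  have hpr : ¬ p ∣ r := by
    intro h
    exact hrF ((CharP.cast_eq_zero_iff F p r).mpr h)
  have hss := Cfsg.Agent.H45.isSemisimple_of_pow_eq_one p (Matrix.toLin' y) r hpr hT
  obtain ⟨C, hC, hdet⟩ := Cfsg.Agent.H45.exists_commute_det (Matrix.toLin' y) hss d hd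
  refine ⟨LinearMap.toMatrix' (C : (Fin n → F) →ₗ[F] (Fin n → F)), ?_, ?_⟩
  · rw [LinearMap.det_toMatrix', hdet]
  · have h1 : (C : (Fin n → F) →ₗ[F] (Fin n → F)).comp (Matrix.toLin' y) =
        (Matrix.toLin' y).comp (C : (Fin n → F) →ₗ[F] (Fin n → F)) := by
      apply LinearMap.ext
      intro v
      exact hC v
    have h2 := congrArg LinearMap.toMatrix' h1
    rw [LinearMap.toMatrix'_comp, LinearMap.toMatrix'_comp, LinearMap.toMatrix'_toLin'] at h2
    exact h2

end Cfsg.Agent.H16.Sub
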