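import Mathlib
import Cfsg.Agent.H99.ElKUM

/-!
# S5965-KUMNONE: no Kummer-type element when the `r`-valuation of `n` is small
-/

set_option autoImplicit false

open scoped MatrixGroups

namespace Cfsg.Agent.H16.Sub

variable {F : Type*} [Field F] [Fintype F]

theorem no_kummer_of_val_le (n r : ℕ) (hn : 0 < n) (hr : r.Prime) (hr2 : r ≠ 2)
    (hv : r ∣ Fintype.card F - 1 → padicValNat r n ≤ padicValNat r (Fintype.card F - 1))
    (x : Matrix (Fin n) (Fin n) F) (hdet : x.det = 1) (z : F) (hz : ∀ y : F, y ^ r ≠ z)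
    (hx : x ^ r = z • (1 : Matrix (Fin n) (Fin n) F)) : False := by
  classical
  haveI : Fact r.Prime := ⟨hr⟩
  obtain ⟨T, hTdef⟩ : ∃ T : Module.End F (Fin n → F), T = Matrix.toLin' x := ⟨_, rfl⟩
  have hT : T ^ r = z • 1 := by
    rw [hTdef]
    have h1 := congrArg (Matrix.toLinAlgEquiv' (R := F) (n := Fin n)) hx
    rw [map_pow, map_smul, map_one] at h1
    exact h1
  have hfr : Module.finrank F (Fin n → F) = n := by simp
  have hrn : r ∣ n := by
    have h1 := Cfsg.Agent.H99.Kum.kummer_dvd_finrank T r hr z hz hT ⊤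
      (fun v _ => Submodule.mem_top)
    rw [finrank_top, hfr] at h1
    exact h1
  have hdetT : LinearMap.det T = 1 := by
    rw [hTdef, LinearMap.det_toLin', hdet]
  have hz1 : z ^ (n / r) = 1 := by
    have h1 := Cfsg.Agent.H99.Kum.kummer_det T r hr z hz hT
    rw [hdetT, hfr] at h1
    have hodd : Odd r := hr.odd_of_ne_two hr2
    have h2 : (-1 : F) ^ (r + 1) = 1 := by
      have h3 : Even (r + 1) := hodd.add_one
      exact h3.neg_one_pow
    rw [h2, one_mul] at h1
    exact h1.symm
  have hz0 : z ≠ 0 := by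
    rintro rfl
    exact hz 0 (zero_pow hr.ne_zero)
  obtain ⟨zu, hzu⟩ : ∃ zu : Fˣ, (zu : F) = z := ⟨Units.mk0 z hz0, rfl⟩
  have hcardU : Nat.card Fˣ = Fintype.card F - 1 := by
    rw [Nat.card_eq_fintype_card, Fintype.card_units]
  have hnotpow : ∀ y : Fˣ, y ^ r ≠ zu := by
    intro y hy
    apply hz (y : F)
    rw [← hzu, ← hy, Units.val_pow_eq_pow_val]
  have hrq : r ∣ Fintype.card F - 1 := by
    by_contra hnd
    have hcop : (Nat.card Fˣ).Coprime r := by
      rw [hcardU]
      exact ((Nat.Prime.coprime_iff_not_dvd hr).mpr hnd).symm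
    obtain ⟨y, hy⟩ := (powCoprime hcop).surjective zu
    exact hnotpow y hy
  have hv' := hv hrq
  obtain ⟨g, hg⟩ := IsCyclic.exists_generator (α := Fˣ)
  have hog : orderOf g = Fintype.card F - 1 := by
    rw [← hcardU]
    exact orderOf_eq_card_of_forall_mem_zpowers hg
  obtain ⟨k, hk⟩ : ∃ k : ℕ, g ^ k = zu := by
    have h1 := hg zu
    rw [← mem_powers_iff_mem_zpowers] at h1
    exact h1
  have hrk : ¬ r ∣ k := by
    rintro ⟨j, rfl⟩
    apply hnotpow (g ^ j)
    rw [← pow_mul, mul_comm, hk]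
  have hozu : orderOf zu * Nat.gcd (Fintype.card F - 1) k = Fintype.card F - 1 := by
    rw [← hk, orderOf_pow, hog]
    exact Nat.div_mul_cancel (Nat.gcd_dvd_left _ _)
  have hzun : zu ^ (n / r) = 1 := by
    apply Units.ext
    rw [Units.val_pow_eq_pow_val, hzu, hz1, Units.val_one]
  have hdvd1 : orderOf zu ∣ n / r := orderOf_dvd_of_pow_eq_one hzun
  have hpa : r ^ padicValNat r (Fintype.card F - 1) ∣ orderOf zu := by
    have h1 : r ^ padicValNat r (Fintype.card F - 1) ∣
        orderOf zu * Nat.gcd (Fintype.card F - 1) k := by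
      rw [hozu]
      exact pow_padicValNat_dvd
    have hc : Nat.Coprime (r ^ padicValNat r (Fintype.card F - 1))
        (Nat.gcd (Fintype.card F - 1) k) := by
      apply Nat.Coprime.pow_left
      rw [Nat.Prime.coprime_iff_not_dvd hr]
      intro h
      exact hrk (h.trans (Nat.gcd_dvd_right _ _))
    exact hc.dvd_of_dvd_mul_right h1
  have h2 : r ^ (padicValNat r (Fintype.card F - 1) + 1) ∣ n := by
    have h3 := hpa.trans hdvd1
    have h4 : r ^ (padicValNat r (Fintype.card F - 1) + 1) ∣ (n / r) * r := by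
      rw [pow_succ]
      exact Nat.mul_dvd_mul h3 dvd_rfl
    rwa [Nat.div_mul_cancel hrn] at h4
  have h3 : padicValNat r (Fintype.card F - 1) + 1 ≤ padicValNat r n :=
    (padicValNat_dvd_iff_le hn.ne').mp h2
  omega

end Cfsg.Agent.H16.Sub
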