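import Cfsg.Agent.H90.TRDefs
import Cfsg.Agent.H87.QSTransport
import Cfsg.Agent.S5093

/-!
# S5156-R2a: the hyperfocal subgroup of a realized system is the preimage of `O^p(M)`
-/

set_option autoImplicit false

namespace Cfsg.Agent.H16.TR

open Cfsg Cfsg.FusionSystem Cfsg.Agent.H86 Cfsg.Agent.H87 Cfsg.Agent.H90.TR

universe u

theorem r2a : Cfsg.Agent.H90.TR.R2aStmt.{u} := by
  intro Ω _ S _ p _ E M _ _ ι hreal T hT s
  let e : S ≃* (T : Subgroup M) :=
    (MonoidHom.ofInjective hreal.1).trans (MulEquiv.subgroupCongr hT.symm)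
  have he : ∀ x : S, ((e x : (T : Subgroup M)) : M) = ι x := fun _ => rfl
  have hiso : FusIso E (groupFusionSystem (T : Subgroup M)) e := fusIso_of_realized hreal e he
  have h1 := hiso.trSub_hyperfocal p
  rw [Cfsg.Agent.S5093.result p T] at h1
  constructor
  · intro hs
    have h2 : jF e (s : Ω) ∈ trSub e (E.hyperfocalSubgroup p) :=
      (mem_trSub e).2 ⟨s, s.2, hs, rfl⟩
    rw [h1, jF_of_mem e s.2] at h2
    have h3 := h2.2
    rwa [he] at h3
  · intro hs
    have h2 : ι s ∈ (T : Subgroup M) ⊓ pResidual p M :=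
      ⟨by rw [hT]; exact ⟨s, rfl⟩, hs⟩
    rw [← h1] at h2
    obtain ⟨x, hxS, hx, hxe⟩ := (mem_trSub e).1 h2
    rw [jF_of_mem e hxS, he] at hxe
    have h3 := hreal.1 hxe
    rw [← h3]
    exact hx

end Cfsg.Agent.H16.TR
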