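import Cfsg.Agent.H90.TRDefs
import Cfsg.Agent.H88.ResidGroup

/-!
# S5156-R2b: the system of `O^p(M)` on the hyperfocal subgroup has `p`-power index
-/

set_option autoImplicit false

namespace Cfsg.Agent.H16.TR

open Cfsg Cfsg.FusionSystem Cfsg.Agent.H86 Cfsg.Agent.H87 Cfsg.Agent.H90.TR

universe u

theorem r2b : Cfsg.Agent.H90.TR.R2bStmt.{u} := by
  intro Ω _ S _ p _ E M _ _ ι hreal hK
  have hp : p.Prime := Fact.out
  refine ⟨?_, le_rfl, ?_⟩
  · intro P φ hφ
    obtain ⟨hP, hφm, k, hk, h⟩ := hφ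
    exact (hreal.2 P (hP.trans (hyperfocal_le E p)) φ
      (fun x => hyperfocal_le E p (hφm x))).2 ⟨k, h⟩
  · intro P hP
    rw [Subgroup.map_le_iff_le_comap]
    unfold pResidual
    rw [Subgroup.closure_le]
    intro β hβ
    have hPS : P ≤ S := hP.trans (hyperfocal_le E p)
    obtain ⟨φ, hφ, hφf⟩ := (mem_autGroup_iff hPS (β : MulAut P)).1 β.2
    have hφS : ∀ x : P, φ x ∈ S := fun x => (E.le_of_mem hφ).2 x
    obtain ⟨g₀, hg₀⟩ := (hreal.2 P hPS φ hφS).1 hφ
    have H : ∀ (x : P) (s : S), (s : Ω) = (((β : MulAut P) x : P) : Ω) →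
        ι s = g₀ * ι ⟨x, hPS x.2⟩ * g₀⁻¹ := by
      intro x s hs
      rw [← hg₀ x]
      congr 1
      apply Subtype.ext
      show (s : Ω) = φ x
      rw [hs, hφf x, autFun_apply]
    have Hpow : ∀ (k : ℕ) (x : P) (s : S), (s : Ω) = ((((β : MulAut P) ^ k) x : P) : Ω) →
        ι s = g₀ ^ k * ι ⟨x, hPS x.2⟩ * (g₀ ^ k)⁻¹ := by
      intro k
      induction k with
      | zero =>
        intro x s hs
        have : s = ⟨x, hPS x.2⟩ := Subtype.ext (by rw [hs]; simp)
        rw [this]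
        simp
      | succ k ih =>
        intro x s hs
        have h1 := H (((β : MulAut P) ^ k) x) s (by rw [hs, pow_succ', MulAut.mul_apply])
        rw [h1, ih x ⟨_, hPS (((β : MulAut P) ^ k) x).2⟩ rfl, pow_succ']
        group
    have hcop : Nat.Coprime (orderOf (β : MulAut P)) p := by
      rw [Subgroup.orderOf_coe]
      exact hβ
    have ho : orderOf g₀ ≠ 0 := (orderOf_pos g₀).ne'
    obtain ⟨e, he⟩ : ∃ e, e = (orderOf g₀).factorization p := ⟨_, rfl⟩
    obtain ⟨n', hn'⟩ : ∃ n', n' = orderOf g₀ / p ^ e := ⟨_, rfl⟩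
    have hmul : p ^ e * n' = orderOf g₀ := by
      rw [hn', he]
      exact Nat.ordProj_mul_ordCompl_eq_self (orderOf g₀) p
    have hcopn : Nat.Coprime p n' := by
      rw [hn', he]
      exact Nat.coprime_ordCompl hp ho
    have hco : Nat.Coprime (p ^ e) (orderOf (β : MulAut P)) :=
      (Nat.Coprime.pow_right e hcop).symm
    obtain ⟨k, hk0, hk1⟩ := Nat.chineseRemainder hco 0 1
    have hdvd : p ^ e ∣ k := (Nat.modEq_zero_iff_dvd).1 hk0
    have hpow : (g₀ ^ k) ^ n' = 1 := by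
      rw [← pow_mul]
      apply orderOf_dvd_iff_pow_eq_one.mp
      rw [← hmul]
      exact Nat.mul_dvd_mul hdvd dvd_rfl
    have hord : Nat.Coprime (orderOf (g₀ ^ k)) p :=
      Nat.Coprime.coprime_dvd_left (orderOf_dvd_of_pow_eq_one hpow) hcopn.symm
    have hak : (β : MulAut P) ^ k = β :=
      Cfsg.Agent.H87.pow_eq_self_of_modEq (pow_orderOf_eq_one _) hk1
    show (β : MulAut P) ∈ (conjSys ι hreal.1 (pResidual p M) (E.hyperfocalSubgroup p)
      (hyperfocal_le E p) hK).autGroup P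
    rw [mem_autGroup_iff hP, mor_conjSys_iff]
    refine ⟨hP, fun x hx => hP (autFun_mem _ hx), g₀ ^ k, Subgroup.subset_closure hord,
      fun x hx hfx => ?_⟩
    have h2 : autFun P (β : MulAut P) (x : Ω) =
        ((((β : MulAut P) ^ k) ⟨x, hx⟩ : P) : Ω) := by
      rw [hak, autFun_of_mem _ hx]
    exact Hpow k ⟨x, hx⟩ ⟨_, hfx⟩ h2

end Cfsg.Agent.H16.TR
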