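import Cfsg.Agent.H34.ThDefs

/-!
# S1632 TH-QSER (helper16, for helper34): the level sets of `Q` are finite and the theta series is the
`q`-series of the representation numbers.
-/

set_option autoImplicit false

namespace Cfsg.Agent.H16.Th

open Real Matrix Cfsg.Agent.H34.Th

/-- **TH-QSER**. -/
theorem qSer : Cfsg.Agent.H34.Th.StQSer := by
  intro ι Q hQ0 hQ2 hS
  have hfin : ∀ m : ℕ, {x : ι | Q x = 2 * (m : ℤ)}.Finite := by
    intro m
    have h1 := (hS 1 one_pos).tendsto_cofinite_zero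
    have hε : (0:ℝ) < Real.exp (-π * 1 * ((2 * (m:ℤ) : ℤ) : ℝ)) := Real.exp_pos _
    have h2 := h1.eventually (gt_mem_nhds hε)
    have h3 : {x : ι | ¬ (Real.exp (-π * 1 * (Q x : ℝ)) <
        Real.exp (-π * 1 * ((2 * (m:ℤ) : ℤ) : ℝ)))}.Finite := h2
    apply h3.subset
    intro x hx
    have hx' : Q x = 2 * (m : ℤ) := hx
    show ¬ (_ < _)
    rw [hx']
    exact lt_irrefl _
  refine ⟨hfin, ?_⟩
  intro z hz
  set f : ι → ℂ := fun x => Complex.exp (π * Complex.I * z * (Q x : ℂ)) with hf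
  have hnorm : ∀ x, ‖f x‖ = Real.exp (-π * z.im * (Q x : ℝ)) := by
    intro x
    rw [hf]
    show ‖Complex.exp (π * Complex.I * z * (Q x : ℂ))‖ = _
    rw [Complex.norm_exp]
    congr 1
    have e : (π * Complex.I * z * (Q x : ℂ)) = ((π * (Q x : ℝ) : ℝ) : ℂ) * (Complex.I * z) := by
      push_cast; ring
    rw [e, Complex.re_ofReal_mul]
    simp
    ring
  have hsum : Summable f := by
    apply Summable.of_norm
    simp_rw [hnorm]
    exact hS z.im hz
  have hHS : HasSum f (thetaC Q z) := hsum.hasSum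
  let g : ι → ℕ := fun x => (Q x / 2).toNat
  have hg : ∀ x m, g x = m ↔ Q x = 2 * (m : ℤ) := by
    intro x m
    obtain ⟨k, hk⟩ := hQ2 x
    have hk0 : 0 ≤ k := by have := hQ0 x; omega
    show (Q x / 2).toNat = m ↔ _
    rw [hk]
    have h2 : (2 * k) / 2 = k := by omega
    rw [h2]
    constructor
    · intro h; omega
    · intro h; omega
  have h1 : HasSum (f ∘ (Equiv.sigmaFiberEquiv g)) (thetaC Q z) :=
    (Equiv.hasSum_iff (Equiv.sigmaFiberEquiv g)).mpr hHS
  refine HasSum.sigma h1 ?_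
  intro m
  have hset : {x | g x = m} = {x : ι | Q x = 2 * (m : ℤ)} := by
    ext x; exact hg x m
  have hfinm : Finite {x // g x = m} := by
    have h5 : {x | g x = m}.Finite := by rw [hset]; exact hfin m
    exact h5.to_subtype
  haveI := Fintype.ofFinite {x // g x = m}
  have hconst : ∀ c : {x // g x = m},
      (f ∘ Equiv.sigmaFiberEquiv g) ⟨m, c⟩ = Complex.exp (2 * π * Complex.I * z) ^ m := by
    intro c
    show f c.1 = _
    have h6 := (hg c.1 m).mp c.2
    show Complex.exp (π * Complex.I * z * (Q c.1 : ℂ)) = _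
    rw [h6, ← Complex.exp_nat_mul]
    congr 1
    push_cast; ring
  have h7 := hasSum_fintype (fun c : {x // g x = m} => (f ∘ Equiv.sigmaFiberEquiv g) ⟨m, c⟩)
  simp_rw [hconst] at h7
  rw [Finset.sum_const, Finset.card_univ, nsmul_eq_mul] at h7
  have hcard : rep Q m = Fintype.card {x // g x = m} := by
    show {x : ι | Q x = 2 * (m : ℤ)}.ncard = _
    rw [← hset, ← Nat.card_coe_set_eq]
    exact (Nat.card_eq_fintype_card (α := {x // g x = m}))
  rw [hcard]
  have h8 : (fun c : {x // g x = m} => (f ∘ Equiv.sigmaFiberEquiv g) ⟨m, c⟩) =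
      fun _ => Complex.exp (2 * π * Complex.I * z) ^ m := funext hconst
  rw [h8]
  exact h7

end Cfsg.Agent.H16.Th
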