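import Mathlib
import Cfsg.Agent.H42.TiDefs
import Cfsg.Agent.H45.CycFactor
import Cfsg.Agent.H45.IsoCases
import Cfsg.Agent.H3.TiBase

/-!
# S5955, piece SPI-COMPND: for `i` even the isotypic components of an invariant nondegenerate
subspace are nondegenerate
-/

set_option autoImplicit false

namespace Cfsg.Agent.H16.Ti

open Cfsg.Agent.H45 Cfsg.Agent.H42.Spd Cfsg.Agent.H42.Spn Cfsg.Agent.H42.Ti
  Cfsg.Agent.H3.Ti Module Polynomial

universe u v

/-- SPI-COMPND. -/
theorem tiCompNd : StTiCompNd.{u,v} := by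
  intro F _ _ V _ _ _ r B T hctx heven φ hφm hφ hφdvd W hW
  obtain ⟨hWinv, hWnd⟩ := hW
  have hr := hctx.prime
  have hrF := hctx.cast_ne
  have hd := hctx.good
  have hr3 : 3 ≤ r := by
    have h1 := hr.two_le
    have h2 := hctx.ne_two
    omega
  obtain ⟨hdeg, hf0, -, hfX, hfsd⟩ := cyc_factor r (by omega) hrF φ hφ hφm hφdvd
  have hσ : ∀ a : F, (RingHom.id F) ((RingHom.id F) a) = a := fun _ => rfl
  obtain ⟨k, hk⟩ : ∃ k, k = orderOf ((Fintype.card F : ℕ) : ZMod r) := ⟨_, rfl⟩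
  have hii : ii F r = k := by
    rw [hk]
    rfl
  rw [hii] at heven
  rw [← hk] at hdeg
  obtain ⟨η, hη⟩ := heven
  have hηk : 2 * η = k := by omega
  have hkpos : 0 < k := by
    rcases Nat.eq_zero_or_pos k with h0 | h0
    · exfalso
      rw [h0] at hdeg
      exact hφ.natDegree_pos.ne' hdeg
    · exact h0
  have hηpos : 0 < η := by omega
  have h1 : ((Fintype.card F : ℕ) : ZMod r) ^ k = 1 := by
    rw [hk]
    exact pow_orderOf_eq_one _
  have h2 : ((Fintype.card F : ℕ) : ZMod r) ^ η ≠ 1 := by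
    intro h
    have h3 := orderOf_dvd_of_pow_eq_one h
    rw [← hk] at h3
    have := Nat.le_of_dvd hηpos h3
    omega
  haveI : Fact r.Prime := ⟨hr⟩
  have h3 : ((Fintype.card F : ℕ) : ZMod r) ^ η = -1 := by
    have h4 : (((Fintype.card F : ℕ) : ZMod r) ^ η) ^ 2 = 1 := by
      rw [← pow_mul, mul_comm, hηk, h1]
    rcases sq_eq_one_iff.mp h4 with h5 | h5
    · exact absurd h5 h2
    · exact h5
  have h4 : r ∣ Fintype.card F ^ η + 1 := by
    rw [← ZMod.natCast_eq_zero_iff, Nat.cast_add, Nat.cast_pow, h3, Nat.cast_one, neg_add_cancel]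
  have hsd : φ ∣ dualPoly (RingHom.id F) φ := by
    rw [dualPoly_id]
    exact hfsd η h4
  have hfX' : φ ∣ X ^ r - 1 := dvd_trans hφdvd (cyclotomic.dvd_X_pow_sub_one r F)
  obtain ⟨ψ, hψ⟩ := hfX'
  have hsep : (X ^ r - C (1 : F)).Separable := separable_X_pow_sub_C (1 : F) hrF one_ne_zero
  have hsq : Squarefree (X ^ r - 1 : F[X]) := by
    have h5 := hsep.squarefree
    rwa [C_1] at h5
  have hcop : IsCoprime φ ψ := by
    apply (hφ.coprime_iff_not_dvd).mpr
    rintro ⟨χ, hχ⟩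
    have h5 : φ * φ ∣ X ^ r - 1 := ⟨χ, by rw [hψ, hχ]; ring⟩
    exact hφ.not_isUnit (hsq φ h5)
  obtain ⟨a, b, hab⟩ := hcop
  have hEinv := ker_aeval_invt T φ
  refine ⟨T.invtSubmodule.inf_mem hWinv ?_, ?_⟩
  · rw [Module.End.mem_invtSubmodule]
    exact fun x hx => hEinv x hx
  · rw [eq_bot_iff]
    rintro x ⟨⟨hxW, hxE⟩, hxperp⟩
    rw [Submodule.mem_bot]
    have hxW : x ∈ W := hxW
    have hxE : x ∈ LinearMap.ker (aeval T φ) := hxE
    have hxperp : ∀ u ∈ W ⊓ LinearMap.ker (aeval T φ), B u x = 0 := hxperp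
    have hx' : x ∈ W ⊓ perp B W := by
      refine ⟨hxW, ?_⟩
      intro v hv
      have h5 : aeval T (a * φ + b * ψ) v = v := by
        rw [hab]
        simp
      rw [map_add, LinearMap.add_apply, map_mul, map_mul, Module.End.mul_apply,
        Module.End.mul_apply] at h5
      have he : aeval T b (aeval T ψ v) ∈ W ⊓ LinearMap.ker (aeval T φ) := by
        refine ⟨ti_aeval_mem T W hWinv b _ (ti_aeval_mem T W hWinv ψ v hv), ?_⟩
        show aeval T b (aeval T ψ v) ∈ LinearMap.ker (aeval T φ)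
        rw [LinearMap.mem_ker, aeval_comm_apply T φ b, ← Module.End.mul_apply (aeval T φ)
          (aeval T ψ), ← map_mul, ← hψ, map_sub, map_pow, aeval_X, map_one, hctx.pow, sub_self,
          LinearMap.zero_apply, map_zero]
      rw [← h5, map_add, LinearMap.add_apply, hxperp _ he, add_zero, aeval_comm_apply T a φ]
      obtain ⟨x₀, hx₀, rfl⟩ := hd.pow_surj_on _ hEinv φ.natDegree x hxE
      rw [hd.adj_left hσ φ _ x₀]
      obtain ⟨q, hq⟩ := hsd
      rw [hq, mul_comm, map_mul, Module.End.mul_apply, LinearMap.mem_ker.mp hx₀, map_zero,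
        map_zero]
    rw [hWnd] at hx'
    exact (Submodule.mem_bot F).mp hx'

example : Cfsg.Agent.H42.Ti.StTiCompNd.{u,v} := tiCompNd

end Cfsg.Agent.H16.Ti
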