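import Mathlib
import Cfsg.Agent.H42.TiDefs
import Cfsg.Agent.H42.SpdEx
import Cfsg.Agent.H45.CycFactor

/-!
# S5955, piece SPI-MODBLOCK: for `i` even, one block of type `φ₀`
-/

set_option autoImplicit false

namespace Cfsg.Agent.H16.Ti

open Cfsg.Agent.H45 Cfsg.Agent.H42.Spd Cfsg.Agent.H42.Spn Cfsg.Agent.H42.Ti Module Polynomial

universe u

/-- SPI-MODBLOCK. -/
theorem tiModBlock : StTiModBlock.{u} := by
  classical
  intro F _ _ p _ _ r hr hr2 hrp heven Φs hΦ φ₀ hφ₀
  have hp : p.Prime := Fact.out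
  have hfr : Fact r.Prime := ⟨hr⟩
  have hr3 : 3 ≤ r := by
    have := hr.two_le
    omega
  have hrF : ((r : ℕ) : F) ≠ 0 := by
    intro h
    have h1 : p ∣ r := (CharP.cast_eq_zero_iff F p r).mp h
    exact hrp ((Nat.prime_dvd_prime_iff_eq hp hr).mp h1).symm
  obtain ⟨hfm, hf, hfdvd⟩ := (hΦ φ₀).mp hφ₀
  obtain ⟨hdeg, hf0, hfA, hfX, hfsd⟩ := cyc_factor r (by omega) hrF φ₀ hf hfm hfdvd
  have hfX' : φ₀ ∣ X ^ r - 1 := dvd_trans hfdvd (cyclotomic.dvd_X_pow_sub_one r F)
  have hf1 : φ₀.eval 1 ≠ 0 := by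
    intro h0
    obtain ⟨g, hg⟩ := hfdvd
    have h1 := congrArg (Polynomial.eval 1) hg
    rw [eval_mul, h0, zero_mul, eval_one_cyclotomic_prime] at h1
    exact hrF h1
  have hσ : ∀ a : F, (RingHom.id F) ((RingHom.id F) a) = a := fun _ => rfl
  have hε : (-1 : F) * (RingHom.id F) (-1) = 1 := by simp
  obtain ⟨k, hk⟩ : ∃ k, k = orderOf ((Fintype.card F : ℕ) : ZMod r) := ⟨_, rfl⟩
  have hii : ii F r = k := by
    rw [hk]
    rfl
  rw [hii] at heven ⊢
  rw [← hk] at hdeg
  obtain ⟨η, hη⟩ := heven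
  have hηk : 2 * η = k := by omega
  have hkpos : 0 < k := by
    rcases Nat.eq_zero_or_pos k with h0 | h0
    · exfalso
      rw [h0] at hdeg
      exact hf.natDegree_pos.ne' hdeg
    · exact h0
  have hηpos : 0 < η := by omega
  have h1 : ((Fintype.card F : ℕ) : ZMod r) ^ k = 1 := by
    rw [hk]
    exact pow_orderOf_eq_one _
  have h2 : ((Fintype.card F : ℕ) : ZMod r) ^ η ≠ 1 := by
    intro h
    have h3 := orderOf_dvd_of_pow_eq_one h
    rw [← hk] at h3
    have := Nat.le_of_dvd hηpos h3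
    omega
  have h3 : ((Fintype.card F : ℕ) : ZMod r) ^ η = -1 := by
    have h4 : (((Fintype.card F : ℕ) : ZMod r) ^ η) ^ 2 = 1 := by
      rw [← pow_mul, mul_comm, hηk, h1]
    rcases sq_eq_one_iff.mp h4 with h5 | h5
    · exact absurd h5 h2
    · exact h5
  have h4 : r ∣ Fintype.card F ^ η + 1 := by
    rw [← ZMod.natCast_eq_zero_iff, Nat.cast_add, Nat.cast_pow, h3, Nat.cast_one, neg_add_cancel]
  have hsd : φ₀ ∣ φ₀.reverse := hfsd η h4
  have hnt : ¬ φ₀ ∣ X ^ 2 - 1 := by
    intro h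
    have := Nat.le_of_dvd (by norm_num) (hfX 2 h)
    omega
  obtain ⟨V, _, _, _, B, g, hd, hc, m, hm, hgm⟩ :=
    realizable_sd p hσ (-1) hε φ₀ hf hfm hf0 (by rw [dualPoly_id]; exact hsd)
      (Or.inr ⟨rfl, hnt⟩)
  have hg0 : aeval g φ₀ = 0 := by
    rw [← hc]
    exact LinearMap.aeval_self_charpoly g
  have hgr : g ^ r = 1 := by
    obtain ⟨h, hh⟩ := hfX'
    have h2 := congrArg (aeval g) hh
    rw [map_mul, hg0, zero_mul, map_sub, map_pow, aeval_X, map_one] at h2
    exact sub_eq_zero.mp h2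
  refine ⟨V, inferInstance, inferInstance, inferInstance, B, g, hd, hgr, ?_, ?_, ?_⟩
  · rw [← LinearMap.charpoly_natDegree g, hc, hdeg]
  · have hker : LinearMap.ker (g - 1) = ⊥ := by
      rw [eq_bot_iff]
      intro v hv
      rw [LinearMap.mem_ker, LinearMap.sub_apply, Module.End.one_apply, sub_eq_zero] at hv
      rw [Submodule.mem_bot]
      have h2 : aeval g φ₀ v = φ₀.eval 1 • v := by
        by_cases hv0 : v = 0
        · rw [hv0, map_zero, smul_zero]
        · exact Module.End.aeval_apply_of_hasEigenvector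
            ⟨Module.End.mem_eigenspace_iff.mpr (by rw [hv, one_smul]), hv0⟩
      rw [hg0, LinearMap.zero_apply] at h2
      rcases smul_eq_zero.mp h2.symm with h3 | h3
      · exact absurd h3 hf1
      · exact h3
    rw [hker, finrank_bot]
  · intro φ hφ
    show finrank F ↥(LinearMap.ker ((aeval g) φ)) = if φ = φ₀ then k else 0
    by_cases hφφ : φ = φ₀
    · rw [if_pos hφφ, hφφ, hg0, LinearMap.ker_zero, finrank_top,
        ← LinearMap.charpoly_natDegree g, hc, hdeg]
    · rw [if_neg hφφ]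
      obtain ⟨hφm, hφi, -⟩ := (hΦ φ).mp hφ
      have hcop : IsCoprime φ φ₀ := by
        apply (hφi.coprime_iff_not_dvd).mpr
        intro hdvd
        exact hφφ (eq_of_monic_of_associated hφm hfm (hφi.associated_of_dvd hf hdvd))
      obtain ⟨a, b, hab⟩ := hcop
      have h5 := congrArg (aeval g) hab
      rw [map_add, map_mul, map_mul, hg0, mul_zero, add_zero, map_one] at h5
      have hker : LinearMap.ker (aeval g φ) = ⊥ := by
        rw [eq_bot_iff]
        intro v hv
        rw [LinearMap.mem_ker] at hv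
        rw [Submodule.mem_bot]
        have h6 := congrArg (fun f : Module.End F V => f v) h5
        simp only [Module.End.mul_apply, Module.End.one_apply] at h6
        rw [hv, map_zero] at h6
        exact h6.symm
      rw [hker, finrank_bot]

example : Cfsg.Agent.H42.Ti.StTiModBlock.{u} := tiModBlock

end Cfsg.Agent.H16.Ti
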