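import Mathlib
import Cfsg.Agent.H83.UPDefs

/-!
# S6001-GENS (helper83 project): a symplectic basis of involutions (helper16)

Part A is abstract: a group `K` of order 64 with centre of order `≤ 4`, a central involution `m`
with a central square root `z`, all squares in `{1, m}` and all commutators in `{1, m}`, has four
involutions `a1, b1, a2, b2` with `a_i b_i = m b_i a_i` and the two pairs commuting.
Part B derives these hypotheses for `R ≤ GL_4(F)` (with `m = -1`, `z = ι`).
-/

set_option autoImplicit false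

namespace Cfsg.Agent.H16.UP

open Matrix Cfsg.Agent.H83.UP

universe u

section Abs

variable {K : Type*} [Group K]

/-- `g` and `h` commute up to the central involution `m`. -/
def Anti (m g h : K) : Prop := g * h = m * h * g

theorem anti_symm {m g h : K} (hmm : m * m = 1) (h1 : Anti m g h) : Anti m h g := by
  unfold Anti at *
  rw [mul_assoc m g h, h1, ← mul_assoc, ← mul_assoc, hmm, one_mul]

theorem anti_mul_anti {m u v c : K} (hm : m ∈ Subgroup.center K) (hmm : m * m = 1)
    (hu : Anti m u c) (hv : Anti m v c) : (u * v) * c = c * (u * v) := by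
  have hmc : ∀ g : K, g * m = m * g := fun g => Subgroup.mem_center_iff.mp hm g
  unfold Anti at hu hv
  calc u * v * c = u * (v * c) := mul_assoc _ _ _
    _ = u * (m * c * v) := by rw [hv]
    _ = m * (u * c) * v := by
        rw [← mul_assoc u, ← mul_assoc u, hmc u, mul_assoc m u c]
    _ = m * (m * c * u) * v := by rw [hu]
    _ = (m * m) * c * u * v := by simp only [mul_assoc]
    _ = c * (u * v) := by rw [hmm, one_mul, mul_assoc]

theorem anti_mul_comm {m u v c : K} (hu : Anti m u c) (hv : v * c = c * v) :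
    Anti m (u * v) c := by
  unfold Anti at *
  calc u * v * c = u * (v * c) := mul_assoc _ _ _
    _ = u * (c * v) := by rw [hv]
    _ = (u * c) * v := (mul_assoc _ _ _).symm
    _ = m * c * u * v := by rw [hu]
    _ = m * c * (u * v) := mul_assoc _ _ _

theorem gens_abs (hK : Nat.card K = 64) (hZ : Nat.card (Subgroup.center K) ≤ 4)
    (m z : K) (hm : m ∈ Subgroup.center K) (hz : z ∈ Subgroup.center K) (hzz : z * z = m)
    (hmm : m * m = 1) (hsq : ∀ g : K, g * g = 1 ∨ g * g = m)
    (hcm : ∀ g h : K, g * h = h * g ∨ Anti m g h) :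
    ∃ a1 b1 a2 b2 : K, a1 * a1 = 1 ∧ b1 * b1 = 1 ∧ a2 * a2 = 1 ∧ b2 * b2 = 1 ∧
      Anti m a1 b1 ∧ Anti m a2 b2 ∧ a1 * a2 = a2 * a1 ∧ a1 * b2 = b2 * a1 ∧
      b1 * a2 = a2 * b1 ∧ b1 * b2 = b2 * b1 := by
  classical
  haveI : Finite K := Nat.finite_of_card_ne_zero (by rw [hK]; norm_num)
  have hmc : ∀ g : K, g * m = m * g := fun g => Subgroup.mem_center_iff.mp hm g
  have hmemC : ∀ c g : K, g ∈ Subgroup.centralizer ({c} : Set K) ↔ c * g = g * c := by
    intro c g
    rw [Subgroup.mem_centralizer_iff]
    constructor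
    · intro h; exact h c rfl
    · intro h k hk; rw [Set.mem_singleton_iff.mp hk]; exact h
  have hidx : ∀ c : K, c ∉ Subgroup.center K →
      (Subgroup.centralizer ({c} : Set K)).index = 2 := by
    intro c hc
    obtain ⟨a, ha⟩ : ∃ a : K, a * c ≠ c * a := by
      by_contra hne
      push Not at hne
      exact hc (Subgroup.mem_center_iff.mpr hne)
    have haA : Anti m a c := (hcm a c).resolve_left ha
    rw [Subgroup.index_eq_two_iff]
    refine ⟨a, fun b => ?_⟩
    rw [hmemC, hmemC]
    by_cases hb : b * c = c * b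
    · right
      refine ⟨hb.symm, fun hba => ha ?_⟩
      have h3 : b * (c * a) = b * (a * c) := by
        rw [← mul_assoc, hb, mul_assoc, hba, mul_assoc]
      exact (mul_left_cancel h3).symm
    · left
      have hbA : Anti m b c := (hcm b c).resolve_left hb
      exact ⟨(anti_mul_anti hm hmm hbA haA).symm, fun h => hb h.symm⟩
  obtain ⟨a1, ha1⟩ : ∃ x : K, x ∉ Subgroup.center K := by
    by_contra hne
    push Not at hne
    have htop : Subgroup.center K = ⊤ := (Subgroup.eq_top_iff' _).mpr hne
    rw [htop, Subgroup.card_top, hK] at hZ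
    omega
  obtain ⟨b1, hb1⟩ : ∃ w : K, a1 * w ≠ w * a1 := by
    by_contra hne
    push Not at hne
    exact ha1 (Subgroup.mem_center_iff.mpr (fun g => (hne g).symm))
  have hab1 : Anti m a1 b1 := (hcm a1 b1).resolve_left hb1
  have hb1Z : b1 ∉ Subgroup.center K := fun h => hb1 (Subgroup.mem_center_iff.mp h a1)
  have hDidx : (Subgroup.centralizer ({a1} : Set K) ⊓
      Subgroup.centralizer ({b1} : Set K)).index ≤ 4 := by
    have h := Subgroup.index_inf_le (H := Subgroup.centralizer ({a1} : Set K))
      (K := Subgroup.centralizer ({b1} : Set K))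
    rw [hidx a1 ha1, hidx b1 hb1Z] at h
    exact h
  have hDcard : 16 ≤ Nat.card
      ↥(Subgroup.centralizer ({a1} : Set K) ⊓ Subgroup.centralizer ({b1} : Set K)) := by
    have h1 := Subgroup.card_mul_index
      (Subgroup.centralizer ({a1} : Set K) ⊓ Subgroup.centralizer ({b1} : Set K))
    rw [hK] at h1
    by_contra hlt
    push Not at hlt
    have h2 : Nat.card
        ↥(Subgroup.centralizer ({a1} : Set K) ⊓ Subgroup.centralizer ({b1} : Set K)) *
        (Subgroup.centralizer ({a1} : Set K) ⊓ Subgroup.centralizer ({b1} : Set K)).index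
        ≤ 15 * 4 := Nat.mul_le_mul (by omega) hDidx
    omega
  obtain ⟨a2, ha2D, ha2Z⟩ : ∃ a ∈ Subgroup.centralizer ({a1} : Set K) ⊓
      Subgroup.centralizer ({b1} : Set K), a ∉ Subgroup.center K := by
    by_contra hne
    push Not at hne
    have hle : Subgroup.centralizer ({a1} : Set K) ⊓ Subgroup.centralizer ({b1} : Set K) ≤
        Subgroup.center K := hne
    have h := Subgroup.card_le_of_le hle
    omega
  have h12 : a1 * a2 = a2 * a1 := (hmemC a1 a2).mp ha2D.1
  have hb12 : b1 * a2 = a2 * b1 := (hmemC b1 a2).mp ha2D.2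
  obtain ⟨b, hb⟩ : ∃ w : K, w * a2 ≠ a2 * w := by
    by_contra hne
    push Not at hne
    exact ha2Z (Subgroup.mem_center_iff.mpr hne)
  have hbA : Anti m b a2 := (hcm b a2).resolve_left hb
  -- adjust `b` to commute with `a1`
  obtain ⟨b', hb'1, hb'2⟩ : ∃ b' : K, b' * a1 = a1 * b' ∧ Anti m b' a2 := by
    by_cases h : b * a1 = a1 * b
    · exact ⟨b, h, hbA⟩
    · have hA : Anti m b a1 := (hcm b a1).resolve_left h
      exact ⟨b * b1, anti_mul_anti hm hmm hA (anti_symm hmm hab1), anti_mul_comm hbA hb12⟩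
  -- adjust to commute with `b1`
  obtain ⟨b2, hb2a, hb2b, hb2c⟩ : ∃ b2 : K, b2 * a1 = a1 * b2 ∧ b2 * b1 = b1 * b2 ∧
      Anti m b2 a2 := by
    by_cases h : b' * b1 = b1 * b'
    · exact ⟨b', hb'1, h, hb'2⟩
    · have hA : Anti m b' b1 := (hcm b' b1).resolve_left h
      refine ⟨b' * a1, ?_, anti_mul_anti hm hmm hA hab1, anti_mul_comm hb'2 h12⟩
      rw [← mul_assoc, ← hb'1]
  have hzc : ∀ g : K, g * z = z * g := fun g => Subgroup.mem_center_iff.mp hz g
  have hfix : ∀ x : K, ∃ c : K, c ∈ Subgroup.center K ∧ (c * x) * (c * x) = 1 := by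
    intro x
    rcases hsq x with h | h
    · exact ⟨1, Subgroup.one_mem _, by rw [one_mul]; exact h⟩
    · refine ⟨z, hz, ?_⟩
      calc z * x * (z * x) = z * (x * z) * x := by simp only [mul_assoc]
        _ = z * (z * x) * x := by rw [hzc x]
        _ = (z * z) * (x * x) := by simp only [mul_assoc]
        _ = 1 := by rw [hzz, h, hmm]
  have hcomm : ∀ (c d x y : K), c ∈ Subgroup.center K → d ∈ Subgroup.center K →
      x * y = y * x → (c * x) * (d * y) = (d * y) * (c * x) := by
    intro c d x y hc hd h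
    have hc' : ∀ g : K, g * c = c * g := fun g => Subgroup.mem_center_iff.mp hc g
    have hd' : ∀ g : K, g * d = d * g := fun g => Subgroup.mem_center_iff.mp hd g
    calc c * x * (d * y) = c * (x * d) * y := by simp only [mul_assoc]
      _ = c * (d * x) * y := by rw [hd' x]
      _ = c * d * (x * y) := by simp only [mul_assoc]
      _ = c * d * (y * x) := by rw [h]
      _ = d * c * (y * x) := by rw [hd' c]
      _ = d * (c * y) * x := by simp only [mul_assoc]
      _ = d * (y * c) * x := by rw [hc' y]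
      _ = d * y * (c * x) := by simp only [mul_assoc]
  have hanti : ∀ (c d x y : K), c ∈ Subgroup.center K → d ∈ Subgroup.center K →
      Anti m x y → Anti m (c * x) (d * y) := by
    intro c d x y hc hd h
    have hc' : ∀ g : K, g * c = c * g := fun g => Subgroup.mem_center_iff.mp hc g
    have hd' : ∀ g : K, g * d = d * g := fun g => Subgroup.mem_center_iff.mp hd g
    unfold Anti at *
    calc c * x * (d * y) = c * (x * d) * y := by simp only [mul_assoc]
      _ = c * (d * x) * y := by rw [hd' x]
      _ = c * d * (x * y) := by simp only [mul_assoc]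
      _ = c * d * (m * y * x) := by rw [h]
      _ = c * d * m * (y * x) := by simp only [mul_assoc]
      _ = m * (c * d) * (y * x) := by rw [hmc (c * d)]
      _ = m * (d * c) * (y * x) := by rw [hd' c]
      _ = m * d * (c * y) * x := by simp only [mul_assoc]
      _ = m * d * (y * c) * x := by rw [hc' y]
      _ = m * (d * y) * (c * x) := by simp only [mul_assoc]
  obtain ⟨c1, hc1, hs1⟩ := hfix a1
  obtain ⟨d1, hd1, ht1⟩ := hfix b1
  obtain ⟨c2, hc2, hs2⟩ := hfix a2
  obtain ⟨d2, hd2, ht2⟩ := hfix b2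
  exact ⟨c1 * a1, d1 * b1, c2 * a2, d2 * b2, hs1, ht1, hs2, ht2,
    hanti _ _ _ _ hc1 hd1 hab1, hanti _ _ _ _ hc2 hd2 (anti_symm hmm hb2c),
    hcomm _ _ _ _ hc1 hc2 h12, hcomm _ _ _ _ hc1 hd2 hb2a.symm,
    hcomm _ _ _ _ hd1 hc2 hb12, hcomm _ _ _ _ hd1 hd2 hb2b.symm⟩

end Abs

/-- S6001-GENS. -/
theorem gens : Cfsg.Agent.H83.UP.StGens.{u} := by
  intro F _ R ι hι hcard hexp hcen hιR hsq
  classical
  by_cases h2 : (2 : F) = 0
  · have hneg : ∀ M : Matrix (Fin 4) (Fin 4) F, M = -M := by
      intro M
      have : M + M = 0 := by rw [← two_smul F M, h2, zero_smul]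
      exact eq_neg_of_add_eq_zero_left this
    exact ⟨1, 1, 1, 1, R.one_mem, R.one_mem, R.one_mem, R.one_mem, mul_one 1, mul_one 1,
      mul_one 1, mul_one 1, hneg _, hneg _, rfl, rfl, rfl, rfl⟩
  · have hinj : ∀ g h : R, ((g : GL (Fin 4) F) : Matrix (Fin 4) (Fin 4) F) =
        ((h : GL (Fin 4) F) : Matrix (Fin 4) (Fin 4) F) → g = h :=
      fun g h e => Subtype.ext (Units.ext e)
    obtain ⟨z0, hz0R, hz0⟩ := hιR
    set z : R := ⟨z0, hz0R⟩ with hzdef
    have hzM : ((z : GL (Fin 4) F) : Matrix (Fin 4) (Fin 4) F) =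
        ι • (1 : Matrix (Fin 4) (Fin 4) F) := hz0
    have hcenR : ∀ g : R, g ∈ Subgroup.center R ↔ ∃ j : ℕ,
        ((g : GL (Fin 4) F) : Matrix (Fin 4) (Fin 4) F) =
          ι ^ j • (1 : Matrix (Fin 4) (Fin 4) F) := by
      intro g
      rw [← hcen (g : GL (Fin 4) F) g.2, Subgroup.mem_center_iff]
      constructor
      · intro h k hk
        exact (congrArg Subtype.val (h ⟨k, hk⟩)).symm
      · intro h k
        exact Subtype.ext (h k k.2).symm
    have hzc : z ∈ Subgroup.center R := (hcenR z).2 ⟨1, by rw [pow_one]; exact hzM⟩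
    have hmM : (((z * z : R) : GL (Fin 4) F) : Matrix (Fin 4) (Fin 4) F) = -1 := by
      have e : (((z * z : R) : GL (Fin 4) F) : Matrix (Fin 4) (Fin 4) F) =
          ((z : GL (Fin 4) F) : Matrix (Fin 4) (Fin 4) F) *
            ((z : GL (Fin 4) F) : Matrix (Fin 4) (Fin 4) F) := rfl
      rw [e, hzM, Matrix.smul_mul, Matrix.mul_smul, smul_smul, mul_one, ← sq, hι, neg_one_smul]
    have hmc : z * z ∈ Subgroup.center R := Subgroup.mul_mem _ hzc hzc
    have hpow4 : ∀ g : R, (g * g) * (g * g) = 1 := by
      intro g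
      have h := Monoid.pow_exponent_eq_one g
      rw [hexp] at h
      rw [← h]
      simp [pow_succ, mul_assoc]
    have hinv : ∀ c : R, c ∈ Subgroup.center R → c * c = 1 → c = 1 ∨ c = z * z := by
      intro c hc hcc
      obtain ⟨j, hj⟩ := (hcenR c).1 hc
      have h1 : ((c : GL (Fin 4) F) : Matrix (Fin 4) (Fin 4) F) *
          ((c : GL (Fin 4) F) : Matrix (Fin 4) (Fin 4) F) = 1 :=
        congrArg (fun x : R => ((x : GL (Fin 4) F) : Matrix (Fin 4) (Fin 4) F)) hcc
      rw [hj, Matrix.smul_mul, Matrix.mul_smul, smul_smul, mul_one] at h1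
      have h3 : ι ^ j * ι ^ j = 1 := by
        have := congrFun (congrFun h1 0) 0
        simpa using this
      rcases mul_self_eq_one_iff.1 h3 with h | h
      · left
        apply hinj
        rw [hj, h, one_smul]; rfl
      · right
        apply hinj
        rw [hj, h, hmM, neg_one_smul]
    have hZ : Nat.card (Subgroup.center R) ≤ 4 := by
      haveI : Finite R := Nat.finite_of_card_ne_zero (by rw [hcard]; norm_num)
      have hle : Subgroup.center R ≤ Subgroup.zpowers z := by
        intro c hc
        obtain ⟨j, hj⟩ := (hcenR c).1 hc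
        have hcz : c = z ^ j := by
          apply hinj
          rw [hj]
          have e : (((z ^ j : R) : GL (Fin 4) F) : Matrix (Fin 4) (Fin 4) F) =
              ((z : GL (Fin 4) F) : Matrix (Fin 4) (Fin 4) F) ^ j := by
            simp
          rw [e, hzM, smul_pow, one_pow]
        rw [hcz]
        exact Subgroup.pow_mem _ (Subgroup.mem_zpowers z) j
      have h1 := Subgroup.card_le_of_le hle
      have h2 : Nat.card (Subgroup.zpowers z) = orderOf z := Nat.card_zpowers z
      have h3 : orderOf z ≤ 4 := by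
        apply orderOf_le_of_pow_eq_one (by norm_num)
        have h := Monoid.pow_exponent_eq_one z
        rw [hexp] at h
        exact h
      omega
    have hsqR : ∀ g : R, g * g = 1 ∨ g * g = z * z :=
      fun g => hinv (g * g) (hsq g g).1 (hpow4 g)
    have hcmR : ∀ g h : R, g * h = h * g ∨ Anti (z * z) g h := by
      intro g h
      have hc := (hsq g h).2
      have hg2 := (hsq g g).1
      set c := g * h * g⁻¹ * h⁻¹ with hcdef
      have hgh : g * h = c * h * g := by rw [hcdef]; group
      have hcc : ∀ k : R, k * c = c * k := fun k => Subgroup.mem_center_iff.mp hc k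
      have hgg : ∀ k : R, k * (g * g) = (g * g) * k :=
        fun k => Subgroup.mem_center_iff.mp hg2 k
      have hc2 : c * c = 1 := by
        have e : c * c * (g * g * h) = 1 * (g * g * h) := by
          rw [one_mul]
          calc c * c * (g * g * h) = c * c * (h * (g * g)) := by rw [hgg h]
            _ = c * (c * h * g) * g := by simp only [mul_assoc]
            _ = c * (g * h) * g := by rw [← hgh]
            _ = (c * g) * h * g := by simp only [mul_assoc]
            _ = (g * c) * h * g := by rw [hcc g]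
            _ = g * (c * h * g) := by simp only [mul_assoc]
            _ = g * (g * h) := by rw [← hgh]
            _ = g * g * h := (mul_assoc _ _ _).symm
        exact mul_right_cancel e
      rcases hinv c hc hc2 with h1 | h1
      · left
        rw [hgh, h1, one_mul]
      · right
        unfold Anti
        rw [← h1]
        exact hgh
    obtain ⟨a1, b1, a2, b2, hs1, ht1, hs2, ht2, hA1, hA2, hc1, hc2, hc3, hc4⟩ :=
      gens_abs (K := R) hcard hZ (z * z) z hmc hzc rfl (hpow4 z) hsqR hcmR
    have hcv : ∀ x y : R, x * y = y * x →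
        (x : GL (Fin 4) F) * (y : GL (Fin 4) F) = (y : GL (Fin 4) F) * (x : GL (Fin 4) F) :=
      fun x y h => congrArg Subtype.val h
    have hav : ∀ x y : R, Anti (z * z) x y →
        ((x : GL (Fin 4) F) : Matrix (Fin 4) (Fin 4) F) *
          ((y : GL (Fin 4) F) : Matrix (Fin 4) (Fin 4) F) =
        -(((y : GL (Fin 4) F) : Matrix (Fin 4) (Fin 4) F) *
          ((x : GL (Fin 4) F) : Matrix (Fin 4) (Fin 4) F)) := by
      intro x y h
      unfold Anti at h
      have e' : ((x : GL (Fin 4) F) : Matrix (Fin 4) (Fin 4) F) *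
          ((y : GL (Fin 4) F) : Matrix (Fin 4) (Fin 4) F) =
          (((z * z : R) : GL (Fin 4) F) : Matrix (Fin 4) (Fin 4) F) *
            ((y : GL (Fin 4) F) : Matrix (Fin 4) (Fin 4) F) *
            ((x : GL (Fin 4) F) : Matrix (Fin 4) (Fin 4) F) :=
        congrArg (fun x : R => ((x : GL (Fin 4) F) : Matrix (Fin 4) (Fin 4) F)) h
      rw [e', hmM, neg_one_mul, neg_mul]
    have hone : ∀ x : R, x * x = 1 → (x : GL (Fin 4) F) * (x : GL (Fin 4) F) = 1 :=
      fun x h => congrArg Subtype.val h
    exact ⟨a1, b1, a2, b2, a1.2, b1.2, a2.2, b2.2, hone a1 hs1, hone b1 ht1, hone a2 hs2,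
      hone b2 ht2, hav a1 b1 hA1, hav a2 b2 hA2, hcv _ _ hc1, hcv _ _ hc2, hcv _ _ hc3,
      hcv _ _ hc4⟩

end Cfsg.Agent.H16.UP
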