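import Mathlib
import Cfsg.Agent.H83.UPDefs

/-!
# S6001 (helper83 project): integral lift of the Pauli matrices (helper16)

`pauli v` is the image of an integer matrix `pzv v`; identities between the `pzv v` are checked by
`decide` and transported along `Int.cast`.
-/

set_option autoImplicit false

namespace Cfsg.Agent.H16.UP

open Matrix Cfsg.Agent.H83.UP

universe u

/-- Integral `A1`. -/
def A1Z : Matrix (Fin 4) (Fin 4) ℤ := !![1, 0, 0, 0; 0, 1, 0, 0; 0, 0, -1, 0; 0, 0, 0, -1]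
/-- Integral `B1`. -/
def B1Z : Matrix (Fin 4) (Fin 4) ℤ := !![0, 0, 1, 0; 0, 0, 0, 1; 1, 0, 0, 0; 0, 1, 0, 0]
/-- Integral `A2`. -/
def A2Z : Matrix (Fin 4) (Fin 4) ℤ := !![1, 0, 0, 0; 0, -1, 0, 0; 0, 0, 1, 0; 0, 0, 0, -1]
/-- Integral `B2`. -/
def B2Z : Matrix (Fin 4) (Fin 4) ℤ := !![0, 1, 0, 0; 1, 0, 0, 0; 0, 0, 0, 1; 0, 0, 1, 0]

/-- The integral Pauli matrices, indexed by four elements of `Fin 2`. -/
def pz (a b c d : Fin 2) : Matrix (Fin 4) (Fin 4) ℤ :=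
  A1Z ^ a.val * B1Z ^ b.val * A2Z ^ c.val * B2Z ^ d.val

/-- The integral Pauli matrices, indexed as `pauli`. -/
def pzv (v : Fin 4 → ZMod 2) : Matrix (Fin 4) (Fin 4) ℤ :=
  pz (v 0) (v 1) (v 2) (v 3)

variable {F : Type u} [Field F]

theorem A1_eq : (A1 : Matrix (Fin 4) (Fin 4) F) = (Int.castRingHom F).mapMatrix A1Z := by
  ext i j; fin_cases i <;> fin_cases j <;> simp [A1, A1Z]

theorem B1_eq : (B1 : Matrix (Fin 4) (Fin 4) F) = (Int.castRingHom F).mapMatrix B1Z := by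
  ext i j; fin_cases i <;> fin_cases j <;> simp [B1, B1Z]

theorem A2_eq : (A2 : Matrix (Fin 4) (Fin 4) F) = (Int.castRingHom F).mapMatrix A2Z := by
  ext i j; fin_cases i <;> fin_cases j <;> simp [A2, A2Z]

theorem B2_eq : (B2 : Matrix (Fin 4) (Fin 4) F) = (Int.castRingHom F).mapMatrix B2Z := by
  ext i j; fin_cases i <;> fin_cases j <;> simp [B2, B2Z]

/-- `pauli v` is the image of `pzv v`. -/
theorem pauli_eq (v : Fin 4 → ZMod 2) :
    (pauli v : Matrix (Fin 4) (Fin 4) F) = (Int.castRingHom F).mapMatrix (pzv v) := by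
  unfold pauli pzv pz
  rw [A1_eq, B1_eq, A2_eq, B2_eq]
  simp only [map_mul, map_pow]
  rfl

theorem pauli_apply (v : Fin 4 → ZMod 2) (i j : Fin 4) :
    (pauli v : Matrix (Fin 4) (Fin 4) F) i j = ((pzv v i j : ℤ) : F) := by
  rw [pauli_eq]; rfl

theorem eq_iff_coords (v w : Fin 4 → ZMod 2) :
    v = w ↔ (v 0 = w 0 ∧ v 1 = w 1 ∧ v 2 = w 2 ∧ v 3 = w 3) := by
  constructor
  · rintro rfl; exact ⟨rfl, rfl, rfl, rfl⟩
  · rintro ⟨h0, h1, h2, h3⟩
    funext i
    fin_cases i <;> assumption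

set_option maxRecDepth 100000 in
theorem pz_trace : ∀ a b c d a' b' c' d' : Fin 2,
    Matrix.trace ((pz a' b' c' d')ᵀ * pz a b c d)
      = if (a = a' ∧ b = b' ∧ c = c' ∧ d = d') then 4 else 0 := by decide

theorem pzv_trace (v w : Fin 4 → ZMod 2) :
    Matrix.trace ((pzv w)ᵀ * pzv v) = if v = w then 4 else 0 := by
  have h := pz_trace (v 0) (v 1) (v 2) (v 3) (w 0) (w 1) (w 2) (w 3)
  by_cases hvw : v = w
  · rw [if_pos hvw]
    exact h.trans (if_pos ⟨congrFun hvw 0, congrFun hvw 1, congrFun hvw 2, congrFun hvw 3⟩)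
  · rw [if_neg hvw]
    exact h.trans (if_neg (fun hc => hvw ((eq_iff_coords v w).2 ⟨hc.1, hc.2.1, hc.2.2.1, hc.2.2.2⟩)))

/-- Orthogonality of the Pauli matrices for the trace form. -/
theorem pauli_trace (v w : Fin 4 → ZMod 2) :
    Matrix.trace ((pauli w : Matrix (Fin 4) (Fin 4) F)ᵀ * pauli v) = if v = w then 4 else 0 := by
  have h := congrArg (Int.castRingHom F) (pzv_trace v w)
  rw [pauli_eq, pauli_eq]
  have e : ((Int.castRingHom F).mapMatrix (pzv w))ᵀ * (Int.castRingHom F).mapMatrix (pzv v)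
      = (Int.castRingHom F).mapMatrix ((pzv w)ᵀ * pzv v) := by
    rw [map_mul]
    rfl
  rw [e]
  have e2 : Matrix.trace ((Int.castRingHom F).mapMatrix ((pzv w)ᵀ * pzv v))
      = (Int.castRingHom F) (Matrix.trace ((pzv w)ᵀ * pzv v)) := by
    simp only [Matrix.trace, Matrix.diag, RingHom.mapMatrix_apply, Matrix.map_apply, map_sum]
  rw [e2, h]
  split_ifs <;> simp

end Cfsg.Agent.H16.UP
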