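import Mathlib
import Cfsg.Agent.H83.UPDefs
import Cfsg.Agent.H16.UPZ

/-!
# S6001-PAVG (helper83 project): the averaging identity for the Pauli matrices (helper16)
-/

set_option autoImplicit false

namespace Cfsg.Agent.H16.UP

open Matrix Cfsg.Agent.H83.UP

universe u

/-- Coordinates of `Fin 4 → ZMod 2`. -/
def e4 : (Fin 2 × Fin 2) × (Fin 2 × Fin 2) ≃ (Fin 4 → ZMod 2) where
  toFun t := (![t.1.1, t.1.2, t.2.1, t.2.2] : Fin 4 → Fin 2)
  invFun v := ((v 0, v 1), (v 2, v 3))
  left_inv t := rfl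
  right_inv v := by funext i; fin_cases i <;> rfl

set_option maxRecDepth 100000 in
theorem pz_col : ∀ i j l k : Fin 4,
    ∑ t : (Fin 2 × Fin 2) × (Fin 2 × Fin 2),
      pz t.1.1 t.1.2 t.2.1 t.2.2 i j * pz t.1.1 t.1.2 t.2.1 t.2.2 l k
      = if i = l ∧ j = k then 4 else 0 := by decide

theorem pzv_col (i j l k : Fin 4) :
    ∑ v : Fin 4 → ZMod 2, pzv v i j * pzv v l k = if i = l ∧ j = k then 4 else 0 := by
  rw [← pz_col i j l k]
  exact (Equiv.sum_comp e4 (fun v => pzv v i j * pzv v l k)).symm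

variable {F : Type u} [Field F]

theorem pauli_col (i j l k : Fin 4) :
    ∑ v : Fin 4 → ZMod 2, (pauli v : Matrix (Fin 4) (Fin 4) F) i j *
      (pauli v : Matrix (Fin 4) (Fin 4) F) l k = if i = l ∧ j = k then 4 else 0 := by
  have h := congrArg (Int.cast : ℤ → F) (pzv_col i j l k)
  simp only [pauli_apply]
  rw [Int.cast_sum] at h
  simp only [Int.cast_mul] at h
  rw [h]
  split_ifs <;> simp

/-- S6001-PAVG. -/
theorem pavg : Cfsg.Agent.H83.UP.StPAvg.{u} := by
  intro F _ X
  ext i l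
  have e1 : ∀ v : Fin 4 → ZMod 2,
      ((pauli v : Matrix (Fin 4) (Fin 4) F) * X * (pauli v : Matrix (Fin 4) (Fin 4) F)ᵀ) i l
        = ∑ j, ∑ k, X j k * ((pauli v : Matrix (Fin 4) (Fin 4) F) i j *
            (pauli v : Matrix (Fin 4) (Fin 4) F) l k) := by
    intro v
    simp only [Matrix.mul_apply, Matrix.transpose_apply, Finset.sum_mul]
    rw [Finset.sum_comm]
    refine Finset.sum_congr rfl fun j _ => Finset.sum_congr rfl fun k _ => ?_
    ring
  rw [Matrix.sum_apply, Finset.sum_congr rfl (fun v _ => e1 v), Finset.sum_comm]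
  have e2 : ∀ j : Fin 4, ∑ v : Fin 4 → ZMod 2, ∑ k, X j k *
      ((pauli v : Matrix (Fin 4) (Fin 4) F) i j * (pauli v : Matrix (Fin 4) (Fin 4) F) l k)
        = if i = l then 4 * X j j else 0 := by
    intro j
    rw [Finset.sum_comm]
    simp only [← Finset.mul_sum, pauli_col]
    by_cases hil : i = l
    · simp [hil, mul_comm]
    · simp [hil]
  rw [Finset.sum_congr rfl (fun j _ => e2 j)]
  by_cases hil : i = l
  · subst hil
    simp [Matrix.trace, Finset.mul_sum]
  · simp [hil]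

end Cfsg.Agent.H16.UP
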