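import Mathlib
import Cfsg.Agent.H83.UPDefs
import Cfsg.Agent.H16.UPZ

/-!
# S6001-PLI (helper83 project): the Pauli matrices are linearly independent (helper16)
-/

set_option autoImplicit false

namespace Cfsg.Agent.H16.UP

open Matrix Cfsg.Agent.H83.UP

universe u

/-- S6001-PLI. -/
theorem pli : Cfsg.Agent.H83.UP.StPLI.{u} := by
  intro F _ h2
  rw [Fintype.linearIndependent_iff]
  intro g hg w
  have h4 : (4 : F) ≠ 0 := by
    have : (4 : F) = 2 * 2 := by norm_num
    rw [this]; exact mul_ne_zero h2 h2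
  have key : Matrix.trace ((pauli w : Matrix (Fin 4) (Fin 4) F)ᵀ *
      ∑ v : Fin 4 → ZMod 2, g v • (pauli v : Matrix (Fin 4) (Fin 4) F)) = 4 * g w := by
    rw [Matrix.mul_sum, Matrix.trace_sum]
    have : ∀ v : Fin 4 → ZMod 2,
        Matrix.trace ((pauli w : Matrix (Fin 4) (Fin 4) F)ᵀ * g v • (pauli v : Matrix (Fin 4) (Fin 4) F))
          = if v = w then 4 * g w else 0 := by
      intro v
      rw [Matrix.mul_smul, Matrix.trace_smul, pauli_trace]
      by_cases hvw : v = w
      · rw [if_pos hvw, if_pos hvw, hvw, smul_eq_mul, mul_comm]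
      · rw [if_neg hvw, if_neg hvw, smul_zero]
    rw [Finset.sum_congr rfl (fun v _ => this v)]
    rw [Finset.sum_ite_eq' Finset.univ w (fun _ => 4 * g w)]
    simp
  rw [hg, Matrix.mul_zero, Matrix.trace_zero] at key
  rcases mul_eq_zero.1 key.symm with h | h
  · exact absurd h h4
  · exact h

end Cfsg.Agent.H16.UP
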