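import Mathlib
import Cfsg.Agent.H83.UPDefs
import Cfsg.Agent.H7.Herm
import Cfsg.Agent.H69.UniONB

/-!
# S6001-UHYP3 (helper83 project): hyperbolic normal forms of a unitary element of order 3 (helper16)

`h(u, v) = Σ u_i σ(v_i)` with `σ` the Frobenius `a ↦ a^p` of the field with `p^2` elements.
Eigenvectors of `x` for `λ, μ ∈ {1, ω, ω²}` are orthogonal unless `λ μ = 1`.  So an `ω`-eigenvector
`e` pairs with an `ω²`-eigenvector `f` (`h(e, f) = 1`), and either there is a second such pair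
orthogonal to the first (Gram matrix `B1`), or the orthogonal complement of `⟨e, f⟩` is fixed by
`x` and has an orthonormal basis (Gram matrix `J1`).
-/

set_option autoImplicit false

namespace Cfsg.Agent.H16.UP

open Matrix Cfsg.Agent.H83.UP

universe u

section Herm

variable {F : Type u} [Field F] (σ : F →+* F)

/-- The form `h(u, v) = Σ u_i σ(v_i)` on `F^4`. -/
def hf (u v : Fin 4 → F) : F := u ⬝ᵥ (σ ∘ v)

theorem hf_add_left (u u' v : Fin 4 → F) : hf σ (u + u') v = hf σ u v + hf σ u' v := by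
  unfold hf; rw [add_dotProduct]

theorem hf_sub_left (u u' v : Fin 4 → F) : hf σ (u - u') v = hf σ u v - hf σ u' v := by
  unfold hf; rw [sub_dotProduct]

theorem hf_smul_left (c : F) (u v : Fin 4 → F) : hf σ (c • u) v = c * hf σ u v := by
  unfold hf; rw [smul_dotProduct, smul_eq_mul]

theorem hf_add_right (u v v' : Fin 4 → F) : hf σ u (v + v') = hf σ u v + hf σ u v' := by
  unfold hf
  have : σ ∘ (v + v') = σ ∘ v + σ ∘ v' := by funext i; simp
  rw [this, dotProduct_add]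

theorem hf_sub_right (u v v' : Fin 4 → F) : hf σ u (v - v') = hf σ u v - hf σ u v' := by
  unfold hf
  have : σ ∘ (v - v') = σ ∘ v - σ ∘ v' := by funext i; simp
  rw [this, dotProduct_sub]

theorem hf_smul_right (c : F) (u v : Fin 4 → F) : hf σ u (c • v) = σ c * hf σ u v := by
  unfold hf
  have : σ ∘ (c • v) = σ c • (σ ∘ v) := by funext i; simp
  rw [this, dotProduct_smul, smul_eq_mul]

theorem hf_zero_right (u : Fin 4 → F) : hf σ u 0 = 0 := by
  unfold hf
  have : σ ∘ (0 : Fin 4 → F) = 0 := by funext i; simp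
  rw [this, dotProduct_zero]

theorem hf_symm (hσ2 : ∀ a, σ (σ a) = a) (u v : Fin 4 → F) : σ (hf σ u v) = hf σ v u := by
  unfold hf
  rw [RingHom.map_dotProduct]
  have : σ ∘ (σ ∘ v) = v := by funext i; exact hσ2 (v i)
  rw [this, dotProduct_comm]

theorem hf_nondeg (u : Fin 4 → F) (hu : u ≠ 0) : ∃ v, hf σ u v ≠ 0 := by
  classical
  obtain ⟨i, hi⟩ : ∃ i, u i ≠ 0 := by
    by_contra h
    push Not at h
    exact hu (funext h)
  refine ⟨Pi.single i 1, ?_⟩
  have : σ ∘ (Pi.single i (1 : F)) = Pi.single i 1 := by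
    funext j
    by_cases hj : j = i
    · subst hj; simp
    · simp [hj]
  unfold hf
  rw [this, dotProduct_single_one]
  exact hi

theorem hf_isom (x : Matrix (Fin 4) (Fin 4) F) (hx : xᵀ * x.map σ = 1) (u v : Fin 4 → F) :
    hf σ (x *ᵥ u) (x *ᵥ v) = hf σ u v := by
  unfold hf
  have h1 : σ ∘ (x *ᵥ v) = x.map σ *ᵥ (σ ∘ v) := by
    funext i
    exact RingHom.map_mulVec σ x v i
  rw [h1, ← Matrix.vecMul_transpose x u, ← Matrix.dotProduct_mulVec, Matrix.mulVec_mulVec, hx,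
    Matrix.one_mulVec]

theorem vmv_mulVec (a b v : Fin 4 → F) : vecMulVec a (σ ∘ b) *ᵥ v = hf σ v b • a := by
  rw [Matrix.vecMulVec_mulVec, op_smul_eq_smul, dotProduct_comm]
  rfl

/-- A unit vector in a subspace `T` complemented by the image of a matrix of rank `< 4`. -/
theorem exists_unit_vec [Fintype F] {p : ℕ} (hF : Fintype.card F = p ^ 2)
    (hσ : ∀ a, σ a = a ^ p) (T : (Fin 4 → F) → Prop)
    (hadd : ∀ u u', T u → T u' → T (u + u')) (hsmul : ∀ (c : F) u, T u → T (c • u))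
    (P : Matrix (Fin 4) (Fin 4) F) (hrank : P.rank < 4) (hT : ∀ v, T (v - P *ᵥ v))
    (horth : ∀ u v, T u → hf σ u (P *ᵥ v) = 0) :
    ∃ g, T g ∧ hf σ g g = 1 := by
  classical
  have hσ2 : ∀ a, σ (σ a) = a := fun a => by rw [hσ, hσ, Cfsg.Agent.H7.pow_q_pow_q hF]
  obtain ⟨g, hgT, hg0⟩ : ∃ g, T g ∧ hf σ g g ≠ 0 := by
    by_contra hcon
    push Not at hcon
    obtain ⟨c, hc⟩ := Cfsg.Agent.H69.Uni.exists_pow_q_ne hF
    have hpol : ∀ u u', T u → T u' → hf σ u u' = 0 := by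
      intro u u' hu hu'
      have h1 := hcon (u + u') (hadd u u' hu hu')
      have h2 := hcon (u + c • u') (hadd u _ hu (hsmul c u' hu'))
      simp only [hf_add_left, hf_add_right, hf_smul_left, hf_smul_right] at h1 h2
      rw [hcon u hu, hcon u' hu'] at h1 h2
      have h3 : (σ c - c) * hf σ u u' = 0 := by linear_combination h2 - c * h1
      rcases mul_eq_zero.mp h3 with h4 | h4
      · exfalso; apply hc; rw [← hσ]; exact sub_eq_zero.mp h4
      · exact h4
    have hP : P = 1 := by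
      apply Matrix.mulVec_injective
      funext v
      rw [Matrix.one_mulVec]
      by_contra hne
      have hne' : v - P *ᵥ v ≠ 0 := fun h => hne (sub_eq_zero.mp h).symm
      obtain ⟨w, hw⟩ := hf_nondeg σ _ hne'
      apply hw
      have e : w = (w - P *ᵥ w) + P *ᵥ w := (sub_add_cancel _ _).symm
      rw [e, hf_add_right, hpol _ _ (hT v) (hT w), horth _ _ (hT v), add_zero]
    rw [hP, Matrix.rank_one] at hrank
    simp at hrank
  have ha : σ (hf σ g g) = hf σ g g := hf_symm σ hσ2 g g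
  have ha' : (hf σ g g)⁻¹ ^ p = (hf σ g g)⁻¹ := by rw [← hσ, map_inv₀, ha]
  obtain ⟨t, ht⟩ := Cfsg.Agent.H7.exists_norm_eq hF (hf σ g g)⁻¹ (inv_ne_zero hg0) ha'
  refine ⟨(t : F) • g, hsmul _ g hgT, ?_⟩
  rw [hf_smul_left, hf_smul_right, hσ, ← mul_assoc, ← pow_succ', ht]
  exact inv_mul_cancel₀ hg0

/-- From four vectors with Gram matrix `G` (`G * G = 1`) to the matrix with these columns. -/
theorem assemble (x G : Matrix (Fin 4) (Fin 4) F) (cols : Fin 4 → Fin 4 → F) (d : Fin 4 → F)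
    (hGG : G * G = 1) (hG : ∀ i j, hf σ (cols i) (cols j) = G i j)
    (hx : ∀ j, x *ᵥ cols j = d j • cols j) :
    ∃ E : Matrix (Fin 4) (Fin 4) F, IsUnit E.det ∧ x * E = E * Matrix.diagonal d ∧
      Eᵀ * E.map σ = G := by
  have h3 : (Matrix.of (fun i j => cols j i) : Matrix (Fin 4) (Fin 4) F)ᵀ *
      (Matrix.of (fun i j => cols j i) : Matrix (Fin 4) (Fin 4) F).map σ = G := by
    ext i j
    simp only [Matrix.mul_apply, Matrix.transpose_apply, Matrix.map_apply, Matrix.of_apply]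
    exact hG i j
  refine ⟨Matrix.of (fun i j => cols j i), ?_, ?_, h3⟩
  · have h : (Matrix.of (fun i j => cols j i) : Matrix (Fin 4) (Fin 4) F)ᵀ *
        ((Matrix.of (fun i j => cols j i) : Matrix (Fin 4) (Fin 4) F).map σ * G) = 1 := by
      rw [← Matrix.mul_assoc, h3, hGG]
    have h' := Matrix.isUnit_det_of_right_inverse h
    rwa [Matrix.det_transpose] at h'
  · ext i j
    rw [Matrix.mul_diagonal]
    have h := congrFun (hx j) i
    simp only [Matrix.mulVec, dotProduct, Pi.smul_apply, smul_eq_mul] at h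
    simp only [Matrix.mul_apply, Matrix.of_apply]
    rw [h, mul_comm]

end Herm

theorem rank_add_le4 {F : Type u} [Field F] (A B : Matrix (Fin 4) (Fin 4) F) :
    (A + B).rank ≤ A.rank + B.rank := by
  unfold Matrix.rank
  rw [Matrix.mulVecLin_add]
  exact (Submodule.finrank_mono (LinearMap.range_add_le _ _)).trans
    (Submodule.finrank_add_le_finrank_add_finrank _ _)

theorem B1_mul_B1 {F : Type u} [Field F] :
    (B1 : Matrix (Fin 4) (Fin 4) F) * B1 = 1 := by
  ext i j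
  fin_cases i <;> fin_cases j <;> simp [B1, Matrix.mul_apply, Fin.sum_univ_succ]

theorem J1_mul_J1 {F : Type u} [Field F] :
    (J1 : Matrix (Fin 4) (Fin 4) F) * J1 = 1 := by
  ext i j
  fin_cases i <;> fin_cases j <;> simp [J1, Matrix.mul_apply, Fin.sum_univ_succ]

/-- S6001-UHYP3. -/
theorem uHyp3 : Cfsg.Agent.H83.UP.StUHyp3.{u} := by
  intro F _ _ p x ω hp hF hω hωp h3 hU hx3 hx1
  classical
  obtain ⟨σ, hσ⟩ := Cfsg.Agent.H7.exists_frobQ hF
  have hσ2 : ∀ a, σ (σ a) = a := fun a => by rw [hσ, hσ, Cfsg.Agent.H7.pow_q_pow_q hF]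
  have hmap : ∀ M : Matrix (Fin 4) (Fin 4) F, M.map (fun a => a ^ p) = M.map σ := by
    intro M; ext i j; simp [hσ]
  have hU' : xᵀ * x.map σ = 1 := by rw [← hmap]; exact hU
  -- facts on `ω`
  have hω3 : ω ^ 3 = 1 := by linear_combination (ω - 1) * hω
  have hω1 : ω ≠ 1 := by
    intro h; apply h3; rw [h] at hω; linear_combination hω
  have hω21 : ω ^ 2 ≠ 1 := by
    intro h
    apply hω1
    calc ω = ω * ω ^ 2 := by rw [h, mul_one]
      _ = ω ^ 3 := by ring
      _ = 1 := hω3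
  have hσω : σ ω = ω := by rw [hσ, hωp]
  have hσω2 : σ (ω ^ 2) = ω ^ 2 := by rw [map_pow, hσω]
  have hωω : ω * σ ω ≠ 1 := by rw [hσω, ← sq]; exact hω21
  have hω2ω2 : ω ^ 2 * σ (ω ^ 2) ≠ 1 := by
    rw [hσω2]; intro h; apply hω1; linear_combination h - ω * hω3
  have h3v : (3 : F)⁻¹ * 3 = 1 := inv_mul_cancel₀ h3
  have hxxx : x * x * x = 1 := by rw [← hx3]; simp [pow_succ]
  -- eigenvectors for `l`, `m` with `l * σ m ≠ 1` are orthogonal
  have horth : ∀ (l m : F) (u w : Fin 4 → F), x *ᵥ u = l • u → x *ᵥ w = m • w →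
      l * σ m ≠ 1 → hf σ u w = 0 := by
    intro l m u w hu hw hlm
    have h1 := hf_isom σ x hU' u w
    rw [hu, hw, hf_smul_left, hf_smul_right] at h1
    have h2 : (l * σ m - 1) * hf σ u w = 0 := by linear_combination h1
    rcases mul_eq_zero.mp h2 with h | h
    · exact absurd (sub_eq_zero.mp h) hlm
    · exact h
  -- the eigenspace decomposition
  have hdec : ∀ v : Fin 4 → F, ∃ v1 vω vω2 : Fin 4 → F, v = v1 + vω + vω2 ∧ x *ᵥ v1 = v1 ∧
      x *ᵥ vω = ω • vω ∧ x *ᵥ vω2 = ω ^ 2 • vω2 := by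
    intro v
    obtain ⟨b, hb⟩ : ∃ b, b = x *ᵥ v := ⟨_, rfl⟩
    obtain ⟨c, hc⟩ : ∃ c, c = x *ᵥ b := ⟨_, rfl⟩
    have hxc : x *ᵥ c = v := by
      rw [hc, hb, Matrix.mulVec_mulVec, Matrix.mulVec_mulVec, hxxx, Matrix.one_mulVec]
    refine ⟨(3 : F)⁻¹ • (v + b + c), (3 : F)⁻¹ • (v + ω ^ 2 • b + ω • c),
      (3 : F)⁻¹ • (v + ω • b + ω ^ 2 • c), ?_, ?_, ?_, ?_⟩
    · funext i
      simp only [Pi.add_apply, Pi.smul_apply, smul_eq_mul]
      linear_combination (-(3 : F)⁻¹ * (b i + c i)) * hω - v i * h3v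
    · rw [Matrix.mulVec_smul, Matrix.mulVec_add, Matrix.mulVec_add, ← hb, ← hc, hxc]
      funext i
      simp only [Pi.add_apply, Pi.smul_apply, smul_eq_mul]
      ring
    · rw [Matrix.mulVec_smul, Matrix.mulVec_add, Matrix.mulVec_add, Matrix.mulVec_smul,
        Matrix.mulVec_smul, ← hb, ← hc, hxc]
      funext i
      simp only [Pi.add_apply, Pi.smul_apply, smul_eq_mul]
      linear_combination (-(3 : F)⁻¹ * b i) * hω3
    · rw [Matrix.mulVec_smul, Matrix.mulVec_add, Matrix.mulVec_add, Matrix.mulVec_smul,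
        Matrix.mulVec_smul, ← hb, ← hc, hxc]
      funext i
      simp only [Pi.add_apply, Pi.smul_apply, smul_eq_mul]
      linear_combination (-(3 : F)⁻¹ * (b i + ω * c i)) * hω3
  -- a nonzero eigenvector for `ω` or `ω²` has a dual eigenvector for the other one
  have hA : ∀ (l m : F) (u : Fin 4 → F), (l = ω ∧ m = ω ^ 2) ∨ (l = ω ^ 2 ∧ m = ω) → u ≠ 0 →
      x *ᵥ u = l • u → ∃ w, x *ᵥ w = m • w ∧ hf σ u w = 1 := by
    intro l m u hlm hu0 hu
    obtain ⟨v, hv⟩ := hf_nondeg σ u hu0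
    obtain ⟨v1, vω, vω2, hsum, h1, h2, h3'⟩ := hdec v
    rw [hsum, hf_add_right, hf_add_right] at hv
    have hv1 : x *ᵥ v1 = (1 : F) • v1 := by rw [one_smul]; exact h1
    rcases hlm with ⟨hl, hm⟩ | ⟨hl, hm⟩
    · rw [hl] at hu
      rw [hm]
      have e1 : hf σ u v1 = 0 :=
        horth ω 1 u v1 hu hv1 (by rw [map_one, mul_one]; exact hω1)
      have e2 : hf σ u vω = 0 := horth ω ω u vω hu h2 hωω
      rw [e1, e2, zero_add, zero_add] at hv
      refine ⟨σ ((hf σ u vω2)⁻¹) • vω2, ?_, ?_⟩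
      · rw [Matrix.mulVec_smul, h3', smul_comm]
      · rw [hf_smul_right, hσ2, inv_mul_cancel₀ hv]
    · rw [hl] at hu
      rw [hm]
      have e1 : hf σ u v1 = 0 :=
        horth (ω ^ 2) 1 u v1 hu hv1 (by rw [map_one, mul_one]; exact hω21)
      have e2 : hf σ u vω2 = 0 := horth (ω ^ 2) (ω ^ 2) u vω2 hu h3' hω2ω2
      rw [e1, e2, zero_add, add_zero] at hv
      refine ⟨σ ((hf σ u vω)⁻¹) • vω, ?_, ?_⟩
      · rw [Matrix.mulVec_smul, h2, smul_comm]
      · rw [hf_smul_right, hσ2, inv_mul_cancel₀ hv]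
  -- a nonzero `ω`-eigenvector
  obtain ⟨e, he0, he⟩ : ∃ e : Fin 4 → F, e ≠ 0 ∧ x *ᵥ e = ω • e := by
    by_contra hcon
    push Not at hcon
    have hnoω : ∀ e, x *ᵥ e = ω • e → e = 0 := fun e h => by_contra (fun h0 => hcon e h0 h)
    have hnoω2 : ∀ f, x *ᵥ f = ω ^ 2 • f → f = 0 := by
      intro f hf'
      by_contra hf0
      obtain ⟨w, hw, hw1⟩ := hA (ω ^ 2) ω f (Or.inr ⟨rfl, rfl⟩) hf0 hf'
      rw [hnoω w hw, hf_zero_right] at hw1
      exact zero_ne_one hw1
    apply hx1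
    apply Matrix.mulVec_injective
    funext v
    obtain ⟨v1, vω, vω2, hsum, h1, h2, h3'⟩ := hdec v
    rw [hnoω vω h2, hnoω2 vω2 h3', add_zero, add_zero] at hsum
    rw [Matrix.one_mulVec, hsum, h1]
  obtain ⟨f, hf', hef⟩ := hA ω (ω ^ 2) e (Or.inl ⟨rfl, rfl⟩) he0 he
  have hee : hf σ e e = 0 := horth ω ω e e he he hωω
  have hff : hf σ f f = 0 := horth (ω ^ 2) (ω ^ 2) f f hf' hf' hω2ω2
  have hfe : hf σ f e = 1 := by rw [← hf_symm σ hσ2 e f, hef, map_one]
  by_cases hcase : ∃ e2 : Fin 4 → F, e2 ≠ 0 ∧ x *ᵥ e2 = ω • e2 ∧ hf σ e2 f = 0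
  · -- two hyperbolic pairs
    obtain ⟨e2, he20, he2, he2f⟩ := hcase
    obtain ⟨f2', hf2', he2f2'⟩ := hA ω (ω ^ 2) e2 (Or.inl ⟨rfl, rfl⟩) he20 he2
    obtain ⟨f2, hf2def⟩ : ∃ f2, f2 = f2' - (hf σ f2' e) • f := ⟨_, rfl⟩
    have hf2 : x *ᵥ f2 = ω ^ 2 • f2 := by
      rw [hf2def, Matrix.mulVec_sub, Matrix.mulVec_smul, hf2', hf', smul_sub, smul_comm]
    have he2f2 : hf σ e2 f2 = 1 := by
      rw [hf2def, hf_sub_right, hf_smul_right, he2f2', he2f, mul_zero, sub_zero]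
    have hf2e : hf σ f2 e = 0 := by
      rw [hf2def, hf_sub_left, hf_smul_left, hfe, mul_one, sub_self]
    have g_ee2 : hf σ e e2 = 0 := horth ω ω e e2 he he2 hωω
    have g_e2e : hf σ e2 e = 0 := horth ω ω e2 e he2 he hωω
    have g_e2e2 : hf σ e2 e2 = 0 := horth ω ω e2 e2 he2 he2 hωω
    have g_ff2 : hf σ f f2 = 0 := horth _ _ f f2 hf' hf2 hω2ω2
    have g_f2f : hf σ f2 f = 0 := horth _ _ f2 f hf2 hf' hω2ω2
    have g_f2f2 : hf σ f2 f2 = 0 := horth _ _ f2 f2 hf2 hf2 hω2ω2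
    have g_ef2 : hf σ e f2 = 0 := by rw [← hf_symm σ hσ2 f2 e, hf2e, map_zero]
    have g_fe2 : hf σ f e2 = 0 := by rw [← hf_symm σ hσ2 e2 f, he2f, map_zero]
    have g_f2e2 : hf σ f2 e2 = 1 := by rw [← hf_symm σ hσ2 e2 f2, he2f2, map_one]
    obtain ⟨E, hE1, hE2, hE3⟩ := assemble σ x B1 ![e, e2, f, f2] ![ω, ω, ω ^ 2, ω ^ 2] B1_mul_B1
      (by
        intro i j
        fin_cases i <;> fin_cases j <;>
          simp [B1, hee, g_ee2, hef, g_ef2, g_e2e, g_e2e2, he2f, he2f2, hfe, g_fe2, hff, g_ff2,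
            hf2e, g_f2e2, g_f2f, g_f2f2])
      (by
        intro j
        fin_cases j <;> simp [he, he2, hf', hf2])
    exact ⟨E, hE1, Or.inl ⟨hE2, by rw [hmap]; exact hE3⟩⟩
  · -- one hyperbolic pair and two fixed orthonormal vectors
    push Not at hcase
    have hB : ∀ e2 : Fin 4 → F, x *ᵥ e2 = ω • e2 → hf σ e2 f = 0 → e2 = 0 := by
      intro e2 h1 h2
      by_contra h0
      exact hcase e2 h0 h1 h2
    have hB' : ∀ f' : Fin 4 → F, x *ᵥ f' = ω ^ 2 • f' → hf σ f' e = 0 → f' = 0 := by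
      intro f' h1 h2
      by_contra h0
      obtain ⟨e', he', hfe'⟩ := hA (ω ^ 2) ω f' (Or.inr ⟨rfl, rfl⟩) h0 h1
      have h4 : e' - (hf σ e' f) • e = 0 := by
        apply hB
        · rw [Matrix.mulVec_sub, Matrix.mulVec_smul, he', he, smul_sub, smul_comm]
        · rw [hf_sub_left, hf_smul_left, hef, mul_one, sub_self]
      have h5 : e' = (hf σ e' f) • e := sub_eq_zero.mp h4
      rw [h5, hf_smul_right, h2, mul_zero] at hfe'
      exact zero_ne_one hfe'
    have hfix : ∀ u : Fin 4 → F, hf σ u e = 0 → hf σ u f = 0 → x *ᵥ u = u := by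
      intro u hue huf
      obtain ⟨u1, uω, uω2, hsum, h1, h2, h3'⟩ := hdec u
      have hu1 : x *ᵥ u1 = (1 : F) • u1 := by rw [one_smul]; exact h1
      have a1 : hf σ u1 f = 0 :=
        horth 1 (ω ^ 2) u1 f hu1 hf' (by rw [hσω2, one_mul]; exact hω21)
      have a2 : hf σ uω2 f = 0 := horth (ω ^ 2) (ω ^ 2) uω2 f h3' hf' hω2ω2
      have a3 : hf σ u1 e = 0 := horth 1 ω u1 e hu1 he (by rw [hσω, one_mul]; exact hω1)
      have a4 : hf σ uω e = 0 := horth ω ω uω e h2 he hωω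
      have b1 : hf σ uω f = 0 := by
        have h := huf
        rw [hsum, hf_add_left, hf_add_left, a1, a2, zero_add, add_zero] at h
        exact h
      have b2 : hf σ uω2 e = 0 := by
        have h := hue
        rw [hsum, hf_add_left, hf_add_left, a3, a4, zero_add, zero_add] at h
        exact h
      have c1 : uω = 0 := hB uω h2 b1
      have c2 : uω2 = 0 := hB' uω2 h3' b2
      rw [c1, c2, add_zero, add_zero] at hsum
      rw [hsum]; exact h1
    -- first unit vector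
    obtain ⟨g1, ⟨hg1e, hg1f⟩, hg1g1⟩ := exists_unit_vec σ hF hσ
      (fun u => hf σ u e = 0 ∧ hf σ u f = 0)
      (fun u u' hu hu' => ⟨by rw [hf_add_left, hu.1, hu'.1, add_zero],
        by rw [hf_add_left, hu.2, hu'.2, add_zero]⟩)
      (fun c u hu => ⟨by rw [hf_smul_left, hu.1, mul_zero], by rw [hf_smul_left, hu.2, mul_zero]⟩)
      (vecMulVec e (σ ∘ f) + vecMulVec f (σ ∘ e))
      (by
        have h1 := rank_add_le4 (vecMulVec e (σ ∘ f)) (vecMulVec f (σ ∘ e))
        have h2 := Matrix.rank_vecMulVec_le e (σ ∘ f)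
        have h3 := Matrix.rank_vecMulVec_le f (σ ∘ e)
        omega)
      (fun v => by
        rw [Matrix.add_mulVec, vmv_mulVec, vmv_mulVec]
        constructor
        · rw [hf_sub_left, hf_add_left, hf_smul_left, hf_smul_left, hee, hfe]; ring
        · rw [hf_sub_left, hf_add_left, hf_smul_left, hf_smul_left, hef, hff]; ring)
      (fun u v hu => by
        rw [Matrix.add_mulVec, vmv_mulVec, vmv_mulVec, hf_add_right, hf_smul_right,
          hf_smul_right, hu.1, hu.2, mul_zero, mul_zero, add_zero])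
    have hg1x : x *ᵥ g1 = g1 := hfix g1 hg1e hg1f
    have heg1 : hf σ e g1 = 0 := by rw [← hf_symm σ hσ2 g1 e, hg1e, map_zero]
    have hfg1 : hf σ f g1 = 0 := by rw [← hf_symm σ hσ2 g1 f, hg1f, map_zero]
    -- second unit vector
    obtain ⟨g2, ⟨hg2e, hg2f, hg2g1⟩, hg2g2⟩ := exists_unit_vec σ hF hσ
      (fun u => hf σ u e = 0 ∧ hf σ u f = 0 ∧ hf σ u g1 = 0)
      (fun u u' hu hu' => ⟨by rw [hf_add_left, hu.1, hu'.1, add_zero],
        by rw [hf_add_left, hu.2.1, hu'.2.1, add_zero],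
        by rw [hf_add_left, hu.2.2, hu'.2.2, add_zero]⟩)
      (fun c u hu => ⟨by rw [hf_smul_left, hu.1, mul_zero],
        by rw [hf_smul_left, hu.2.1, mul_zero], by rw [hf_smul_left, hu.2.2, mul_zero]⟩)
      (vecMulVec e (σ ∘ f) + vecMulVec f (σ ∘ e) + vecMulVec g1 (σ ∘ g1))
      (by
        have h0 := rank_add_le4 (vecMulVec e (σ ∘ f) + vecMulVec f (σ ∘ e))
          (vecMulVec g1 (σ ∘ g1))
        have h1 := rank_add_le4 (vecMulVec e (σ ∘ f)) (vecMulVec f (σ ∘ e))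
        have h2 := Matrix.rank_vecMulVec_le e (σ ∘ f)
        have h3 := Matrix.rank_vecMulVec_le f (σ ∘ e)
        have h4 := Matrix.rank_vecMulVec_le g1 (σ ∘ g1)
        omega)
      (fun v => by
        rw [Matrix.add_mulVec, Matrix.add_mulVec, vmv_mulVec, vmv_mulVec, vmv_mulVec]
        refine ⟨?_, ?_, ?_⟩
        · rw [hf_sub_left, hf_add_left, hf_add_left, hf_smul_left, hf_smul_left, hf_smul_left,
            hee, hfe, hg1e]; ring
        · rw [hf_sub_left, hf_add_left, hf_add_left, hf_smul_left, hf_smul_left, hf_smul_left,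
            hef, hff, hg1f]; ring
        · rw [hf_sub_left, hf_add_left, hf_add_left, hf_smul_left, hf_smul_left, hf_smul_left,
            heg1, hfg1, hg1g1]; ring)
      (fun u v hu => by
        rw [Matrix.add_mulVec, Matrix.add_mulVec, vmv_mulVec, vmv_mulVec, vmv_mulVec,
          hf_add_right, hf_add_right, hf_smul_right, hf_smul_right, hf_smul_right, hu.1, hu.2.1,
          hu.2.2, mul_zero, mul_zero, mul_zero, add_zero, add_zero])
    have hg2x : x *ᵥ g2 = g2 := hfix g2 hg2e hg2f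
    have heg2 : hf σ e g2 = 0 := by rw [← hf_symm σ hσ2 g2 e, hg2e, map_zero]
    have hfg2 : hf σ f g2 = 0 := by rw [← hf_symm σ hσ2 g2 f, hg2f, map_zero]
    have hg1g2 : hf σ g1 g2 = 0 := by rw [← hf_symm σ hσ2 g2 g1, hg2g1, map_zero]
    obtain ⟨E, hE1, hE2, hE3⟩ := assemble σ x J1 ![e, f, g1, g2] ![ω, ω ^ 2, 1, 1] J1_mul_J1
      (by
        intro i j
        fin_cases i <;> fin_cases j <;>
          simp [J1, hee, hef, heg1, heg2, hfe, hff, hfg1, hfg2, hg1e, hg1f, hg1g1, hg1g2,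
            hg2e, hg2f, hg2g1, hg2g2])
      (by
        intro j
        fin_cases j <;> simp [he, hf', hg1x, hg2x])
    exact ⟨E, hE1, Or.inr ⟨hE2, by rw [hmap]; exact hE3⟩⟩

end Cfsg.Agent.H16.UP
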