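import Mathlib
import Cfsg.Agent.H42.UnDefs
import Cfsg.Agent.H45.SpRS
import Cfsg.Agent.H45.CycFactor
import Cfsg.Agent.H45.IsoSD
import Cfsg.Agent.H48.PrimeOrdU

/-!
# S5954, piece UN-BLOCK: an invariant nondegenerate block of dimension `cu q r`
-/

set_option autoImplicit false

namespace Cfsg.Agent.H16.Un

open Cfsg.Agent.H45 Cfsg.Agent.H42.Spd Cfsg.Agent.H42.Un Module Polynomial

universe u v

/-- A pairing with trivial right kernel on `W` against `L` bounds the dimension of `W`. -/
theorem finrank_le_of_pairing {F : Type u} [Field F] [Finite F] {σ : F →+* F} {V : Type v}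
    [AddCommGroup V] [Module F V] [FiniteDimensional F V] (B : V →ₗ[F] V →ₛₗ[σ] F)
    (L W : Submodule F V) (h : ∀ w ∈ W, (∀ l ∈ L, B l w = 0) → w = 0) :
    finrank F W ≤ finrank F L := by
  classical
  let R : W → Module.Dual F L := fun y => (B.flip y).comp L.subtype
  have hR : Function.Injective R := by
    intro y₁ y₂ hy
    have h1 : ((y₁ : V) - y₂) = 0 := by
      apply h _ (W.sub_mem y₁.2 y₂.2)
      intro l hl
      have := congrArg (fun ψ : Module.Dual F L => ψ ⟨l, hl⟩) hy
      simp only [R, LinearMap.comp_apply, Submodule.subtype_apply, LinearMap.flip_apply] at this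
      rw [map_sub, this, sub_self]
    exact Subtype.ext (sub_eq_zero.mp h1)
  have hfinW : Finite W := Module.finite_of_finite F
  have hfinL : Finite L := Module.finite_of_finite F
  have hfinD : Finite (Module.Dual F L) := Module.finite_of_finite F
  have hcard : Nat.card W ≤ Nat.card (Module.Dual F L) := Nat.card_le_card_of_injective R hR
  have hD : Nat.card (Module.Dual F L) = Nat.card L :=
    (Nat.card_congr (Module.finBasis F L).toDualEquiv.toEquiv).symm
  have hcW : Nat.card W = Nat.card F ^ finrank F W := Module.natCard_eq_pow_finrank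
  have hcL : Nat.card L = Nat.card F ^ finrank F L := Module.natCard_eq_pow_finrank
  rw [hD, hcW, hcL] at hcard
  exact (Nat.pow_le_pow_iff_right Finite.one_lt_card).mp hcard

theorem uBlock : StUBlock.{u, v} := by
  intro F _ _ q σ V _ _ _ r B T hK hσq hctx hker hV
  classical
  have hr := hctx.prime
  haveI : Fact r.Prime := ⟨hr⟩
  have hr2 := hctx.ne_two
  have hr3 : 3 ≤ r := by
    have h1 := hr.two_le
    omega
  have hiso := hctx.iso
  have hσ : ∀ a, σ (σ a) = a := hiso.invol
  have hσne : σ ≠ RingHom.id F := by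
    obtain ⟨a, ha⟩ := hiso.nontriv
    intro h
    apply ha
    rw [h]
    rfl
  have hd : Good σ 1 B T := by
    refine ⟨fun x y => ?_, hiso.nondeg, fun h => absurd h hσne, hiso.isom, hctx.ss⟩
    rw [one_mul]
    exact hiso.herm x y
  -- `q` is a unit modulo `r`
  have hq0 : (q : ZMod r) ≠ 0 := by
    intro h
    rw [ZMod.natCast_eq_zero_iff] at h
    obtain ⟨p', k, hp', hchar, hqk⟩ := Cfsg.Agent.H17.exists_char_pow hK
    rw [hqk] at h
    have h2 := hr.dvd_of_dvd_pow h
    have h3 := (Nat.prime_dvd_prime_iff_eq hr hp').mp h2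
    apply hctx.cast_ne
    rw [h3]
    haveI := hchar
    exact CharP.cast_eq_zero F p'
  obtain ⟨i, hi⟩ : ∃ i, i = orderOf (q : ZMod r) := ⟨_, rfl⟩
  have hipos : 0 < i := by
    rw [hi]
    apply orderOf_pos_iff.mpr
    rw [isOfFinOrder_iff_pow_eq_one]
    exact ⟨r - 1, by omega, ZMod.pow_card_sub_one_eq_one hq0⟩
  -- Step 1: an irreducible factor of the cyclotomic polynomial with a kernel vector
  obtain ⟨u, hu0⟩ : ∃ u : V, u ≠ 0 := by
    by_contra hcon
    push Not at hcon
    apply hV
    rw [eq_bot_iff]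
    intro x _
    rw [hcon x]
    exact Submodule.zero_mem _
  have hu1 : (T - 1) u ≠ 0 := by
    intro h
    have h1 : u ∈ LinearMap.ker (T - 1) := LinearMap.mem_ker.mpr h
    rw [hker] at h1
    exact hu0 ((Submodule.mem_bot F).mp h1)
  have hcyc0 : cyclotomic r F ≠ 0 := cyclotomic_ne_zero r F
  have hann : aeval T (cyclotomic r F) ((T - 1) u) = 0 := by
    have h1 : aeval T (cyclotomic r F * (X - 1)) = 0 := by
      rw [cyclotomic_prime_mul_X_sub_one, map_sub, map_pow, aeval_X, map_one, hctx.pow, sub_self]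
    have h2 : aeval T (cyclotomic r F * (X - 1)) u = aeval T (cyclotomic r F) ((T - 1) u) := by
      rw [map_mul, Module.End.mul_apply, map_sub, aeval_X, map_one]
    rw [← h2, h1, LinearMap.zero_apply]
  obtain ⟨f, hfm, hf, hfd, u', -, hu'0, hfu'⟩ :=
    exists_irr_of_ann T ⊤ (fun x _ => Submodule.mem_top) (cyclotomic r F).natDegree
      (cyclotomic r F) le_rfl hcyc0 ((T - 1) u) Submodule.mem_top hu1 hann
  obtain ⟨hdeg, hf0, -, -, -⟩ := cyc_factor r (by omega) hctx.cast_ne f hf hfm hfd
  have hdegq : f.natDegree = orderOf ((q ^ 2 : ℕ) : ZMod r) := by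
    rw [hdeg, hK]
  have hdeg2 : f.natDegree = i / Nat.gcd i 2 := by
    rw [hdegq, Nat.cast_pow, orderOf_pow' _ (by norm_num : (2 : ℕ) ≠ 0), ← hi]
  have hfx : f ∣ X ^ r - 1 := hfd.trans ⟨X - 1, (cyclotomic_prime_mul_X_sub_one F r).symm⟩
  have h1f : f.eval 1 ≠ 0 := by
    intro h
    obtain ⟨g, hg⟩ := hfd
    have h2 := congrArg (Polynomial.eval 1) hg
    rw [eval_mul, h, zero_mul, eval_one_cyclotomic_prime] at h2
    exact hctx.cast_ne h2
  have hE : LinearMap.ker (aeval T f) ≠ ⊥ := by
    intro h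
    have h1 : u' ∈ LinearMap.ker (aeval T f) := LinearMap.mem_ker.mpr hfu'
    rw [h] at h1
    exact hu'0 ((Submodule.mem_bot F).mp h1)
  have hfin : finrank F (AdjoinRoot f) = f.natDegree := by
    rw [(AdjoinRoot.powerBasis hfm.ne_zero).finrank, AdjoinRoot.powerBasis_dim]
  by_cases h42 : i % 4 = 2
  · -- the self-dual case
    have hcu : cu q r = i / 2 := by
      rw [cu, ← hi, if_neg (by omega), if_pos h42]
    have hg2 : Nat.gcd i 2 = 2 := Nat.gcd_eq_right (by omega)
    rw [hg2] at hdeg2
    have h4 : orderOf (q : ZMod r) % 4 = 2 := by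
      rw [← hi]
      exact h42
    obtain ⟨hqi, hodd⟩ := Cfsg.Agent.H48.pow_half_of_mod_four r (q : ZMod r) h4
    rw [← hi] at hqi hodd
    have hre : r ∣ q ^ (i / 2) + 1 := by
      rw [← ZMod.natCast_eq_zero_iff]
      push_cast
      rw [hqi]
      ring
    have hsd : f ∣ dualPoly σ f :=
      Cfsg.Agent.H48.dvd_dualPoly_of_odd hK σ hσq r (i / 2) hodd hre f hf hfx
    obtain ⟨L, Φ, hLnd, hΦ⟩ := sd_cyclic hd f hf hsd (Or.inl hσne) hE
    refine ⟨L, ⟨?_, hLnd⟩, ?_⟩
    · rw [Module.End.mem_invtSubmodule]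
      intro x hx
      rw [Submodule.mem_comap]
      have h5 := hΦ X (Φ.symm ⟨x, hx⟩)
      rw [LinearEquiv.apply_symm_apply, aeval_X] at h5
      rw [← h5]
      exact (Φ _).2
    · rw [← Φ.finrank_eq, hfin, hdeg2, hcu]
  · -- the non-self-dual case
    have hcu : cu q r = 2 * (i / Nat.gcd i 2) := by
      by_cases h40 : i % 4 = 0
      · rw [cu, ← hi, if_pos h40]
        have hg2 : Nat.gcd i 2 = 2 := Nat.gcd_eq_right (by omega)
        rw [hg2]
        omega
      · rw [cu, ← hi, if_neg h40, if_neg h42]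
        have hodd : Odd i := by
          rw [Nat.odd_iff]
          omega
        have hg1 : Nat.gcd i 2 = 1 := Nat.coprime_two_right.mpr hodd
        rw [hg1, Nat.div_one]
    have hnsd : ¬ f ∣ dualPoly σ f := by
      intro hsd
      have hassoc : Associated f (dualPoly σ f) :=
        associated_of_dvd_of_natDegree_le hsd (dualPoly_ne_zero σ f hf0)
          (by rw [dualPoly_natDegree σ f hf0])
      have hdual := dualPoly_eq_of_associated σ f hfm hf0 hassoc
      obtain ⟨j, hj⟩ := Cfsg.Agent.H48.exists_pow_of_dual_self hK σ hσq r hr f hf hfm hfx h1f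
        hdegq (σ (f.coeff 0)) ((map_ne_zero σ).mpr hf0) hdual
      have hpw : (q : ZMod r) ^ (2 * j) = -(q : ZMod r) := by
        have h2 := (ZMod.natCast_eq_zero_iff _ _).mpr hj
        push_cast at h2
        rw [pow_mul]
        linear_combination h2
      have h3 := Cfsg.Agent.H48.mod_four_of_pow r hr2 (q : ZMod r) hq0 j hpw
      rw [← hi] at h3
      exact h42 h3
    have hcop : IsCoprime f (dualPoly σ f) :=
      (Irreducible.coprime_iff_not_dvd hf).mpr hnsd
    obtain ⟨L, hL, Φ, -, -, hΦ⟩ := exists_cyclic T f hf u' hu'0 hfu'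
    have hLE : L ≤ LinearMap.ker (aeval T f) := by
      intro x hx
      rw [LinearMap.mem_ker]
      have h5 := hΦ f (Φ.symm ⟨x, hx⟩)
      rw [LinearEquiv.apply_symm_apply] at h5
      rw [← h5, AdjoinRoot.mk_self, zero_mul, map_zero]
      rfl
    obtain ⟨W2, hW2inv, hLiso, hW2iso, hW2perp, hW2sup⟩ :=
      nsd_side hσ hd f hcop L hL hLE
    have hLzero : ∀ l ∈ L, (∀ w ∈ W2, B w l = 0) → l = 0 := by
      intro l hl hw
      apply hd.nondeg' l
      intro x
      have hx : x ∈ W2 ⊔ perp B L := by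
        rw [hW2sup]
        exact Submodule.mem_top
      obtain ⟨w, hw', p, hp, rfl⟩ := Submodule.mem_sup.mp hx
      rw [map_add, LinearMap.add_apply, hw w hw', zero_add]
      exact hd.refl (hp l hl)
    have hdisj : L ⊓ W2 = ⊥ := by
      rw [eq_bot_iff]
      intro x hx
      rw [← hW2perp]
      exact ⟨hx.2, fun u hu => hLiso u hu x hx.1⟩
    refine ⟨L ⊔ W2, ⟨?_, ?_⟩, ?_⟩
    · rw [Module.End.mem_invtSubmodule]
      intro x hx
      rw [Submodule.mem_comap]
      obtain ⟨l, hl, w, hw, rfl⟩ := Submodule.mem_sup.mp hx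
      rw [map_add]
      exact Submodule.add_mem_sup (hL hl) (hW2inv w hw)
    · rw [eq_bot_iff]
      intro x hx
      obtain ⟨hxU, hxp⟩ := hx
      obtain ⟨l, hl, w, hw, rfl⟩ := Submodule.mem_sup.mp hxU
      have hw0 : w = 0 := by
        have h1 : w ∈ W2 ⊓ perp B L := by
          refine ⟨hw, fun u hu => ?_⟩
          have h1 := hxp u (Submodule.mem_sup_left hu)
          rw [map_add, hLiso u hu l hl, zero_add] at h1
          exact h1
        rw [hW2perp] at h1
        exact (Submodule.mem_bot F).mp h1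
      subst hw0
      rw [add_zero] at hxp ⊢
      have h2 := hLzero l hl (fun w hw => hxp w (Submodule.mem_sup_right hw))
      rw [h2]
      exact Submodule.zero_mem _
    · have h1 : finrank F ↥(L ⊔ W2) = finrank F L + finrank F W2 := by
        have h2 := Submodule.finrank_sup_add_finrank_inf_eq L W2
        rw [hdisj, finrank_bot, add_zero] at h2
        exact h2
      have hLdim : finrank F L = i / Nat.gcd i 2 := by
        rw [← Φ.finrank_eq, hfin, hdeg2]
      have hW2dim : finrank F W2 = finrank F L := by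
        apply le_antisymm
        · apply finrank_le_of_pairing B L W2
          intro w hw hwl
          have h3 : w ∈ W2 ⊓ perp B L := ⟨hw, hwl⟩
          rw [hW2perp] at h3
          exact (Submodule.mem_bot F).mp h3
        · exact finrank_le_of_pairing B W2 L hLzero
      rw [h1, hW2dim, hLdim, hcu]
      ring

example : Cfsg.Agent.H42.Un.StUBlock.{u, v} := uBlock

end Cfsg.Agent.H16.Un
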