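import Mathlib
import Cfsg.Prelude.Def_Perm
import Cfsg.Prelude.Def_Characters
import Cfsg.Agent.H16.Rank
import Cfsg.Agent.H4.RealClasses

set_option autoImplicit false
set_option linter.unusedSectionVars false

namespace Cfsg.Agent.H16

open Cfsg Cfsg.Agent.H4 Module Representation
open scoped ComplexConjugate Matrix

universe u w

section Arith

/-- The Diophantine core of Wielandt's theorem on groups of degree `2m` and rank 3. -/
theorem wielandt_arith (m k l : ℕ) (hk : 2 ≤ k) (hl : 2 ≤ l) (hn : 2 * m = 1 + k + l) (u : ℤ)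
    (hQ : ((m : ℤ) - 1) * (2 * m - 1) * u ^ 2 - 4 * ((m : ℤ) - 1) * k * u + 2 * (k : ℤ) ^ 2
      - 2 * k = 0) :
    ∃ a : ℕ, 0 < a ∧ m = 2 * a ^ 2 + 2 * a + 1 ∧
      (k = a * (2 * a + 1) ∨ k = (a + 1) * (2 * a + 1)) := by
  have hm : (3 : ℤ) ≤ m := by omega
  have hk' : (2 : ℤ) ≤ k := by exact_mod_cast hk
  have hkl : (k : ℤ) ≤ 2 * m - 3 := by omega
  have key : (2 * (k : ℤ) - (2 * ((m : ℤ) - 1) * u + 1)) ^ 2 =
      1 + 2 * ((m : ℤ) - 1) * u * (2 - u) := by
    linear_combination 2 * hQ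
  have hu0 : 0 ≤ u := by
    by_contra h
    push Not at h
    have e1 : (2 : ℤ) ≤ ((m : ℤ) - 1) * (-u) := by nlinarith
    have e2 : (6 : ℤ) ≤ ((m : ℤ) - 1) * (-u) * (2 - u) := by nlinarith
    have e3 : 2 * ((m : ℤ) - 1) * u * (2 - u) = -2 * (((m : ℤ) - 1) * (-u) * (2 - u)) := by ring
    have h1 : 2 * ((m : ℤ) - 1) * u * (2 - u) ≤ -12 := by rw [e3]; linarith
    nlinarith [sq_nonneg (2 * (k : ℤ) - (2 * ((m : ℤ) - 1) * u + 1))]
  have hu2 : u ≤ 2 := by
    by_contra h
    push Not at h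
    have e1 : (6 : ℤ) ≤ ((m : ℤ) - 1) * u := by nlinarith
    have e2 : (6 : ℤ) ≤ ((m : ℤ) - 1) * u * (u - 2) := by nlinarith
    have e3 : 2 * ((m : ℤ) - 1) * u * (2 - u) = -2 * (((m : ℤ) - 1) * u * (u - 2)) := by ring
    have h1 : 2 * ((m : ℤ) - 1) * u * (2 - u) ≤ -12 := by rw [e3]; linarith
    nlinarith [sq_nonneg (2 * (k : ℤ) - (2 * ((m : ℤ) - 1) * u + 1))]
  interval_cases u
  · exfalso
    have h1 : (2 * (k : ℤ) - 1) ^ 2 = 1 := by linear_combination key
    nlinarith
  · have h1 : (2 * (k : ℤ) - (2 * m - 1)) ^ 2 = 2 * m - 1 := by linear_combination key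
    obtain ⟨t, ht⟩ : ∃ t : ℕ, (t : ℤ) = |2 * (k : ℤ) - (2 * m - 1)| :=
      ⟨(2 * (k : ℤ) - (2 * m - 1)).natAbs, by simp⟩
    have ht2 : (t : ℤ) ^ 2 = 2 * m - 1 := by rw [ht, sq_abs, h1]
    have hodd : t % 2 = 1 := by
      by_contra hcon
      obtain ⟨c, rfl⟩ : ∃ c, t = 2 * c := ⟨t / 2, by omega⟩
      push_cast at ht2
      have h4 : (2 * (c : ℤ)) ^ 2 = 2 * (2 * (c : ℤ) ^ 2) := by ring
      rw [h4] at ht2
      omega
    obtain ⟨a, rfl⟩ : ∃ a, t = 2 * a + 1 := ⟨t / 2, by omega⟩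
    push_cast at ht2 ht
    have hmZ : (m : ℤ) = 2 * (a : ℤ) ^ 2 + 2 * a + 1 := by linarith
    have hmN : m = 2 * a ^ 2 + 2 * a + 1 := by exact_mod_cast hmZ
    refine ⟨a, ?_, hmN, ?_⟩
    · rcases Nat.eq_zero_or_pos a with h0 | h0
      · subst h0; simp at hmZ; omega
      · exact h0
    · rcases abs_cases (2 * (k : ℤ) - (2 * m - 1)) with ⟨h5, -⟩ | ⟨h5, -⟩
      · right
        rw [h5] at ht
        have : (k : ℤ) = ((a : ℤ) + 1) * (2 * a + 1) := by rw [hmZ] at ht; linarith
        exact_mod_cast this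
      · left
        rw [h5] at ht
        have : (k : ℤ) = (a : ℤ) * (2 * a + 1) := by rw [hmZ] at ht; linarith
        exact_mod_cast this
  · exfalso
    have h1 : (2 * (k : ℤ) - (4 * m - 3)) ^ 2 = 1 := by linear_combination key
    nlinarith

theorem int_of_integral_rat (z : ℂ) (hz : IsIntegral ℤ z) (q : ℚ) (h : z = (q : ℂ)) :
    ∃ y : ℤ, z = y := by
  have hq : IsIntegral ℤ q := by
    rw [← isIntegral_algebraMap_iff (algebraMap ℚ ℂ).injective]
    rw [h] at hz
    simpa using hz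
  obtain ⟨y, hy⟩ := IsIntegrallyClosed.isIntegral_iff.mp hq
  refine ⟨y, ?_⟩
  rw [h, ← hy]
  simp

/-- From the three trace equations, the sum of the two non-principal eigenvalues is an integer
satisfying a quadratic equation. -/
theorem wielandt_u (m k l : ℕ) (hm : 1 ≤ m) (hk : 1 ≤ k) (hl : 1 ≤ l) (hn : 2 * m = 1 + k + l)
    (μ₁ μ₂ : ℂ) (h1 : IsIntegral ℤ μ₁) (h2 : IsIntegral ℤ μ₂) (T : ℤ)
    (E1 : (k : ℂ) + ((m : ℂ) - 1) * μ₁ + m * μ₂ = 0)
    (E2 : (k : ℂ) ^ 2 + ((m : ℂ) - 1) * μ₁ ^ 2 + m * μ₂ ^ 2 = 2 * m * k)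
    (E3 : (k : ℂ) ^ 3 + ((m : ℂ) - 1) * μ₁ ^ 3 + m * μ₂ ^ 3 = T) :
    ∃ u : ℤ, ((m : ℤ) - 1) * (2 * m - 1) * u ^ 2 - 4 * ((m : ℤ) - 1) * k * u + 2 * (k : ℤ) ^ 2
      - 2 * k = 0 := by
  obtain ⟨u, hu⟩ : ∃ u : ℂ, u = -(μ₁ + μ₂) := ⟨_, rfl⟩
  have hM : (m : ℂ) ≠ 0 := by exact_mod_cast (by omega : m ≠ 0)
  have hK : (k : ℂ) ≠ 0 := by exact_mod_cast (by omega : k ≠ 0)
  have hL : (l : ℂ) ≠ 0 := by exact_mod_cast (by omega : l ≠ 0)
  have hLeq : (l : ℂ) = 2 * m - 1 - k := by
    have : ((2 * m : ℕ) : ℂ) = ((1 + k + l : ℕ) : ℂ) := by rw [hn]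
    push_cast at this
    linear_combination -this
  have e1 : μ₁ = k - m * u := by rw [hu]; linear_combination -E1
  have e2 : μ₂ = (m - 1) * u - k := by rw [hu]; linear_combination E1
  have hQ : ((m : ℂ) - 1) * (2 * m - 1) * u ^ 2 - 4 * ((m : ℂ) - 1) * k * u + 2 * (k : ℂ) ^ 2
      - 2 * k = 0 := by
    have : (m : ℂ) * (((m : ℂ) - 1) * (2 * m - 1) * u ^ 2 - 4 * ((m : ℂ) - 1) * k * u
        + 2 * (k : ℂ) ^ 2 - 2 * k) = 0 := by
      rw [e1, e2] at E2
      linear_combination E2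
    exact (mul_eq_zero.mp this).resolve_left hM
  have hC3 : (2 * (m : ℂ) - 1) * T = m * (2 * (k : ℂ) ^ 2 * (k - 1) - 2 * k * l * u) := by
    rw [e1, e2] at E3
    rw [hLeq]
    linear_combination (-(2 * (m : ℂ) - 1)) * E3 + (-(m : ℂ) * (k + (2 * m - 1) * u)) * hQ
  have hu_rat : u = (((2 * m * k ^ 2 * (k - 1) - (2 * m - 1) * T : ℚ) / (2 * m * k * l) : ℚ) : ℂ) := by
    push_cast
    field_simp
    linear_combination hC3
  have hint : IsIntegral ℤ u := by rw [hu]; exact (h1.add h2).neg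
  obtain ⟨y, hy⟩ := int_of_integral_rat u hint _ hu_rat
  refine ⟨y, ?_⟩
  rw [hy] at hQ
  exact_mod_cast hQ

end Arith

section FixedBlock

variable {G : Type u} [Group G] [Finite G] {Ω : Type w} [MulAction G Ω]

/-- In a finite transitive group, a point fixed by a point stabiliser has the same stabiliser. -/
theorem stabilizer_eq_of_fixed [MulAction.IsPretransitive G Ω] (a₀ z : Ω)
    (hz : ∀ h ∈ MulAction.stabilizer G a₀, h • z = z) :
    MulAction.stabilizer G z = MulAction.stabilizer G a₀ := by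
  obtain ⟨c, rfl⟩ := MulAction.exists_smul_eq G a₀ z
  have hle : MulAction.stabilizer G a₀ ≤ MulAction.stabilizer G (c • a₀) := fun h hh => hz h hh
  have hcard : Nat.card (MulAction.stabilizer G (c • a₀)) =
      Nat.card (MulAction.stabilizer G a₀) := by
    rw [MulAction.stabilizer_smul_eq_stabilizer_map_conj]
    exact Subgroup.card_map_of_injective (MulAut.conj c).injective
  exact (Subgroup.eq_of_le_of_card_ge hle hcard.le).symm

/-- The fixed points of a point stabiliser form a block. -/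
theorem isBlock_fixedPoints_stabilizer [MulAction.IsPretransitive G Ω] (a₀ : Ω) :
    MulAction.IsBlock G {x : Ω | ∀ h ∈ MulAction.stabilizer G a₀, h • x = x} := by
  rw [MulAction.isBlock_iff_smul_eq_of_mem]
  intro g x hx hgx
  have h1 := stabilizer_eq_of_fixed a₀ x hx
  have h2 := stabilizer_eq_of_fixed a₀ (g • x) hgx
  ext z
  constructor
  · rintro ⟨w, hw, rfl⟩
    intro h hh
    have h3 : h ∈ MulAction.stabilizer G (g • x) := by rw [h2]; exact hh
    have h4 : g⁻¹ * h * g ∈ MulAction.stabilizer G x := by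
      rw [MulAction.mem_stabilizer_iff] at h3 ⊢
      rw [mul_smul, mul_smul, h3, inv_smul_smul]
    rw [h1] at h4
    have h5 := hw _ h4
    rw [mul_smul, mul_smul, inv_smul_eq_iff] at h5
    exact h5
  · intro hz
    refine ⟨g⁻¹ • z, ?_, smul_inv_smul g z⟩
    intro h hh
    have h3 : h ∈ MulAction.stabilizer G x := by rw [h1]; exact hh
    have h4 : g * h * g⁻¹ ∈ MulAction.stabilizer G (g • x) := by
      rw [MulAction.mem_stabilizer_iff] at h3 ⊢
      rw [mul_smul, mul_smul, inv_smul_smul, h3]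
    rw [h2] at h4
    have h5 := hz _ h4
    rw [mul_smul, mul_smul] at h5
    exact eq_inv_smul_iff.mpr h5

/-- In a finite primitive group, if a point stabiliser fixes a second point, it fixes every
point. -/
theorem stabilizer_fixes_all (hprim : MulAction.IsPreprimitive G Ω) (a₀ b : Ω) (hb : b ≠ a₀)
    (hfix : ∀ h ∈ MulAction.stabilizer G a₀, h • b = b) :
    ∀ x : Ω, ∀ h ∈ MulAction.stabilizer G a₀, h • x = x := by
  have hB := isBlock_fixedPoints_stabilizer (G := G) a₀
  rcases hprim.isTrivialBlock_of_isBlock hB with hsub | htop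
  · exact absurd (hsub hfix (fun h hh => hh)) hb
  · intro x
    have : x ∈ {x : Ω | ∀ h ∈ MulAction.stabilizer G a₀, h • x = x} := by rw [htop]; trivial
    exact this

end FixedBlock

section Rank3

variable {G : Type u} [Group G] [Fintype G] {Ω : Type w} [Fintype Ω] [MulAction G Ω]

/-- Rank 3: the three orbits of the stabiliser of `a₀`. -/
theorem rank3_orbits (a₀ : Ω)
    (hrank : Nat.card (MulAction.orbitRel.Quotient (MulAction.stabilizer G a₀) Ω) = 3)
    (b : Ω) (hb : b ≠ a₀) :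
    ∃ z : Ω, z ≠ a₀ ∧ z ∉ MulAction.orbit (MulAction.stabilizer G a₀) b ∧
      Fintype.card Ω = 1 + Nat.card (MulAction.orbit (MulAction.stabilizer G a₀) b) +
        Nat.card (MulAction.orbit (MulAction.stabilizer G a₀) z) := by
  classical
  obtain ⟨H, hH⟩ : ∃ H : Subgroup G, H = MulAction.stabilizer G a₀ := ⟨_, rfl⟩
  rw [← hH] at hrank ⊢
  have hfixa : ∀ h : H, h • a₀ = a₀ := by
    subst hH
    exact fun h => h.2
  have : Fintype (MulAction.orbitRel.Quotient H Ω) := Fintype.ofFinite _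
  rw [Nat.card_eq_fintype_card] at hrank
  obtain ⟨mk, hmk⟩ : ∃ mk : Ω → MulAction.orbitRel.Quotient H Ω, mk = Quotient.mk'' := ⟨_, rfl⟩
  have hmk_eq : ∀ x y : Ω, mk x = mk y ↔ x ∈ MulAction.orbit H y := by
    intro x y
    rw [hmk, Quotient.eq'']
    exact MulAction.orbitRel_apply
  have hmk_surj : ∀ q, ∃ x, mk x = q := by
    intro q
    rw [hmk]
    induction q using Quotient.inductionOn' with
    | h x => exact ⟨x, rfl⟩
  have horba : MulAction.orbit H a₀ = {a₀} := by
    ext x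
    simp only [Set.mem_singleton_iff]
    constructor
    · rintro ⟨h, rfl⟩
      exact hfixa h
    · rintro rfl
      exact MulAction.mem_orbit_self _
  have hab : mk a₀ ≠ mk b := by
    intro h
    have := (hmk_eq b a₀).mp h.symm
    rw [horba] at this
    exact hb this
  obtain ⟨q, hqa, hqb⟩ : ∃ q, q ≠ mk a₀ ∧ q ≠ mk b := by
    by_contra hcon
    push Not at hcon
    have hsub : (Finset.univ : Finset (MulAction.orbitRel.Quotient H Ω)) ⊆ {mk a₀, mk b} := by
      intro q _
      by_cases h : q = mk a₀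
      · simp [h]
      · simp [hcon q h]
    have := Finset.card_le_card hsub
    rw [Finset.card_univ, hrank] at this
    have h2 : ({mk a₀, mk b} : Finset (MulAction.orbitRel.Quotient H Ω)).card ≤ 2 :=
      Finset.card_le_two
    omega
  obtain ⟨z, rfl⟩ := hmk_surj q
  have hza : z ≠ a₀ := by rintro rfl; exact hqa rfl
  have hzb : z ∉ MulAction.orbit H b := fun h => hqb ((hmk_eq z b).mpr h)
  refine ⟨z, hza, hzb, ?_⟩
  have htri : ∀ x : Ω, x = a₀ ∨ x ∈ MulAction.orbit H b ∨ x ∈ MulAction.orbit H z := by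
    intro x
    by_contra hcon
    push Not at hcon
    obtain ⟨h1, h2, h3⟩ := hcon
    have hxa : mk x ≠ mk a₀ := by
      intro h
      have := (hmk_eq x a₀).mp h
      rw [horba] at this
      exact h1 this
    have hxb : mk x ≠ mk b := fun h => h2 ((hmk_eq x b).mp h)
    have hxz : mk x ≠ mk z := fun h => h3 ((hmk_eq x z).mp h)
    have hcard4 : ({mk a₀, mk b, mk z, mk x} :
        Finset (MulAction.orbitRel.Quotient H Ω)).card = 4 := by
      rw [Finset.card_insert_of_notMem, Finset.card_insert_of_notMem,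
        Finset.card_insert_of_notMem, Finset.card_singleton]
      · simp only [Finset.mem_singleton]; exact hxz.symm
      · simp only [Finset.mem_insert, Finset.mem_singleton, not_or]
        exact ⟨hqb.symm, hxb.symm⟩
      · simp only [Finset.mem_insert, Finset.mem_singleton, not_or]
        exact ⟨hab, hqa.symm, hxa.symm⟩
    have := Finset.card_le_univ
      ({mk a₀, mk b, mk z, mk x} : Finset (MulAction.orbitRel.Quotient H Ω))
    rw [hcard4, hrank] at this
    omega
  have huniv : (Set.univ : Set Ω) = {a₀} ∪ (MulAction.orbit H b ∪ MulAction.orbit H z) := by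
    ext x
    simp only [Set.mem_univ, Set.mem_union, Set.mem_singleton_iff, true_iff]
    exact htri x
  have hd1 : Disjoint (MulAction.orbit H b) (MulAction.orbit H z) := by
    rw [Set.disjoint_left]
    intro x hx1 hx2
    apply hzb
    have := ((hmk_eq x b).mpr hx1).symm.trans ((hmk_eq x z).mpr hx2)
    exact (hmk_eq z b).mp this.symm
  have hd2 : Disjoint ({a₀} : Set Ω) (MulAction.orbit H b ∪ MulAction.orbit H z) := by
    rw [Set.disjoint_singleton_left]
    rintro (h | h)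
    · exact hab ((hmk_eq a₀ b).mpr h)
    · exact hqa ((hmk_eq a₀ z).mpr h).symm
  have hcount := congrArg Set.ncard huniv
  rw [Set.ncard_univ, Set.ncard_union_eq hd2 (Set.toFinite _) (Set.toFinite _),
    Set.ncard_union_eq hd1 (Set.toFinite _) (Set.toFinite _), Set.ncard_singleton,
    Nat.card_eq_fintype_card] at hcount
  rw [hcount, Nat.card_coe_set_eq, Nat.card_coe_set_eq]
  ring

/-- Rank 3 and primitivity: both non-trivial subdegrees are at least 2. -/
theorem rank3_counts (hprim : MulAction.IsPreprimitive G Ω) {m : ℕ}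
    (hm : Fintype.card Ω = 2 * m) (a₀ : Ω)
    (hrank : Nat.card (MulAction.orbitRel.Quotient (MulAction.stabilizer G a₀) Ω) = 3)
    (b : Ω) (hb : b ≠ a₀) :
    ∃ l : ℕ, 2 ≤ l ∧ 2 ≤ Nat.card (MulAction.orbit (MulAction.stabilizer G a₀) b) ∧
      2 * m = 1 + Nat.card (MulAction.orbit (MulAction.stabilizer G a₀) b) + l := by
  obtain ⟨z, hza, hzb, hcount⟩ := rank3_orbits a₀ hrank b hb
  refine ⟨Nat.card (MulAction.orbit (MulAction.stabilizer G a₀) z), ?_, ?_, by omega⟩
  all_goals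
    have hpos : ∀ x : Ω, 1 ≤ Nat.card (MulAction.orbit (MulAction.stabilizer G a₀) x) := by
      intro x
      have : Nonempty (MulAction.orbit (MulAction.stabilizer G a₀) x) :=
        ⟨⟨x, MulAction.mem_orbit_self x⟩⟩
      exact Nat.card_pos
    have hfix_of_card : ∀ x : Ω, Nat.card (MulAction.orbit (MulAction.stabilizer G a₀) x) < 2 →
        ∀ h ∈ MulAction.stabilizer G a₀, h • x = x := by
      intro x hx h hh
      have h1 : Nat.card (MulAction.orbit (MulAction.stabilizer G a₀) x) = 1 := by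
        have := hpos x; omega
      have hsub : Subsingleton (MulAction.orbit (MulAction.stabilizer G a₀) x) :=
        (Nat.card_eq_one_iff_unique.mp h1).1
      have := Subsingleton.elim
        (⟨(⟨h, hh⟩ : MulAction.stabilizer G a₀) • x, MulAction.mem_orbit x _⟩ :
          MulAction.orbit (MulAction.stabilizer G a₀) x) ⟨x, MulAction.mem_orbit_self x⟩
      exact congrArg Subtype.val this
    have hcard_of_fix : ∀ x : Ω, (∀ h ∈ MulAction.stabilizer G a₀, h • x = x) →
        Nat.card (MulAction.orbit (MulAction.stabilizer G a₀) x) = 1 := by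
      intro x hx
      have : MulAction.orbit (MulAction.stabilizer G a₀) x = {x} := by
        ext y
        simp only [Set.mem_singleton_iff]
        constructor
        · rintro ⟨h, rfl⟩
          exact hx h h.2
        · rintro rfl
          exact MulAction.mem_orbit_self _
      rw [this]
      simp
  · by_contra hcon
    push Not at hcon
    have hfz := hfix_of_card z hcon
    have hall := stabilizer_fixes_all hprim a₀ z hza hfz
    have h1 := hcard_of_fix b (hall b)
    have h2 := hcard_of_fix z (hall z)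
    omega
  · by_contra hcon
    push Not at hcon
    have hfb := hfix_of_card b hcon
    have hall := stabilizer_fixes_all hprim a₀ b hb hfb
    have h1 := hcard_of_fix b (hall b)
    have h2 := hcard_of_fix z (hall z)
    omega

end Rank3

section WielandtMain

variable {G : Type u} [Group G] [Fintype G] {Ω : Type w} [Fintype Ω] [MulAction G Ω]

theorem classInner_conj_right_of_real (f h : G → ℂ) (hf : ∀ g, conj (f g) = f g) :
    classInner f (fun g => conj (h g)) = conj (classInner f h) := by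
  unfold classInner
  rw [map_mul, map_sum, map_inv₀, Complex.conj_natCast]
  congr 1
  refine Finset.sum_congr rfl fun g _ => ?_
  rw [map_mul, hf g]

open Classical in
/-- Inner products with the permutation character `1 + χ₁ + χ₂`. -/
theorem wielandt_inner (χ₁ χ₂ : G → ℂ) (h₁ : IsIrrCharacter G χ₁) (h₂ : IsIrrCharacter G χ₂)
    (hπ : (Cfsg.permRep ℂ G Ω).character = fun g => 1 + χ₁ g + χ₂ g) (ψ : IrrCharacter G) :
    classInner (Cfsg.permRep ℂ G Ω).character ψ.1 =
      (if trivialIrr G = ψ then 1 else 0) + (if (⟨χ₁, h₁⟩ : IrrCharacter G) = ψ then 1 else 0) +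
        (if (⟨χ₂, h₂⟩ : IrrCharacter G) = ψ then 1 else 0) := by
  have h : (Cfsg.permRep ℂ G Ω).character =
      (trivialIrr G).1 + (⟨χ₁, h₁⟩ : IrrCharacter G).1 + (⟨χ₂, h₂⟩ : IrrCharacter G).1 := by
    rw [hπ]; funext g; rfl
  rw [h, classInner_add_left, classInner_add_left, irr_inner, irr_inner, irr_inner]

/-- Wielandt's theorem on primitive rank 3 groups of degree `2m` with character degrees
`1, m - 1, m`: the subdegree of a given point. -/
theorem wielandt_subdegree (hprim : MulAction.IsPreprimitive G Ω) {m : ℕ}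
    (hm : Fintype.card Ω = 2 * m) (a₀ : Ω)
    (hrank : Nat.card (MulAction.orbitRel.Quotient (MulAction.stabilizer G a₀) Ω) = 3)
    (χ₁ χ₂ : G → ℂ) (h₁ : IsIrrCharacter G χ₁) (h₂ : IsIrrCharacter G χ₂)
    (hπ : (Cfsg.permRep ℂ G Ω).character = fun g => 1 + χ₁ g + χ₂ g)
    (hd₁ : χ₁ 1 = (m : ℂ) - 1) (hd₂ : χ₂ 1 = m) (b : Ω) (hb : b ≠ a₀) :
    ∃ a : ℕ, 0 < a ∧ m = 2 * a ^ 2 + 2 * a + 1 ∧
      (Nat.card (MulAction.orbit (MulAction.stabilizer G a₀) b) = a * (2 * a + 1) ∨
       Nat.card (MulAction.orbit (MulAction.stabilizer G a₀) b) = (a + 1) * (2 * a + 1)) := by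
  classical
  have := hprim.toIsPretransitive
  have : Nonempty Ω := ⟨a₀⟩
  let _ := fintypeIrr G
  obtain ⟨l, hl2, hk2, hn⟩ := rank3_counts hprim hm a₀ hrank b hb
  obtain ⟨k, hkdef⟩ : ∃ k, k = Nat.card (MulAction.orbit (MulAction.stabilizer G a₀) b) :=
    ⟨_, rfl⟩
  rw [← hkdef] at hk2 hn ⊢
  obtain ⟨ψ₁, hψ₁⟩ : ∃ ψ : IrrCharacter G, ψ = ⟨χ₁, h₁⟩ := ⟨_, rfl⟩
  obtain ⟨ψ₂, hψ₂⟩ : ∃ ψ : IrrCharacter G, ψ = ⟨χ₂, h₂⟩ := ⟨_, rfl⟩
  have hψ₁v : ψ₁.1 = χ₁ := by rw [hψ₁]
  have hψ₂v : ψ₂.1 = χ₂ := by rw [hψ₂]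
  have hin : ∀ ψ : IrrCharacter G, classInner (Cfsg.permRep ℂ G Ω).character ψ.1 =
      (if trivialIrr G = ψ then 1 else 0) + (if ψ₁ = ψ then 1 else 0) +
        (if ψ₂ = ψ then 1 else 0) := by
    intro ψ
    rw [hψ₁, hψ₂]
    exact wielandt_inner χ₁ χ₂ h₁ h₂ hπ ψ
  have hmne : (m : ℂ) - 1 ≠ m := by
    intro h
    have : (-1 : ℂ) = 0 := by linear_combination h
    norm_num at this
  have h12 : ψ₁ ≠ ψ₂ := by
    intro h
    have h' : χ₁ = χ₂ := by rw [← hψ₁v, ← hψ₂v, h]
    have := congrFun h' 1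
    rw [hd₁, hd₂] at this
    exact hmne this
  have ht := hin (trivialIrr G)
  have hone : classInner (Cfsg.permRep ℂ G Ω).character (trivialIrr G).1 = 1 :=
    classInner_permChar_one
  rw [hone, if_pos rfl] at ht
  have ht1 : ψ₁ ≠ trivialIrr G := by
    intro h
    rw [if_pos h] at ht
    split_ifs at ht <;> norm_num at ht
  have ht2 : ψ₂ ≠ trivialIrr G := by
    intro h
    rw [if_pos h] at ht
    split_ifs at ht <;> norm_num at ht
  have hin1 : classInner (Cfsg.permRep ℂ G Ω).character ψ₁.1 = 1 := by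
    rw [hin, if_neg (Ne.symm ht1), if_pos rfl, if_neg (Ne.symm h12)]; norm_num
  have hin2 : classInner (Cfsg.permRep ℂ G Ω).character ψ₂.1 = 1 := by
    rw [hin, if_neg (Ne.symm ht2), if_neg h12, if_pos rfl]; norm_num
  have hmem : ∀ ψ : IrrCharacter G, classInner (Cfsg.permRep ℂ G Ω).character ψ.1 ≠ 0 →
      ψ = trivialIrr G ∨ ψ = ψ₁ ∨ ψ = ψ₂ := by
    intro ψ hne
    rw [hin] at hne
    by_contra hcon
    push Not at hcon
    rw [if_neg (Ne.symm hcon.1), if_neg (Ne.symm hcon.2.1), if_neg (Ne.symm hcon.2.2)] at hne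
    norm_num at hne
  have hmf : ∀ ψ : IrrCharacter G, classInner (Cfsg.permRep ℂ G Ω).character ψ.1 = 0 ∨
      classInner (Cfsg.permRep ℂ G Ω).character ψ.1 = 1 := by
    intro ψ
    by_cases h0 : classInner (Cfsg.permRep ℂ G Ω).character ψ.1 = 0
    · exact Or.inl h0
    · right
      rcases hmem ψ h0 with h | h | h
      · rw [h]; exact hone
      · rw [h]; exact hin1
      · rw [h]; exact hin2
  have hπreal : ∀ g, conj ((Cfsg.permRep ℂ G Ω).character g) =
      (Cfsg.permRep ℂ G Ω).character g := by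
    intro g
    rw [character_permRep]
    simp
  have hreal_aux : ∀ ψ : IrrCharacter G, classInner (Cfsg.permRep ℂ G Ω).character ψ.1 = 1 →
      ∀ ψ' : IrrCharacter G, ψ'.1 = (fun g => conj (ψ.1 g)) →
        ψ' = trivialIrr G ∨ ψ' = ψ₁ ∨ ψ' = ψ₂ := by
    intro ψ h1 ψ' h'
    apply hmem
    rw [h', classInner_conj_right_of_real _ _ hπreal, h1]
    simp
  have hreal1 : ∀ g, conj (χ₁ g) = χ₁ g := by
    obtain ⟨ψc, hψc⟩ : ∃ ψ' : IrrCharacter G,
        ψ' = ⟨fun g => conj (χ₁ g), isIrrCharacter_conj h₁⟩ := ⟨_, rfl⟩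
    have hψc' : ψc.1 = fun g => conj (ψ₁.1 g) := by rw [hψc, hψ₁]
    have hψcv : ψc.1 = fun g => conj (χ₁ g) := by rw [hψc]
    rcases hreal_aux ψ₁ hin1 ψc hψc' with h | h | h
    · exfalso
      apply ht1
      apply Subtype.ext
      rw [hψ₁v]
      funext g
      have h2 : ψc.1 g = 1 := by rw [h]; rfl
      rw [hψcv] at h2
      have h3 := congrArg conj h2
      simp only [Complex.conj_conj, map_one] at h3
      exact h3
    · intro g
      have h2 : ψc.1 g = χ₁ g := by rw [h, hψ₁v]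
      rw [hψcv] at h2
      exact h2
    · exfalso
      have h2 : ψc.1 1 = χ₂ 1 := by rw [h, hψ₂v]
      rw [hψcv, hd₂] at h2
      simp only at h2
      rw [hd₁] at h2
      simp only [map_sub, Complex.conj_natCast, map_one] at h2
      exact hmne h2
  have hreal2 : ∀ g, conj (χ₂ g) = χ₂ g := by
    obtain ⟨ψc, hψc⟩ : ∃ ψ' : IrrCharacter G,
        ψ' = ⟨fun g => conj (χ₂ g), isIrrCharacter_conj h₂⟩ := ⟨_, rfl⟩
    have hψc' : ψc.1 = fun g => conj (ψ₂.1 g) := by rw [hψc, hψ₂]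
    have hψcv : ψc.1 = fun g => conj (χ₂ g) := by rw [hψc]
    rcases hreal_aux ψ₂ hin2 ψc hψc' with h | h | h
    · exfalso
      apply ht2
      apply Subtype.ext
      rw [hψ₂v]
      funext g
      have h2 : ψc.1 g = 1 := by rw [h]; rfl
      rw [hψcv] at h2
      have h3 := congrArg conj h2
      simp only [Complex.conj_conj, map_one] at h3
      exact h3
    · exfalso
      have h2 : ψc.1 1 = χ₁ 1 := by rw [h, hψ₁v]
      rw [hψcv, hd₁] at h2
      simp only at h2
      rw [hd₂] at h2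
      simp only [Complex.conj_natCast] at h2
      exact hmne h2.symm
    · intro g
      have h2 : ψc.1 g = χ₂ g := by rw [h, hψ₂v]
      rw [hψcv] at h2
      exact h2
  have hmfr : ∀ χ : G → ℂ, IsIrrCharacter G χ →
      classInner (Cfsg.permRep ℂ G Ω).character χ ≠ 0 →
      classInner (Cfsg.permRep ℂ G Ω).character χ = 1 ∧ ∀ g : G, conj (χ g) = χ g := by
    intro χ hχ hne
    rcases hmem ⟨χ, hχ⟩ hne with h | h | h
    · have hχ' : χ = fun _ => 1 := congrArg Subtype.val h
      subst hχ'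
      exact ⟨hone, fun g => by simp⟩
    · have hχ' : χ = χ₁ := by
        have := congrArg Subtype.val h
        rw [hψ₁v] at this
        exact this
      subst hχ'
      exact ⟨by rw [← hin1, hψ₁v], hreal1⟩
    · have hχ' : χ = χ₂ := by
        have := congrArg Subtype.val h
        rw [hψ₂v] at this
        exact this
      subst hχ'
      exact ⟨by rw [← hin2, hψ₂v], hreal2⟩
  have hsymm : (orbMat G ℂ a₀ b)ᵀ = orbMat G ℂ a₀ b := by
    have := symm_of_multFree_real hmfr (Matrix.toLin' (orbMat G ℂ a₀ b))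
      (toLin'_comm_of_invariant _ (orbMat_smul_smul G ℂ a₀ b))
    rwa [LinearMap.toMatrix'_toLin'] at this
  obtain ⟨A, hAdef⟩ : ∃ A : Module.End ℂ (Ω → ℂ), A = Matrix.toLin' (orbMat G ℂ a₀ b) :=
    ⟨_, rfl⟩
  have hA : ∀ g, A ∘ₗ Cfsg.permRep ℂ G Ω g = Cfsg.permRep ℂ G Ω g ∘ₗ A := by
    rw [hAdef]; exact toLin'_comm_of_invariant _ (orbMat_smul_smul G ℂ a₀ b)
  have hint : ∀ μ, A.HasEigenvalue μ → IsIntegral ℤ μ := by
    intro μ hμ
    rw [hAdef, ← orbMat_map_intCast] at hμ
    exact isIntegral_of_hasEigenvalue_intMatrix _ μ hμ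
  have hv : (fun _ : Ω => (1 : ℂ)) ≠ 0 := by
    intro h
    have := congrFun h a₀
    simp at this
  have hfix : ∀ g, Cfsg.permRep ℂ G Ω g (fun _ => 1) = fun _ => 1 := fun g => rfl
  have hAv : A (fun _ => 1) = (k : ℂ) • (fun _ : Ω => (1 : ℂ)) := by
    rw [hAdef, hkdef]
    funext x
    rw [Matrix.toLin'_apply]
    simp only [Matrix.mulVec, dotProduct, mul_one, Pi.smul_apply, smul_eq_mul]
    exact orbMat_row_sum G a₀ b x
  obtain ⟨θ, hθ1, hθ2, hθ3⟩ := trace_pow_of_multFree (Cfsg.permRep ℂ G Ω) A hA hmf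
  have hθt : θ (trivialIrr G) = k := hθ3 k _ hv hfix hAv hone
  have htrace : ∀ j : ℕ, LinearMap.trace ℂ _ (A ^ j) =
      (k : ℂ) ^ j + ((m : ℂ) - 1) * (θ ψ₁) ^ j + m * (θ ψ₂) ^ j := by
    intro j
    rw [hθ2 j, finsum_irr_eq_sum]
    have hterm : ∀ χ : IrrCharacter G,
        classInner (Cfsg.permRep ℂ G Ω).character χ.1 * χ.1 1 * θ χ ^ j =
        (if trivialIrr G = χ then (k : ℂ) ^ j else 0) +
          (if ψ₁ = χ then ((m : ℂ) - 1) * θ ψ₁ ^ j else 0) +
          (if ψ₂ = χ then (m : ℂ) * θ ψ₂ ^ j else 0) := by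
      intro χ
      rw [hin χ]
      by_cases e0 : trivialIrr G = χ
      · subst e0
        rw [if_pos rfl, if_neg ht1, if_neg ht2, if_pos rfl, if_neg ht1, if_neg ht2, hθt]
        have : (trivialIrr G).1 1 = 1 := rfl
        rw [this]
        ring
      · by_cases e1 : ψ₁ = χ
        · subst e1
          rw [if_neg e0, if_pos rfl, if_neg (Ne.symm h12), if_neg e0, if_pos rfl,
            if_neg (Ne.symm h12), hψ₁v, hd₁]
          ring
        · by_cases e2 : ψ₂ = χ
          · subst e2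
            rw [if_neg e0, if_neg e1, if_pos rfl, if_neg e0, if_neg e1, if_pos rfl, hψ₂v, hd₂]
            ring
          · rw [if_neg e0, if_neg e1, if_neg e2, if_neg e0, if_neg e1, if_neg e2]
            ring
    rw [Finset.sum_congr rfl (fun χ _ => hterm χ), Finset.sum_add_distrib,
      Finset.sum_add_distrib, Finset.sum_ite_eq, Finset.sum_ite_eq, Finset.sum_ite_eq]
    simp
  -- the three traces
  have htr1 : LinearMap.trace ℂ _ (A ^ 1) = 0 := by
    rw [pow_one, hAdef, Matrix.trace_toLin'_eq, Matrix.trace]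
    exact Finset.sum_eq_zero fun x _ => orbMat_diag G ℂ hb x
  have htr2 : LinearMap.trace ℂ _ (A ^ 2) = 2 * (m : ℂ) * k := by
    rw [hAdef, pow_two, Module.End.mul_eq_comp, ← Matrix.toLin'_mul, Matrix.trace_toLin'_eq,
      Matrix.trace]
    simp only [Matrix.diag_apply, Matrix.mul_apply]
    have h01 : ∀ x y : Ω, orbMat G ℂ a₀ b x y * orbMat G ℂ a₀ b y x = orbMat G ℂ a₀ b x y := by
      intro x y
      have h1 : orbMat G ℂ a₀ b y x = orbMat G ℂ a₀ b x y := by
        have := congrFun (congrFun hsymm y) x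
        rw [Matrix.transpose_apply] at this
        exact this.symm
      rw [h1]
      simp only [orbMat]
      split_ifs <;> simp
    rw [Finset.sum_congr rfl (fun x _ => Finset.sum_congr rfl (fun y _ => h01 x y))]
    simp_rw [orbMat_row_sum G a₀ b]
    rw [Finset.sum_const, Finset.card_univ, hm, ← hkdef]
    simp
  have htr3 : ∃ T : ℤ, LinearMap.trace ℂ _ (A ^ 3) = T := by
    rw [hAdef, pow_succ, pow_two, Module.End.mul_eq_comp, Module.End.mul_eq_comp,
      ← Matrix.toLin'_mul, ← Matrix.toLin'_mul, Matrix.trace_toLin'_eq, ← orbMat_map_intCast,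
      ← Matrix.map_mul, ← Matrix.map_mul]
    refine ⟨Matrix.trace (orbMat G ℤ a₀ b * orbMat G ℤ a₀ b * orbMat G ℤ a₀ b), ?_⟩
    rw [← AddMonoidHom.map_trace (Int.castRingHom ℂ)]
    rfl
  obtain ⟨T, hT⟩ := htr3
  have E1 := htrace 1
  rw [htr1] at E1
  have E2 := htrace 2
  rw [htr2] at E2
  have E3 := htrace 3
  rw [hT] at E3
  obtain ⟨u, hu⟩ := wielandt_u m k l (by omega) (by omega) (by omega) hn (θ ψ₁) (θ ψ₂)
    (hint _ (hθ1 ψ₁ hin1)) (hint _ (hθ1 ψ₂ hin2)) T (by linear_combination -E1)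
    (by linear_combination -E2) (by linear_combination -E3)
  exact wielandt_arith m k l hk2 hl2 hn u hu

end WielandtMain

end Cfsg.Agent.H16
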